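import Cfsg.Agent.Lib.Helper4.GolayDod2
import Cfsg.Agent.Lib.Helper4.GolayTrans
import Cfsg.Agent.Lib.Helper28.Leech

set_option autoImplicit false

namespace Cfsg.Agent.Lib.Helper4
namespace Golay

open Pointwise Cfsg.Agent.Lib.Helper28

/-- A second dodecad, meeting `D0` in eight points. -/
def D1 : ℕ := 2887007

theorem D1_dod : support₂ (word D1) ∈ dodecads := by
  refine ⟨⟨word D1, ?_, rfl⟩, ?_⟩
  · rw [SetLike.mem_coe, golay_eq]
    apply red_sound basisP _ _ basisP_mem
    have : red basisP D1 = 0 := by decide +kernel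
    rw [this, word_zero]
    exact Submodule.zero_mem _
  · rw [card_support, hammingNorm_word]
    decide +kernel

theorem D01_wt : pc (D0 ^^^ D1) = 8 := by decide +kernel

/-- The action used in the statement. -/
theorem act_support (w : GolayPt → ZMod 2) (σ : Equiv.Perm GolayPt) :
    support₂ (fun p => w (σ.symm p)) = σ • support₂ w := by
  have h := support_comp w (σ⁻¹)
  rw [inv_inv] at h
  exact h

theorem span_basis_le {W : Submodule (ZMod 2) (GolayPt → ZMod 2)}
    (h : ∀ b ∈ basis, word b ∈ W) : golayCode ≤ W := by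
  rw [golay_eq]
  exact sp_le h

/-- An invariant subspace containing an octad word contains the code. -/
theorem octad_case (W : Submodule (ZMod 2) (GolayPt → ZMod 2))
    (hW : ∀ σ ∈ M24, ∀ w ∈ W, (fun p => w (σ.symm p)) ∈ W)
    (o : GolayPt → ZMod 2) (hoW : o ∈ W) (hoC : o ∈ golayCode) (ho8 : hammingNorm o = 8) :
    golayCode ≤ W := by
  apply span_basis_le
  intro b hb
  have h1 : support₂ o ∈ octads := ⟨⟨o, hoC, rfl⟩, by rw [card_support, ho8]⟩
  obtain ⟨g, hg, e⟩ := octad_trans _ _ h1 (basis_octad hb)
  have h2 := hW g hg o hoW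
  have h3 : (fun p => o (g.symm p)) = word b := by
    apply support_injective
    rw [act_support, e]
  rw [← h3]
  exact h2

theorem one_eq_fun : (fun _ : GolayPt => (1 : ZMod 2)) = 1 := rfl

theorem z2_add_one_ne : ∀ a : ZMod 2, (a + 1 ≠ 0 ↔ ¬ a ≠ 0) := by decide

theorem hammingNorm_one_add (w : GolayPt → ZMod 2) :
    hammingNorm (w + 1) = 24 - hammingNorm w := by
  classical
  have h1 : hammingNorm (w + 1) = (Finset.univ.filter (fun i => ¬ w i ≠ 0)).card := by
    unfold hammingNorm
    refine congrArg Finset.card (Finset.filter_congr ?_)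
    intro i _
    rw [Pi.add_apply, Pi.one_apply]
    exact z2_add_one_ne (w i)
  have h2 := Finset.card_filter_add_card_filter_not (s := (Finset.univ : Finset GolayPt))
    (fun i => w i ≠ 0)
  rw [Finset.card_univ, card_golayPt] at h2
  rw [h1]
  unfold hammingNorm
  omega

theorem irreducible (W : Submodule (ZMod 2) (GolayPt → ZMod 2))
    (h1 : (fun _ => (1 : ZMod 2)) ∈ W) (hWC : W ≤ golayCode)
    (hW : ∀ σ ∈ M24, ∀ w ∈ W, (fun p => w (σ.symm p)) ∈ W) :
    W = Submodule.span (ZMod 2) {fun _ => (1 : ZMod 2)} ∨ W = golayCode := by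
  rw [one_eq_fun] at h1 ⊢
  by_cases hall : ∀ w ∈ W, w = 0 ∨ w = 1
  · left
    apply le_antisymm
    · intro w hw
      rcases hall w hw with rfl | rfl
      · exact Submodule.zero_mem _
      · exact Submodule.subset_span rfl
    · rw [Submodule.span_le]
      rintro w rfl
      exact h1
  · right
    push Not at hall
    obtain ⟨w, hw, hw0, hw1⟩ := hall
    apply le_antisymm hWC
    have hwC := hWC hw
    have hn0 : hammingNorm w ≠ 0 := by
      rw [Ne, hammingNorm_eq_zero]
      exact hw0
    have hn24 : hammingNorm w ≠ 24 := by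
      intro h
      apply hw1
      have h2 : hammingNorm (w + 1) = 0 := by rw [hammingNorm_one_add, h]
      rw [hammingNorm_eq_zero] at h2
      have h3 : w = w + 1 + 1 := by
        funext i
        rw [Pi.add_apply, Pi.add_apply, Pi.one_apply]
        rcases z2_cases (w i) with h | h <;> rw [h] <;> decide
      rw [h3, h2, zero_add]
    rcases weights w hwC with h | h | h | h | h
    · exact absurd h hn0
    · exact octad_case W hW w hw hwC h
    · -- a dodecad
      have hd : support₂ w ∈ dodecads := ⟨⟨w, hwC, rfl⟩, by rw [card_support, h]⟩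
      obtain ⟨g0, hg0, e0⟩ := dod_trans hd D0_dod
      obtain ⟨g1, hg1, e1⟩ := dod_trans hd D1_dod
      have h0 : (fun p => w (g0.symm p)) = word D0 := by
        apply support_injective
        rw [act_support, e0]
      have h1' : (fun p => w (g1.symm p)) = word D1 := by
        apply support_injective
        rw [act_support, e1]
      have hW0 : word D0 ∈ W := by
        rw [← h0]
        exact hW g0 hg0 w hw
      have hW1 : word D1 ∈ W := by
        rw [← h1']
        exact hW g1 hg1 w hw
      have hsum : word (D0 ^^^ D1) ∈ W := by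
        rw [word_xor]
        exact W.add_mem hW0 hW1
      exact octad_case W hW _ hsum (hWC hsum) (by rw [hammingNorm_word, D01_wt])
    · -- complement of an octad
      have hw' : w + 1 ∈ W := W.add_mem hw h1
      exact octad_case W hW _ hw' (hWC hw') (by rw [hammingNorm_one_add, h])
    · exact absurd h hn24

end Golay
end Cfsg.Agent.Lib.Helper4
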