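import Cfsg.Agent.Lib.Helper4.AuC
import Cfsg.Agent.S0370
import Cfsg.Agent.S0371
import Cfsg.Agent.S0372

set_option autoImplicit false

namespace Cfsg.Agent.Lib.Helper4
namespace AutA

open Pointwise Golay

/-- The translation `x ↦ x + 1` of the projective line. -/
abbrev tT : Equiv.Perm GolayPt := Equiv.optionCongr (Equiv.addRight (1 : ZMod 23))

/-- The dilation by a unit. -/
abbrev dD (u : (ZMod 23)ˣ) : Equiv.Perm GolayPt := Equiv.optionCongr (Units.mulLeft u)

/-- The unit `2`, a square. -/
def u2 : (ZMod 23)ˣ := ⟨2, 12, by decide, by decide⟩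

theorem u2_sq : IsSquare u2 := ⟨⟨5, 14, by decide, by decide⟩, Units.ext (by decide)⟩

theorem tT_mem : tT ∈ M24 := Cfsg.Agent.S0370.result

theorem dD_mem (u : (ZMod 23)ˣ) (hu : IsSquare u) : dD u ∈ M24 := Cfsg.Agent.S0371.result u hu

theorem tT_pow (n : ℕ) (x : ZMod 23) : (tT ^ n) (some x) = some (x + n) := by
  induction n generalizing x with
  | zero => simp
  | succ k ih =>
    rw [pow_succ, Equiv.Perm.mul_apply]
    show (tT ^ k) (some (x + 1)) = _
    rw [ih]
    congr 1
    push_cast
    ring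

theorem tT_pow_none (n : ℕ) : (tT ^ n) none = none :=
  Subgroup.pow_mem (MulAction.stabilizer (Equiv.Perm GolayPt) (none : GolayPt))
    (show tT ∈ MulAction.stabilizer (Equiv.Perm GolayPt) (none : GolayPt) from rfl) n

theorem tT_pow23 : tT ^ 23 = 1 := by
  apply Equiv.ext
  intro x
  cases x with
  | none => exact tT_pow_none 23
  | some x =>
    rw [tT_pow]
    show some (x + ((23 : ℕ) : ZMod 23)) = some x
    congr 1
    have : ((23 : ℕ) : ZMod 23) = 0 := by decide
    rw [this, add_zero]

theorem tT_ne_one : tT ≠ 1 := by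
  intro h
  have := congrArg (fun f : Equiv.Perm GolayPt => f (some 0)) h
  exact absurd this (by decide)

theorem dD2_pow11 : dD u2 ^ 11 = 1 := by
  apply Equiv.ext
  decide +kernel

theorem dD2_ne_one : dD u2 ≠ 1 := by
  intro h
  have := congrArg (fun f : Equiv.Perm GolayPt => f (some 1)) h
  exact absurd this (by decide)

theorem dD2_conj : dD u2 * tT * (dD u2)⁻¹ = tT ^ 2 := by
  apply Equiv.ext
  decide +kernel

theorem dD2_conj' : (dD u2)⁻¹ * tT * dD u2 = tT ^ 12 := by
  apply Equiv.ext
  decide +kernel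

/-- A permutation fixing the extra point and normalising the translation is affine. -/
theorem affine {m : Equiv.Perm GolayPt} (hm : m none = none)
    (hn : m * tT * m⁻¹ ∈ Subgroup.zpowers tT) :
    ∃ b c0 : ZMod 23, ∀ x : ZMod 23, m (some x) = some (b + x * c0) := by
  obtain ⟨k, hk⟩ := Subgroup.mem_zpowers_iff.1 hn
  obtain ⟨c, hc⟩ : ∃ c, c = m * tT * m⁻¹ := ⟨_, rfl⟩
  rw [← hc] at hk
  have hcomm : c * tT = tT * c := by
    rw [← hk]
    exact ((Commute.refl tT).zpow_left k).eq
  have hcn : c none = none := by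
    rw [← hk]
    exact Subgroup.zpow_mem (MulAction.stabilizer (Equiv.Perm GolayPt) (none : GolayPt))
      (show tT ∈ MulAction.stabilizer (Equiv.Perm GolayPt) (none : GolayPt) from rfl) k
  have hmc : ∀ y, m (tT y) = c (m y) := by
    intro y
    rw [hc]
    simp [Equiv.Perm.mul_apply]
  have hsome : ∀ (f : Equiv.Perm GolayPt), f none = none → ∀ x : ZMod 23,
      ∃ y, f (some x) = some y := by
    intro f hf x
    cases h : f (some x) with
    | none => exact absurd (f.injective (h.trans hf.symm)) (by simp)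
    | some y => exact ⟨y, rfl⟩
  obtain ⟨c0, hc0⟩ := hsome c hcn 0
  obtain ⟨b, hb⟩ := hsome m hm 0
  have hcT : ∀ (n : ℕ) y, c ((tT ^ n) y) = (tT ^ n) (c y) := by
    intro n
    induction n with
    | zero => intro y; simp
    | succ j ih =>
      intro y
      rw [pow_succ, Equiv.Perm.mul_apply, Equiv.Perm.mul_apply, ih]
      have := congrArg (fun f : Equiv.Perm GolayPt => f y) hcomm
      simp only [Equiv.Perm.mul_apply] at this
      rw [this]
  have hcx : ∀ x : ZMod 23, c (some x) = some (c0 + x) := by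
    intro x
    have h1 := hcT x.val (some 0)
    rw [tT_pow, hc0, tT_pow, ZMod.natCast_zmod_val, zero_add] at h1
    exact h1
  have hmx : ∀ n : ℕ, m (some (n : ZMod 23)) = some (b + n * c0) := by
    intro n
    induction n with
    | zero => simpa using hb
    | succ j ih =>
      have h1 := hmc (some (j : ZMod 23))
      rw [ih, hcx] at h1
      have e : tT (some (j : ZMod 23)) = some ((j : ZMod 23) + 1) := rfl
      rw [e] at h1
      push_cast
      rw [h1]
      congr 1
      ring
  refine ⟨b, c0, fun x => ?_⟩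
  have := hmx x.val
  rwa [ZMod.natCast_zmod_val] at this

theorem pt_one_ne_zero : ¬ ((some 1 : GolayPt) = some 0) := by decide

theorem key_dec : ∀ b c0 : ZMod 23, b + (b + 0 * c0) * c0 = 0 → b + (b + 1 * c0) * c0 = 1 →
    (c0 = 1 ∧ b = 0) ∨ c0 = -1 := by decide +kernel

theorem key_dec2 : ∀ b x : ZMod 23, b + x * (-1) = x → x = 12 * b := by decide +kernel

theorem key_dec3 : ∀ b : ZMod 23, b + (12 * b) * (-1) = 12 * b := by decide +kernel

/-- A subgroup of `M24` fixing the extra point, normalising the translation and containing the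
translation and the doubling map has order 253. -/
theorem card_norm23 (X : Subgroup (Equiv.Perm GolayPt)) (hX : X ≤ M24)
    (hfix : ∀ k ∈ X, k none = none)
    (hnorm : ∀ k ∈ X, k * tT * k⁻¹ ∈ Subgroup.zpowers tT)
    (hT : tT ∈ X) (hD : dD u2 ∈ X) : Nat.card X = 253 := by
  classical
  have p23 : Fact (Nat.Prime 23) := ⟨by norm_num⟩
  have p11 : Fact (Nat.Prime 11) := ⟨by norm_num⟩
  have p2 : Fact (Nat.Prime 2) := ⟨Nat.prime_two⟩
  have haff := fun k hk => affine (hfix k hk) (hnorm k hk)
  have h1 : Nat.card ↥(stp (stp X (some 0)) (some 1)) = 1 := by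
    rw [Subgroup.card_eq_one, Subgroup.eq_bot_iff_forall]
    intro k hk
    obtain ⟨⟨hkX, hk0⟩, hk1⟩ := hk
    obtain ⟨b, c0, hbc⟩ := haff k hkX
    have e0 : k (some 0) = some 0 := hk0
    have e1 : k (some 1) = some 1 := hk1
    rw [hbc] at e0 e1
    have hb : b = 0 := by simpa using e0
    have hc : c0 = 1 := by simpa [hb] using e1
    apply Equiv.ext
    intro x
    cases x with
    | none => exact hfix k hkX
    | some x => rw [hbc, hb, hc]; simp
  have hc1 := card_orb' X (some 0)
  have hc2 := card_orb' (stp X (some 0)) (some 1)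
  rw [h1, mul_one] at hc2
  have ho1 : (orb X (some 0)).card ≤ 23 := by
    have hsub : orb X (some 0) ⊆ Finset.univ.erase none := by
      intro y hy
      obtain ⟨k, hk, rfl⟩ := mem_orb.1 hy
      rw [Finset.mem_erase]
      refine ⟨?_, Finset.mem_univ _⟩
      intro h
      have := k.injective (h.trans (hfix k hk).symm)
      exact absurd this (by simp)
    have := Finset.card_le_card hsub
    rw [Finset.card_erase_of_mem (Finset.mem_univ _), Finset.card_univ, card_pts] at this
    exact this
  have ho2 : (orb (stp X (some 0)) (some 1)).card ≤ 22 := by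
    have hsub : orb (stp X (some 0)) (some 1) ⊆ (Finset.univ.erase none).erase (some 0) := by
      intro y hy
      obtain ⟨k, hk, rfl⟩ := mem_orb.1 hy
      rw [Finset.mem_erase, Finset.mem_erase]
      refine ⟨?_, ?_, Finset.mem_univ _⟩
      · intro h
        have := k.injective (h.trans (show k (some 0) = some 0 from hk.2).symm)
        exact absurd this pt_one_ne_zero
      · intro h
        have := k.injective (h.trans (hfix k hk.1).symm)
        exact absurd this (by simp)
    have := Finset.card_le_card hsub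
    rw [Finset.card_erase_of_mem (by simp), Finset.card_erase_of_mem (Finset.mem_univ _),
      Finset.card_univ, card_pts] at this
    exact this
  have hd23 : 23 ∣ Nat.card X := by
    have h := Subgroup.card_dvd_of_le ((Subgroup.zpowers_le).2 hT)
    rwa [Nat.card_zpowers, orderOf_eq_prime tT_pow23 tT_ne_one] at h
  have hd11 : 11 ∣ Nat.card X := by
    have h := Subgroup.card_dvd_of_le ((Subgroup.zpowers_le).2 hD)
    rwa [Nat.card_zpowers, orderOf_eq_prime dD2_pow11 dD2_ne_one] at h
  have hodd : ¬ 2 ∣ Nat.card X := by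
    intro h2
    obtain ⟨t, ht, ht2, ht1⟩ := cauchy_elt X 2 h2
    obtain ⟨b, c0, hbc⟩ := haff t ht
    have htt : t * t = 1 := by rw [← pow_two]; exact ht2
    have e0 : t (t (some 0)) = some 0 := by
      have := congrArg (fun f : Equiv.Perm GolayPt => f (some 0)) htt
      simpa using this
    have e1 : t (t (some 1)) = some 1 := by
      have := congrArg (fun f : Equiv.Perm GolayPt => f (some 1)) htt
      simpa using this
    rw [hbc, hbc] at e0 e1
    have e0' : b + (b + 0 * c0) * c0 = 0 := Option.some.inj e0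
    have e1' : b + (b + 1 * c0) * c0 = 1 := Option.some.inj e1
    rcases key_dec b c0 e0' e1' with ⟨hc, hb⟩ | hc
    · apply ht1
      apply Equiv.ext
      intro x
      cases x with
      | none => exact hfix t ht
      | some x => rw [hbc, hb, hc]; simp
    · have hfx : ∀ x, t (some x) = some x → x = 12 * b := by
        intro x hx
        rw [hbc, hc] at hx
        exact key_dec2 b x (Option.some.inj hx)
      have hfb : t (some (12 * b)) = some (12 * b) := by
        rw [hbc, hc]
        exact congrArg some (key_dec3 b)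
      have h8 := inv_two_fix (hX ht) htt ht1 (p := none) (q := some (12 * b)) (by simp)
        (hfix t ht) hfb
      have hsub : Finset.univ.filter (fun x => t x = x) ⊆ {none, some (12 * b)} := by
        intro x hx
        rw [Finset.mem_filter] at hx
        rw [Finset.mem_insert, Finset.mem_singleton]
        cases x with
        | none => exact Or.inl rfl
        | some x => exact Or.inr (congrArg some (hfx x hx.2))
      have h3 := Finset.card_le_card hsub
      have h2' : ({none, some (12 * b)} : Finset GolayPt).card ≤ 2 := Finset.card_le_two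
      omega
  have ha0 := orb_pos X (some 0)
  have hb0 := orb_pos (stp X (some 0)) (some 1)
  rw [hc2] at hc1
  obtain ⟨a, ha⟩ : ∃ a, a = (orb X (some 0)).card := ⟨_, rfl⟩
  obtain ⟨bb, hbb⟩ : ∃ a, a = (orb (stp X (some 0)) (some 1)).card := ⟨_, rfl⟩
  rw [← ha] at hc1 ho1 ha0
  rw [← hbb] at hc1 ho2 hb0
  rw [hc1] at hd23 hd11 hodd ⊢
  have h23 : a = 23 := by
    rcases (Nat.Prime.dvd_mul (by norm_num : Nat.Prime 23)).1 hd23 with h | h
    · obtain ⟨q, rfl⟩ := h
      omega
    · obtain ⟨q, rfl⟩ := h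
      omega
  subst h23
  have h11 : 11 ∣ bb := by
    rcases (Nat.Prime.dvd_mul (by norm_num : Nat.Prime 11)).1 hd11 with h | h
    · omega
    · exact h
  obtain ⟨q, rfl⟩ := h11
  have hq : q = 1 := by
    by_contra hq
    have hq2 : q = 2 := by omega
    subst hq2
    exact hodd ⟨253, by norm_num⟩
  subst hq
  rfl

theorem mem_norm_zpowers {G : Type*} [Group G] {g t : G} (h1 : g * t * g⁻¹ ∈ Subgroup.zpowers t)
    (h2 : g⁻¹ * t * g ∈ Subgroup.zpowers t) :
    g ∈ Subgroup.normalizer ((Subgroup.zpowers t : Subgroup G) : Set G) := by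
  rw [Subgroup.mem_normalizer_iff]
  intro h
  constructor
  · intro hh
    obtain ⟨k, rfl⟩ := Subgroup.mem_zpowers_iff.1 hh
    rw [← conj_zpow]
    exact Subgroup.zpow_mem _ h1 k
  · intro hh
    obtain ⟨k, hk⟩ := Subgroup.mem_zpowers_iff.1 hh
    have e : h = (g⁻¹ * t * g) ^ k := by
      have h3 := conj_zpow (a := g⁻¹) (b := t) (i := k)
      rw [inv_inv] at h3
      rw [h3, hk]
      group
    rw [e]
    exact Subgroup.zpow_mem _ h2 k

theorem conj_of_affine {k : Equiv.Perm GolayPt} (hk : k none = none) (b c0 : ZMod 23)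
    (h : ∀ x, k (some x) = some (b + x * c0)) : k * tT * k⁻¹ ∈ Subgroup.zpowers tT := by
  have e : k * tT * k⁻¹ = tT ^ c0.val := by
    apply Equiv.ext
    intro y
    obtain ⟨z, rfl⟩ := k.surjective y
    have e1 : k⁻¹ (k z) = z := by simp
    rw [Equiv.Perm.mul_apply, Equiv.Perm.mul_apply, e1]
    cases z with
    | none =>
      rw [hk, tT_pow_none]
      exact hk
    | some x =>
      show k (some (x + 1)) = _
      rw [h, h, tT_pow, ZMod.natCast_zmod_val]
      congr 1
      ring
  rw [e]
  exact Subgroup.pow_mem _ (Subgroup.mem_zpowers tT) _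

theorem orb_le23 (X : Subgroup (Equiv.Perm GolayPt)) (hfix : ∀ k ∈ X, k none = none)
    (x : ZMod 23) : (orb X (some x)).card ≤ 23 := by
  have hsub : orb X (some x) ⊆ Finset.univ.erase none := by
    intro y hy
    obtain ⟨k, hk, rfl⟩ := mem_orb.1 hy
    rw [Finset.mem_erase]
    refine ⟨?_, Finset.mem_univ _⟩
    intro h
    have := k.injective (h.trans (hfix k hk).symm)
    exact absurd this (by simp)
  have := Finset.card_le_card hsub
  rw [Finset.card_erase_of_mem (Finset.mem_univ _), Finset.card_univ, card_pts] at this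
  exact this

theorem zmod_succ_ne : ∀ y : ZMod 23, y + 1 ≠ y := by decide

/-- In a subgroup of `M24` fixing two points and of order divisible by 11, the normaliser of a
Sylow 11-subgroup has odd order. -/
theorem syl11_odd (K : Subgroup (Equiv.Perm GolayPt)) (hK : K ≤ M24) {p q : GolayPt}
    (hpq : p ≠ q) (hp : ∀ k ∈ K, k p = p) (hq : ∀ k ∈ K, k q = q) (h11 : 11 ∣ Nat.card K) :
    ∃ n m, Nat.card K = n * m ∧ n % 11 = 1 ∧ ¬ 2 ∣ m := by
  classical
  have p11 : Fact (Nat.Prime 11) := ⟨by norm_num⟩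
  have p2 : Fact (Nat.Prime 2) := ⟨Nat.prime_two⟩
  have hdvd : Nat.card K ∣ 443520 := by
    rw [← card_stab2 p q hpq]
    exact Subgroup.card_dvd_of_le (fun k hk => ⟨⟨hK hk, hp k hk⟩, hq k hk⟩)
  obtain ⟨j, hj⟩ := h11
  have hj0 : j ≠ 0 := by
    rintro rfl
    rw [mul_zero] at hj
    exact absurd hj Nat.card_pos.ne'
  have hj11 : ¬ 11 ∣ j := by
    rintro ⟨i, rfl⟩
    rw [hj] at hdvd
    have h121 : 121 ∣ 443520 := Dvd.dvd.trans ⟨i, by ring⟩ hdvd
    omega
  have hfac : (Nat.card K).factorization 11 = 1 := by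
    rw [hj, Nat.factorization_mul (by norm_num) hj0, Finsupp.add_apply,
      Nat.Prime.factorization_self (by norm_num), Nat.factorization_eq_zero_of_not_dvd hj11]
  obtain ⟨P⟩ : Nonempty (Sylow 11 K) := inferInstance
  have hP : Nat.card (P : Subgroup K) = 11 := by
    rw [Sylow.card_eq_multiplicity, hfac, pow_one]
  have hn2 : Nat.card (Sylow 11 K) % 11 = 1 := by
    have h := card_sylow_modEq_one 11 K
    unfold Nat.ModEq at h
    rw [h]
  have hn3 : Nat.card (Sylow 11 K) *
      Nat.card (Subgroup.normalizer ((P : Subgroup K) : Set K)) = Nat.card K := by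
    rw [Sylow.card_eq_index_normalizer P]
    exact Subgroup.index_mul_card _
  refine ⟨_, _, hn3.symm, hn2, ?_⟩
  intro hN2
  obtain ⟨t, ht⟩ := exists_prime_orderOf_dvd_card'
    (G := ↥(Subgroup.normalizer ((P : Subgroup K) : Set K))) 2 hN2
  obtain ⟨g, hg⟩ := exists_prime_orderOf_dvd_card' (G := ↥(P : Subgroup K)) 11 (by rw [hP])
  have hg11 : ((g : K) : Equiv.Perm GolayPt) ^ 11 = 1 := by
    have h := pow_orderOf_eq_one g
    rw [hg] at h
    have h2 := congrArg (fun z : ↥(P : Subgroup K) => ((z : K) : Equiv.Perm GolayPt)) h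
    simpa using h2
  have hg1 : ((g : K) : Equiv.Perm GolayPt) ≠ 1 := by
    intro h
    have e : g = 1 := Subtype.ext (Subtype.ext h)
    rw [e, orderOf_one] at hg
    omega
  have ht2 : ((t : K) : Equiv.Perm GolayPt) * ((t : K) : Equiv.Perm GolayPt) = 1 := by
    have h := pow_orderOf_eq_one t
    rw [ht, pow_two] at h
    have h2 := congrArg (fun z : ↥(Subgroup.normalizer ((P : Subgroup K) : Set K)) =>
      ((z : K) : Equiv.Perm GolayPt)) h
    simpa using h2
  have ht1 : ((t : K) : Equiv.Perm GolayPt) ≠ 1 := by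
    intro h
    have e : t = 1 := Subtype.ext (Subtype.ext h)
    rw [e, orderOf_one] at ht
    omega
  have hnorm : (t : K) * (g : K) * (t : K)⁻¹ ∈ (P : Subgroup K) := (t.2 (g : K)).mp g.2
  have hg1' : g ≠ 1 := by
    intro h
    rw [h, orderOf_one] at hg
    omega
  have hz : (⟨(t : K) * (g : K) * (t : K)⁻¹, hnorm⟩ : ↥(P : Subgroup K)) ∈ Subgroup.zpowers g :=
    mem_zpowers_of_prime_card hP hg1'
  obtain ⟨k, hk⟩ := Subgroup.mem_zpowers_iff.1 hz
  have hk' : ((g : K) : Equiv.Perm GolayPt) ^ k = ((t : K) : Equiv.Perm GolayPt) *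
      ((g : K) : Equiv.Perm GolayPt) * ((t : K) : Equiv.Perm GolayPt)⁻¹ := by
    have h2 := congrArg (fun z : ↥(P : Subgroup K) => ((z : K) : Equiv.Perm GolayPt)) hk
    simpa using h2
  exact no_inv_norm (hK (g : K).2) (hK (t : K).2) hg11 hg1 ht2 ht1
    (Subgroup.mem_zpowers_iff.2 ⟨k, hk'⟩) hpq (hp _ (g : K).2) (hq _ (g : K).2)
    (hp _ (t : K).2) (hq _ (t : K).2)

theorem no_fac_aux (N B : ℕ) (hN : 0 < N) (hB : N / 11 < B)
    (key : ∀ i < B, (11 * i + 1) ∣ N → 2 ∣ N / (11 * i + 1))
    (n m : ℕ) (h : N = n * m) (hn : n % 11 = 1) (hm : ¬ 2 ∣ m) : False := by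
  have hn0 : 0 < n := by omega
  have hdv : n ∣ N := ⟨m, h⟩
  have hle : n ≤ N := Nat.le_of_dvd hN hdv
  have e : 11 * (n / 11) + 1 = n := by omega
  have hlt : n / 11 < B := by
    have : n / 11 ≤ N / 11 := Nat.div_le_div_right hle
    omega
  have h2 := key (n / 11) hlt (by rw [e]; exact hdv)
  rw [e, Nat.div_eq_of_eq_mul_right hn0 h] at h2
  exact hm h2

theorem no_fac (N : ℕ) (hN : N = 264 ∨ N = 770 ∨ N = 6336 ∨ N = 18480) (n m : ℕ)
    (h : N = n * m) (hn : n % 11 = 1) (hm : ¬ 2 ∣ m) : False := by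
  rcases hN with rfl | rfl | rfl | rfl
  · exact no_fac_aux 264 25 (by norm_num) (by norm_num) (by decide +kernel) n m h hn hm
  · exact no_fac_aux 770 71 (by norm_num) (by norm_num) (by decide +kernel) n m h hn hm
  · exact no_fac_aux 6336 577 (by norm_num) (by norm_num) (by decide +kernel) n m h hn hm
  · exact no_fac_aux 18480 1681 (by norm_num) (by norm_num) (by decide +kernel) n m h hn hm

theorem n23_val (n : ℕ) (hd : n ∣ 40320) (hmod : n % 23 = 1) :
    n = 1 ∨ n = 24 ∨ n = 70 ∨ n = 576 ∨ n = 1680 ∨ n = 40320 := by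
  have key : ∀ j < 1754, (23 * j + 1) ∣ 40320 →
      j = 0 ∨ j = 1 ∨ j = 3 ∨ j = 25 ∨ j = 73 ∨ j = 1753 := by
    decide +kernel
  have hle : n ≤ 40320 := Nat.le_of_dvd (by norm_num) hd
  have e : 23 * (n / 23) + 1 = n := by omega
  have h := key (n / 23) (by omega) (by rw [e]; exact hd)
  omega

/-- A subgroup of `M24` fixing the extra point and containing the translation and the doubling
map has order 253 or is the full point stabiliser. -/
theorem core23 (K : Subgroup (Equiv.Perm GolayPt)) (hK : K ≤ M24)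
    (hfix : ∀ k ∈ K, k none = none) (hT : tT ∈ K) (hD : dD u2 ∈ K) :
    Nat.card K = 253 ∨ Nat.card K = 10200960 := by
  classical
  have p23 : Fact (Nat.Prime 23) := ⟨by norm_num⟩
  have hdvd : Nat.card K ∣ 10200960 := card_dvd_pt K hK hfix
  obtain ⟨T', hT'⟩ : ∃ T' : ↥K, T' = ⟨tT, hT⟩ := ⟨_, rfl⟩
  obtain ⟨D', hD'⟩ : ∃ D' : ↥K, D' = ⟨dD u2, hD⟩ := ⟨_, rfl⟩
  have hT'v : (T' : Equiv.Perm GolayPt) = tT := by rw [hT']
  have hD'v : (D' : Equiv.Perm GolayPt) = dD u2 := by rw [hD']
  have hT23 : T' ^ 23 = 1 := by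
    apply Subtype.ext
    rw [Subgroup.coe_pow, hT'v, tT_pow23]
    rfl
  have hT1 : T' ≠ 1 := by
    intro h
    apply tT_ne_one
    rw [← hT'v, h]
    rfl
  have hZ : Nat.card (Subgroup.zpowers T') = 23 := by
    rw [Nat.card_zpowers, orderOf_eq_prime hT23 hT1]
  have hd23 : 23 ∣ Nat.card K := by
    have := Subgroup.card_subgroup_dvd_card (Subgroup.zpowers T')
    rwa [hZ] at this
  obtain ⟨j, hj⟩ := hd23
  have hj0 : j ≠ 0 := by
    rintro rfl
    rw [mul_zero] at hj
    exact absurd hj Nat.card_pos.ne'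
  have hj23 : ¬ 23 ∣ j := by
    rintro ⟨i, rfl⟩
    rw [hj] at hdvd
    have h529 : 529 ∣ 10200960 := Dvd.dvd.trans ⟨i, by ring⟩ hdvd
    omega
  have hfac : (Nat.card K).factorization 23 = 1 := by
    rw [hj, Nat.factorization_mul (by norm_num) hj0, Finsupp.add_apply,
      Nat.Prime.factorization_self (by norm_num), Nat.factorization_eq_zero_of_not_dvd hj23]
  obtain ⟨P, hP⟩ : ∃ P : Sylow 23 K, (P : Subgroup K) = Subgroup.zpowers T' :=
    ⟨Sylow.ofCard (Subgroup.zpowers T') (by rw [hZ, hfac, pow_one]), Sylow.coe_ofCard _ _⟩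
  have hn2 : Nat.card (Sylow 23 K) % 23 = 1 := by
    have h := card_sylow_modEq_one 23 K
    unfold Nat.ModEq at h
    rw [h]
  have hn3 : Nat.card (Sylow 23 K) *
      Nat.card (Subgroup.normalizer ((P : Subgroup K) : Set K)) = Nat.card K := by
    rw [Sylow.card_eq_index_normalizer P]
    exact Subgroup.index_mul_card _
  rw [hP] at hn3
  obtain ⟨N, hN⟩ : ∃ N : Subgroup ↥K,
      N = Subgroup.normalizer ((Subgroup.zpowers T' : Subgroup ↥K) : Set ↥K) := ⟨_, rfl⟩
  rw [← hN] at hn3
  have hNcard : Nat.card N = 253 := by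
    have hX := card_norm23 (N.map K.subtype) ?_ ?_ ?_ ?_ ?_
    · rw [← hX]
      exact (Subgroup.card_map_of_injective K.subtype_injective).symm
    · rintro x ⟨n, -, rfl⟩
      exact hK n.2
    · rintro x ⟨n, -, rfl⟩
      exact hfix _ n.2
    · rintro x ⟨n, hn, rfl⟩
      rw [hN] at hn
      have h1 := (Subgroup.mem_normalizer_iff.1 hn T').1 (Subgroup.mem_zpowers T')
      obtain ⟨k, hk⟩ := Subgroup.mem_zpowers_iff.1 h1
      rw [Subgroup.mem_zpowers_iff]
      refine ⟨k, ?_⟩
      have h2 := congrArg (fun z : ↥K => (z : Equiv.Perm GolayPt)) hk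
      simp only [Subgroup.coe_zpow, Subgroup.coe_mul, Subgroup.coe_inv, hT'v] at h2
      exact h2
    · refine Subgroup.mem_map.2 ⟨T', ?_, hT'v⟩
      rw [hN]
      exact Subgroup.le_normalizer (Subgroup.mem_zpowers T')
    · refine Subgroup.mem_map.2 ⟨D', ?_, hD'v⟩
      rw [hN]
      apply mem_norm_zpowers
      · have e : D' * T' * D'⁻¹ = T' ^ 2 := by
          apply Subtype.ext
          simp only [Subgroup.coe_mul, Subgroup.coe_inv, Subgroup.coe_pow, hT'v, hD'v]
          exact dD2_conj
        rw [e]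
        exact Subgroup.pow_mem _ (Subgroup.mem_zpowers T') 2
      · have e : D'⁻¹ * T' * D' = T' ^ 12 := by
          apply Subtype.ext
          simp only [Subgroup.coe_mul, Subgroup.coe_inv, Subgroup.coe_pow, hT'v, hD'v]
          exact dD2_conj'
        rw [e]
        exact Subgroup.pow_mem _ (Subgroup.mem_zpowers T') 12
  rw [hNcard] at hn3
  obtain ⟨n23, hn23⟩ : ∃ n, n = Nat.card (Sylow 23 K) := ⟨_, rfl⟩
  rw [← hn23] at hn2 hn3
  have hn23d : n23 ∣ 40320 := by
    rw [← hn3] at hdvd
    have e : (10200960 : ℕ) = 40320 * 253 := by norm_num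
    rw [e] at hdvd
    exact Nat.dvd_of_mul_dvd_mul_right (by norm_num : 0 < 253) hdvd
  have horb : (orb K (some 0)).card = 23 := by
    have h0 : (orb K (some 0)).card % 23 = 0 := by
      apply orb_mod0' hT 23 tT_pow23
      intro x hx
      obtain ⟨k, hk, rfl⟩ := mem_orb.1 hx
      cases hy : k (some 0) with
      | none => exact absurd (k.injective (hy.trans (hfix k hk).symm)) (by simp)
      | some y =>
        intro h
        exact zmod_succ_ne y (Option.some.inj h)
    have hle := orb_le23 K hfix 0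
    have hpos := orb_pos K (some 0)
    omega
  have hc1 := card_orb' K (some 0)
  rw [horb] at hc1
  have hK0 : Nat.card ↥(stp K (some 0)) = 11 * n23 := by
    have := hc1.symm.trans hn3.symm
    omega
  obtain ⟨n, m, hnm, hn11, hmodd⟩ := syl11_odd (stp K (some 0)) (inf_le_left.trans hK)
    (p := none) (q := some 0) (by simp) (fun k hk => hfix k hk.1) (fun k hk => hk.2)
    ⟨n23, hK0⟩
  rw [hK0] at hnm
  rcases n23_val n23 hn23d hn2 with h | h | h | h | h | h
  · left
    rw [← hn3, h]
  · exfalso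
    exact no_fac (11 * n23) (by subst h; norm_num) n m hnm hn11 hmodd
  · exfalso
    exact no_fac (11 * n23) (by subst h; norm_num) n m hnm hn11 hmodd
  · exfalso
    exact no_fac (11 * n23) (by subst h; norm_num) n m hnm hn11 hmodd
  · exfalso
    exact no_fac (11 * n23) (by subst h; norm_num) n m hnm hn11 hmodd
  · right
    rw [← hn3, h]

end AutA
end Cfsg.Agent.Lib.Helper4
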