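import Cfsg.Agent.Lib.Helper4.AuD

set_option autoImplicit false

namespace Cfsg.Agent.Lib.Helper4
namespace AutA

open Pointwise Golay

/-- Oriented difference on the projective line. -/
def dl : GolayPt → GolayPt → ZMod 23
  | some a, some b => a - b
  | none, some _ => 1
  | some _, none => -1
  | none, none => 0

/-- The orientation character of a triple of points. -/
def eE (p q r : GolayPt) : ZMod 23 := (dl p q * dl q r * dl r p) ^ 11

theorem dl_T (p q : GolayPt) : dl (tT p) (tT q) = dl p q := by
  cases p with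
  | none =>
    cases q with
    | none => rfl
    | some b => rfl
  | some a =>
    cases q with
    | none => rfl
    | some b =>
      show (a + 1) - (b + 1) = a - b
      ring

theorem eE_T (p q r : GolayPt) : eE (tT p) (tT q) (tT r) = eE p q r := by
  unfold eE
  rw [dl_T, dl_T, dl_T]

theorem sq_pow11 (u : (ZMod 23)ˣ) (hu : IsSquare u) : (u : ZMod 23) ^ 11 = 1 := by
  have p23 : Fact (Nat.Prime 23) := ⟨by norm_num⟩
  obtain ⟨r, rfl⟩ := hu
  have h := ZMod.units_pow_card_sub_one_eq_one 23 r
  have h2 : (r * r) ^ 11 = 1 := by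
    rw [← pow_two, ← pow_mul]
    exact h
  have h3 := congrArg Units.val h2
  rw [Units.val_pow_eq_pow_val, Units.val_one] at h3
  exact h3

theorem dl_D (u : (ZMod 23)ˣ) (h11 : (u : ZMod 23) ^ 11 = 1) (p q : GolayPt) :
    ∃ c : ZMod 23, c ^ 11 = 1 ∧ dl (dD u p) (dD u q) = c * dl p q := by
  cases p with
  | none =>
    cases q with
    | none => exact ⟨1, one_pow _, (one_mul _).symm⟩
    | some b => exact ⟨1, one_pow _, (one_mul _).symm⟩
  | some a =>
    cases q with
    | none => exact ⟨1, one_pow _, (one_mul _).symm⟩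
    | some b =>
      refine ⟨u, h11, ?_⟩
      show (u : ZMod 23) * a - u * b = u * (a - b)
      ring

theorem eE_D (u : (ZMod 23)ˣ) (hu : IsSquare u) (p q r : GolayPt) :
    eE (dD u p) (dD u q) (dD u r) = eE p q r := by
  have h11 := sq_pow11 u hu
  obtain ⟨c1, hc1, e1⟩ := dl_D u h11 p q
  obtain ⟨c2, hc2, e2⟩ := dl_D u h11 q r
  obtain ⟨c3, hc3, e3⟩ := dl_D u h11 r p
  unfold eE
  rw [e1, e2, e3]
  calc (c1 * dl p q * (c2 * dl q r) * (c3 * dl r p)) ^ 11
      = c1 ^ 11 * c2 ^ 11 * c3 ^ 11 * (dl p q * dl q r * dl r p) ^ 11 := by ring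
    _ = (dl p q * dl q r * dl r p) ^ 11 := by rw [hc1, hc2, hc3]; ring

theorem eE_J : ∀ p q r : GolayPt, eE (projInv p) (projInv q) (projInv r) = eE p q r := by
  decide +kernel

/-- The permutations preserving the orientation character. -/
def invE : Subgroup (Equiv.Perm GolayPt) where
  carrier := {g | ∀ p q r, eE (g p) (g q) (g r) = eE p q r}
  mul_mem' := by
    intro a b ha hb p q r
    rw [Equiv.Perm.mul_apply, Equiv.Perm.mul_apply, Equiv.Perm.mul_apply, ha, hb]
  one_mem' := fun p q r => rfl
  inv_mem' := by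
    intro a ha p q r
    have h := ha (a⁻¹ p) (a⁻¹ q) (a⁻¹ r)
    have e : ∀ x, a (a⁻¹ x) = x := fun x => by simp
    rw [e, e, e] at h
    exact h.symm

theorem mem_invE {g : Equiv.Perm GolayPt} :
    g ∈ invE ↔ ∀ p q r, eE (g p) (g q) (g r) = eE p q r := Iff.rfl

/-- Generators of the projective group. -/
abbrev genG : Set (Equiv.Perm GolayPt) :=
  ({Equiv.optionCongr (Equiv.addRight (1 : ZMod 23)), Cfsg.projInv} ∪
    {g : Equiv.Perm Cfsg.GolayPt | ∃ u : (ZMod 23)ˣ,
      IsSquare u ∧ g = Equiv.optionCongr (Units.mulLeft u)})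

/-- Generators of the Frobenius group. -/
abbrev genB : Set (Equiv.Perm GolayPt) :=
  ({Equiv.optionCongr (Equiv.addRight (1 : ZMod 23))} ∪
    {g : Equiv.Perm Cfsg.GolayPt | ∃ u : (ZMod 23)ˣ,
      IsSquare u ∧ g = Equiv.optionCongr (Units.mulLeft u)})

theorem genG_le : Subgroup.closure genG ≤ M24 := by
  rw [Subgroup.closure_le]
  rintro g (hg | ⟨u, hu, rfl⟩)
  · rcases hg with rfl | hg
    · exact tT_mem
    · rw [Set.mem_singleton_iff] at hg
      subst hg
      exact Cfsg.Agent.S0372.result
  · exact dD_mem u hu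

theorem genG_T : tT ∈ Subgroup.closure genG := Subgroup.subset_closure (Or.inl (Or.inl rfl))

theorem genG_J : projInv ∈ Subgroup.closure genG :=
  Subgroup.subset_closure (Or.inl (Or.inr rfl))

theorem genG_D : dD u2 ∈ Subgroup.closure genG :=
  Subgroup.subset_closure (Or.inr ⟨u2, u2_sq, rfl⟩)

theorem genG_inv : Subgroup.closure genG ≤ invE := by
  rw [Subgroup.closure_le]
  rintro g (hg | ⟨u, hu, rfl⟩)
  · rcases hg with rfl | hg
    · exact mem_invE.2 eE_T
    · rw [Set.mem_singleton_iff] at hg
      subst hg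
      exact mem_invE.2 eE_J
  · exact mem_invE.2 (eE_D u hu)

/-- Subgroups of `M24` containing the three generators have order 6072 or are everything. -/
theorem card_psl (K : Subgroup (Equiv.Perm GolayPt)) (hK : K ≤ M24) (hT : tT ∈ K)
    (hD : dD u2 ∈ K) (hJ : projInv ∈ K) : Nat.card K = 6072 ∨ Nat.card K = 244823040 := by
  classical
  have p23 : Fact (Nat.Prime 23) := ⟨by norm_num⟩
  have horb : (orb K none).card = 24 := by
    have h1 : (orb K none).card % 23 = 1 % 23 := by
      apply orb_mod1' hT 23 tT_pow23 rfl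
      intro x _ hx
      cases x with
      | none => rfl
      | some y =>
        have hy : y + 1 = y := Option.some.inj (show some (y + 1) = some y from hx)
        exact absurd hy (zmod_succ_ne y)
    have hle := orb_le24 K none
    have h2 : 2 ≤ (orb K none).card := by
      have hsub : ({none, some 0} : Finset GolayPt) ⊆ orb K none := by
        intro x hx
        rw [Finset.mem_insert, Finset.mem_singleton] at hx
        rcases hx with rfl | rfl
        · exact self_mem_orb K none
        · exact mem_orb.2 ⟨projInv, hJ, rfl⟩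
      have := Finset.card_le_card hsub
      rwa [Finset.card_pair (by simp)] at this
    omega
  have hc := card_orb' K none
  rw [horb] at hc
  rcases core23 (stp K none) (inf_le_left.trans hK) (fun k hk => hk.2) ⟨hT, rfl⟩ ⟨hD, rfl⟩
    with h | h
  · left
    rw [hc, h]
  · right
    rw [hc, h]

theorem pt_ne_a : (none : GolayPt) ≠ some 0 := by decide
theorem pt_ne_b : (none : GolayPt) ≠ some 1 := by decide
theorem pt_ne_c : (some 0 : GolayPt) ≠ some 1 := by decide
theorem eE_ne : eE none (some 1) (some 0) ≠ eE none (some 0) (some 1) := by decide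

theorem not_all_inv : ¬ (M24 ≤ invE) := by
  intro h
  obtain ⟨x, hx0, hx1, hx2⟩ := emb3 (none : GolayPt) (some 0) (some 1) pt_ne_a pt_ne_b pt_ne_c
  obtain ⟨y, hy0, hy1, hy2⟩ := emb3 (none : GolayPt) (some 1) (some 0) pt_ne_b pt_ne_a
    (Ne.symm pt_ne_c)
  obtain ⟨g, hg, hmap⟩ := exists_mapN (by norm_num : 3 ≤ 5) x y
  have e0 := hmap 0
  have e1 := hmap 1
  have e2 := hmap 2
  rw [hx0, hy0] at e0
  rw [hx1, hy1] at e1
  rw [hx2, hy2] at e2
  have h3 := mem_invE.1 (h hg) none (some 0) (some 1)
  rw [e0, e1, e2] at h3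
  exact eE_ne h3

theorem card_G : Nat.card ↥(Subgroup.closure genG) = 6072 := by
  rcases card_psl _ genG_le genG_T genG_D genG_J with h | h
  · exact h
  · exfalso
    have e : Subgroup.closure genG = M24 :=
      Subgroup.eq_of_le_of_card_ge genG_le (by rw [h, card_M24])
    apply not_all_inv
    rw [← e]
    exact genG_inv

theorem genB_le : Subgroup.closure genB ≤
    M24 ⊓ MulAction.stabilizer (Equiv.Perm GolayPt) (none : GolayPt) := by
  rw [Subgroup.closure_le]
  rintro g (hg | ⟨u, hu, rfl⟩)
  · rw [Set.mem_singleton_iff] at hg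
    subst hg
    exact ⟨tT_mem, rfl⟩
  · exact ⟨dD_mem u hu, rfl⟩

theorem genB_norm : ∀ k ∈ Subgroup.closure genB, k * tT * k⁻¹ ∈ Subgroup.zpowers tT := by
  have hle : Subgroup.closure genB ≤ Subgroup.normalizer
      ((Subgroup.zpowers tT : Subgroup (Equiv.Perm GolayPt)) : Set (Equiv.Perm GolayPt)) := by
    rw [Subgroup.closure_le]
    rintro g (hg | ⟨u, hu, rfl⟩)
    · rw [Set.mem_singleton_iff] at hg
      subst hg
      exact Subgroup.le_normalizer (Subgroup.mem_zpowers tT)
    · apply mem_norm_zpowers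
      · exact conj_of_affine rfl 0 u (fun x => by
          show some ((u : ZMod 23) * x) = some (0 + x * u)
          congr 1
          ring)
      · have e : (dD u)⁻¹ = dD u⁻¹ := by
          show (Equiv.optionCongr (Units.mulLeft u)).symm = Equiv.optionCongr (Units.mulLeft u⁻¹)
          rw [← Equiv.optionCongr_symm, Units.mulLeft_symm]
        have h := conj_of_affine (k := dD u⁻¹) rfl 0 ((u⁻¹ : (ZMod 23)ˣ) : ZMod 23)
          (fun x => by
            show some (((u⁻¹ : (ZMod 23)ˣ) : ZMod 23) * x) = some (0 + x * _)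
            congr 1
            ring)
        rw [← e, inv_inv] at h
        exact h
  intro k hk
  exact (Subgroup.mem_normalizer_iff.1 (hle hk) tT).1 (Subgroup.mem_zpowers tT)

theorem genB_T : tT ∈ Subgroup.closure genB := Subgroup.subset_closure (Or.inl rfl)

theorem genB_D : dD u2 ∈ Subgroup.closure genB :=
  Subgroup.subset_closure (Or.inr ⟨u2, u2_sq, rfl⟩)

theorem card_B : Nat.card ↥(Subgroup.closure genB) = 253 :=
  card_norm23 _ (genB_le.trans inf_le_left) (fun _ hk => (genB_le hk).2) genB_norm
    genB_T genB_D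

theorem coatom_G : IsCoatom ((Subgroup.closure genG).subgroupOf M24) := by
  constructor
  · intro h
    rw [Subgroup.subgroupOf_eq_top] at h
    have := Subgroup.card_le_of_le h
    rw [card_G, card_M24] at this
    omega
  · intro H' hlt
    obtain ⟨K, hKdef⟩ : ∃ K, K = H'.map M24.subtype := ⟨_, rfl⟩
    have hKle : K ≤ M24 := by
      rw [hKdef]
      rintro x ⟨m, -, rfl⟩
      exact m.2
    have hGK : Subgroup.closure genG ≤ K := by
      intro g hg
      rw [hKdef]
      refine Subgroup.mem_map.2 ⟨⟨g, genG_le hg⟩, hlt.le ?_, rfl⟩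
      exact Subgroup.mem_subgroupOf.2 hg
    have hmem : ∀ m : ↥M24, (m : Equiv.Perm GolayPt) ∈ K → m ∈ H' := by
      intro m hm
      rw [hKdef] at hm
      obtain ⟨m', hm', e⟩ := Subgroup.mem_map.1 hm
      have e' : m' = m := Subtype.ext e
      rw [← e']
      exact hm'
    rcases card_psl K hKle (hGK genG_T) (hGK genG_D) (hGK genG_J) with h | h
    · exfalso
      have e : Subgroup.closure genG = K :=
        Subgroup.eq_of_le_of_card_ge hGK (by rw [h, card_G])
      apply lt_irrefl H'
      refine lt_of_le_of_lt ?_ hlt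
      intro m hm
      rw [Subgroup.mem_subgroupOf, e, hKdef]
      exact Subgroup.mem_map.2 ⟨m, hm, rfl⟩
    · have e : K = M24 := Subgroup.eq_of_le_of_card_ge hKle (by rw [h, card_M24])
      rw [eq_top_iff]
      intro m _
      exact hmem m (by rw [e]; exact m.2)

theorem coatom_B : IsCoatom (((Subgroup.closure genB).subgroupOf M24).subgroupOf
    (MulAction.stabilizer M24 (none : GolayPt))) := by
  have hBle := genB_le
  constructor
  · intro h
    rw [Subgroup.subgroupOf_eq_top] at h
    have h1 := Subgroup.card_le_of_le h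
    rw [card_stab_pt none] at h1
    have h2 : Nat.card ↥((Subgroup.closure genB).subgroupOf M24) = 253 := by
      rw [Nat.card_congr (Subgroup.subgroupOfEquivOfLe (hBle.trans inf_le_left)).toEquiv, card_B]
    omega
  · intro H'' hlt
    obtain ⟨K, hKdef⟩ : ∃ K, K = (H''.map
        (MulAction.stabilizer M24 (none : GolayPt)).subtype).map M24.subtype := ⟨_, rfl⟩
    have hKmem : ∀ x, x ∈ K ↔ ∃ s : ↥(MulAction.stabilizer M24 (none : GolayPt)),
        s ∈ H'' ∧ ((s : ↥M24) : Equiv.Perm GolayPt) = x := by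
      intro x
      rw [hKdef]
      constructor
      · rintro ⟨m, ⟨s, hs, rfl⟩, rfl⟩
        exact ⟨s, hs, rfl⟩
      · rintro ⟨s, hs, rfl⟩
        exact Subgroup.mem_map.2 ⟨_, Subgroup.mem_map.2 ⟨s, hs, rfl⟩, rfl⟩
    have hKle : K ≤ M24 := by
      intro x hx
      obtain ⟨s, -, rfl⟩ := (hKmem x).1 hx
      exact (s : ↥M24).2
    have hKfix : ∀ k ∈ K, k none = none := by
      intro x hx
      obtain ⟨s, -, rfl⟩ := (hKmem x).1 hx
      exact s.2
    have hBK : Subgroup.closure genB ≤ K := by
      intro g hg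
      rw [hKmem]
      have hg1 := hBle hg
      refine ⟨⟨⟨g, hg1.1⟩, hg1.2⟩, hlt.le ?_, rfl⟩
      rw [Subgroup.mem_subgroupOf, Subgroup.mem_subgroupOf]
      exact hg
    have hcardK : Nat.card K = Nat.card H'' := by
      rw [hKdef, Subgroup.card_map_of_injective M24.subtype_injective,
        Subgroup.card_map_of_injective (Subgroup.subtype_injective _)]
    rcases core23 K hKle hKfix (hBK genB_T) (hBK genB_D) with h | h
    · exfalso
      have e : Subgroup.closure genB = K :=
        Subgroup.eq_of_le_of_card_ge hBK (by rw [h, card_B])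
      apply lt_irrefl H''
      refine lt_of_le_of_lt ?_ hlt
      intro s hs
      rw [Subgroup.mem_subgroupOf, Subgroup.mem_subgroupOf, e, hKmem]
      exact ⟨s, hs, rfl⟩
    · apply Subgroup.eq_top_of_card_eq
      rw [← hcardK, h, card_stab_pt none]

end AutA
end Cfsg.Agent.Lib.Helper4
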