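import Cfsg.Agent.Lib.Helper4.Cnt4

set_option autoImplicit false

namespace Cfsg.Agent.Lib.Helper4
namespace Cnt

open Finset Cfsg Cfsg.Agent.Lib.Helper28

/-- coordinates in `{0, 2, -2}` -/
def Q1 (t : ℤ) : Prop := t = 0 ∨ t = 2 ∨ t = -2

instance : DecidablePred Q1 := fun t => by unfold Q1; infer_instance

/-- coordinates in `{1, -1, 3, -3}` -/
def Q2 (t : ℤ) : Prop := t = 1 ∨ t = -1 ∨ t = 3 ∨ t = -3

instance : DecidablePred Q2 := fun t => by unfold Q2; infer_instance

def Qe (t : ℤ) : Prop := t % 2 = 0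

instance : DecidablePred Qe := fun t => by unfold Qe; infer_instance

def Q3 (t : ℤ) : Prop := t % 2 = 0 ∧ t ≠ 4 ∧ t ≠ -4

instance : DecidablePred Q3 := fun t => by unfold Q3; infer_instance

def Qo (t : ℤ) : Prop := t % 2 = 1

instance : DecidablePred Qo := fun t => by unfold Qo; infer_instance

def Q5 (t : ℤ) : Prop := t % 2 = 1 ∧ t ≠ 5 ∧ t ≠ -5

instance : DecidablePred Q5 := fun t => by unfold Q5; infer_instance

def e1A (b : Bool) : List (ℕ × ℕ) := if b then [] else [(0, 0)]
def e1B (b : Bool) : List (ℕ × ℕ) := if b then [] else [(4, 2), (4, 6)]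
def e2A (b : Bool) : List (ℕ × ℕ) := if b then [(1, 1), (9, 5)] else []
def e2B (b : Bool) : List (ℕ × ℕ) := if b then [(1, 7), (9, 3)] else []
def eeA (b : Bool) : List (ℕ × ℕ) := if b then [] else [(0, 0), (16, 4), (16, 4), (64, 0), (64, 0)]
def eeB (b : Bool) : List (ℕ × ℕ) := if b then [] else [(4, 2), (4, 6), (36, 6), (36, 2)]
def e3A (b : Bool) : List (ℕ × ℕ) := if b then [] else [(0, 0), (64, 0), (64, 0)]
def e3B (b : Bool) : List (ℕ × ℕ) := if b then [] else [(4, 2), (4, 6), (36, 6), (36, 2)]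
def eoA (b : Bool) : List (ℕ × ℕ) := if b then [(1, 1), (9, 5), (25, 5), (49, 1)] else []
def eoB (b : Bool) : List (ℕ × ℕ) := if b then [(1, 7), (9, 3), (25, 3), (49, 7)] else []
def e5A (b : Bool) : List (ℕ × ℕ) := if b then [(1, 1), (9, 5), (49, 1)] else []
def e5B (b : Bool) : List (ℕ × ℕ) := if b then [(1, 7), (9, 3), (49, 7)] else []

theorem h1A : ∀ b, ((clA b).filter (fun t => decide (Q1 t))).map enc = e1A b := by
  intro b; cases b <;> decide +kernel
theorem h1B : ∀ b, ((clB b).filter (fun t => decide (Q1 t))).map enc = e1B b := by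
  intro b; cases b <;> decide +kernel
theorem h2A : ∀ b, ((clA b).filter (fun t => decide (Q2 t))).map enc = e2A b := by
  intro b; cases b <;> decide +kernel
theorem h2B : ∀ b, ((clB b).filter (fun t => decide (Q2 t))).map enc = e2B b := by
  intro b; cases b <;> decide +kernel
theorem heA : ∀ b, ((clA b).filter (fun t => decide (Qe t))).map enc = eeA b := by
  intro b; cases b <;> decide +kernel
theorem heB : ∀ b, ((clB b).filter (fun t => decide (Qe t))).map enc = eeB b := by
  intro b; cases b <;> decide +kernel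
theorem h3A : ∀ b, ((clA b).filter (fun t => decide (Q3 t))).map enc = e3A b := by
  intro b; cases b <;> decide +kernel
theorem h3B : ∀ b, ((clB b).filter (fun t => decide (Q3 t))).map enc = e3B b := by
  intro b; cases b <;> decide +kernel
theorem hoA : ∀ b, ((clA b).filter (fun t => decide (Qo t))).map enc = eoA b := by
  intro b; cases b <;> decide +kernel
theorem hoB : ∀ b, ((clB b).filter (fun t => decide (Qo t))).map enc = eoB b := by
  intro b; cases b <;> decide +kernel
theorem h5A : ∀ b, ((clA b).filter (fun t => decide (Q5 t))).map enc = e5A b := by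
  intro b; cases b <;> decide +kernel
theorem h5B : ∀ b, ((clB b).filter (fun t => decide (Q5 t))).map enc = e5B b := by
  intro b; cases b <;> decide +kernel

set_option maxRecDepth 100000 in
theorem c1 : {x : GolayPt → ℤ | x ∈ leechLattice ∧ sqNorm x = 48 ∧ ∀ i, Q1 (x i)}.ncard =
    5275648 := by
  have h := count_normQ Q1 (N := 48) (by norm_num) e1A e1B h1A h1B
  have e : (hvalL 48 4 (e1A true) (e1B true) 0 + 759 * hvalL 48 4 (e1A true) (e1B true) 8 +
        2576 * hvalL 48 4 (e1A true) (e1B true) 12 + 759 * hvalL 48 4 (e1A true) (e1B true) 16 +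
        hvalL 48 4 (e1A true) (e1B true) 24) +
      (hvalL 48 0 (e1A false) (e1B false) 0 + 759 * hvalL 48 0 (e1A false) (e1B false) 8 +
        2576 * hvalL 48 0 (e1A false) (e1B false) 12 + 759 * hvalL 48 0 (e1A false) (e1B false) 16 +
        hvalL 48 0 (e1A false) (e1B false) 24) = 5275648 := by decide +kernel
  rw [e] at h
  exact_mod_cast h

set_option maxRecDepth 100000 in
theorem c2 : {x : GolayPt → ℤ | x ∈ leechLattice ∧ sqNorm x = 48 ∧ ∀ i, Q2 (x i)}.ncard =
    8290304 := by
  have h := count_normQ Q2 (N := 48) (by norm_num) e2A e2B h2A h2B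
  have e : (hvalL 48 4 (e2A true) (e2B true) 0 + 759 * hvalL 48 4 (e2A true) (e2B true) 8 +
        2576 * hvalL 48 4 (e2A true) (e2B true) 12 + 759 * hvalL 48 4 (e2A true) (e2B true) 16 +
        hvalL 48 4 (e2A true) (e2B true) 24) +
      (hvalL 48 0 (e2A false) (e2B false) 0 + 759 * hvalL 48 0 (e2A false) (e2B false) 8 +
        2576 * hvalL 48 0 (e2A false) (e2B false) 12 + 759 * hvalL 48 0 (e2A false) (e2B false) 16 +
        hvalL 48 0 (e2A false) (e2B false) 24) = 8290304 := by decide +kernel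
  rw [e] at h
  exact_mod_cast h

set_option maxRecDepth 100000 in
theorem ce : {x : GolayPt → ℤ | x ∈ leechLattice ∧ sqNorm x = 48 ∧ ∀ i, Qe (x i)}.ncard =
    8384512 := by
  have h := count_normQ Qe (N := 48) (by norm_num) eeA eeB heA heB
  have e : (hvalL 48 4 (eeA true) (eeB true) 0 + 759 * hvalL 48 4 (eeA true) (eeB true) 8 +
        2576 * hvalL 48 4 (eeA true) (eeB true) 12 + 759 * hvalL 48 4 (eeA true) (eeB true) 16 +
        hvalL 48 4 (eeA true) (eeB true) 24) +
      (hvalL 48 0 (eeA false) (eeB false) 0 + 759 * hvalL 48 0 (eeA false) (eeB false) 8 +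
        2576 * hvalL 48 0 (eeA false) (eeB false) 12 + 759 * hvalL 48 0 (eeA false) (eeB false) 16 +
        hvalL 48 0 (eeA false) (eeB false) 24) = 8384512 := by decide +kernel
  rw [e] at h
  exact_mod_cast h

set_option maxRecDepth 100000 in
theorem c3 : {x : GolayPt → ℤ | x ∈ leechLattice ∧ sqNorm x = 48 ∧ ∀ i, Q3 (x i)}.ncard =
    5275648 := by
  have h := count_normQ Q3 (N := 48) (by norm_num) e3A e3B h3A h3B
  have e : (hvalL 48 4 (e3A true) (e3B true) 0 + 759 * hvalL 48 4 (e3A true) (e3B true) 8 +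
        2576 * hvalL 48 4 (e3A true) (e3B true) 12 + 759 * hvalL 48 4 (e3A true) (e3B true) 16 +
        hvalL 48 4 (e3A true) (e3B true) 24) +
      (hvalL 48 0 (e3A false) (e3B false) 0 + 759 * hvalL 48 0 (e3A false) (e3B false) 8 +
        2576 * hvalL 48 0 (e3A false) (e3B false) 12 + 759 * hvalL 48 0 (e3A false) (e3B false) 16 +
        hvalL 48 0 (e3A false) (e3B false) 24) = 5275648 := by decide +kernel
  rw [e] at h
  exact_mod_cast h

set_option maxRecDepth 100000 in
theorem co : {x : GolayPt → ℤ | x ∈ leechLattice ∧ sqNorm x = 48 ∧ ∀ i, Qo (x i)}.ncard =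
    8388608 := by
  have h := count_normQ Qo (N := 48) (by norm_num) eoA eoB hoA hoB
  have e : (hvalL 48 4 (eoA true) (eoB true) 0 + 759 * hvalL 48 4 (eoA true) (eoB true) 8 +
        2576 * hvalL 48 4 (eoA true) (eoB true) 12 + 759 * hvalL 48 4 (eoA true) (eoB true) 16 +
        hvalL 48 4 (eoA true) (eoB true) 24) +
      (hvalL 48 0 (eoA false) (eoB false) 0 + 759 * hvalL 48 0 (eoA false) (eoB false) 8 +
        2576 * hvalL 48 0 (eoA false) (eoB false) 12 + 759 * hvalL 48 0 (eoA false) (eoB false) 16 +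
        hvalL 48 0 (eoA false) (eoB false) 24) = 8388608 := by decide +kernel
  rw [e] at h
  exact_mod_cast h

set_option maxRecDepth 100000 in
theorem c5 : {x : GolayPt → ℤ | x ∈ leechLattice ∧ sqNorm x = 48 ∧ ∀ i, Q5 (x i)}.ncard =
    8290304 := by
  have h := count_normQ Q5 (N := 48) (by norm_num) e5A e5B h5A h5B
  have e : (hvalL 48 4 (e5A true) (e5B true) 0 + 759 * hvalL 48 4 (e5A true) (e5B true) 8 +
        2576 * hvalL 48 4 (e5A true) (e5B true) 12 + 759 * hvalL 48 4 (e5A true) (e5B true) 16 +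
        hvalL 48 4 (e5A true) (e5B true) 24) +
      (hvalL 48 0 (e5A false) (e5B false) 0 + 759 * hvalL 48 0 (e5A false) (e5B false) 8 +
        2576 * hvalL 48 0 (e5A false) (e5B false) 12 + 759 * hvalL 48 0 (e5A false) (e5B false) 16 +
        hvalL 48 0 (e5A false) (e5B false) 24) = 8290304 := by decide +kernel
  rw [e] at h
  exact_mod_cast h

end Cnt
end Cfsg.Agent.Lib.Helper4
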