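import Cfsg.Agent.Lib.Helper4.Cnt5

set_option autoImplicit false

namespace Cfsg.Agent.Lib.Helper4
namespace Cnt

open Finset Cfsg Cfsg.Agent.Lib.Helper28

theorem shape1 : {x : GolayPt → ℤ | x ∈ leechLattice ∧ sqNorm x = 48 ∧
    ∀ i, x i = 0 ∨ x i = 2 ∨ x i = -2}.ncard = 5275648 := c1

theorem abs3 (t : ℤ) : |t| = 3 ↔ t = 3 ∨ t = -3 := by
  constructor
  · intro h
    rcases abs_eq (by norm_num : (0 : ℤ) ≤ 3) |>.1 h with h | h
    · exact Or.inl h
    · exact Or.inr h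
  · rintro (h | h) <;> rw [h] <;> norm_num

theorem abs4 (t : ℤ) : |t| = 4 ↔ t = 4 ∨ t = -4 := by
  constructor
  · intro h
    rcases abs_eq (by norm_num : (0 : ℤ) ≤ 4) |>.1 h with h | h
    · exact Or.inl h
    · exact Or.inr h
  · rintro (h | h) <;> rw [h] <;> norm_num

theorem abs5 (t : ℤ) : |t| = 5 ↔ t = 5 ∨ t = -5 := by
  constructor
  · intro h
    rcases abs_eq (by norm_num : (0 : ℤ) ≤ 5) |>.1 h with h | h
    · exact Or.inl h
    · exact Or.inr h
  · rintro (h | h) <;> rw [h] <;> norm_num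

theorem odd_sq (t : ℤ) (h : ¬ (2 : ℤ) ∣ t) : 1 ≤ t ^ 2 := by
  have : t ≠ 0 := by
    rintro rfl
    exact h (dvd_zero _)
  exact int_one_le_sq t this

theorem set2 : {x : GolayPt → ℤ | x ∈ leechLattice ∧ sqNorm x = 48 ∧
      ∃ i j k, i ≠ j ∧ j ≠ k ∧ i ≠ k ∧ |x i| = 3 ∧ |x j| = 3 ∧ |x k| = 3} =
    {x : GolayPt → ℤ | x ∈ leechLattice ∧ sqNorm x = 48 ∧ ∀ i, Q2 (x i)} := by
  ext x
  simp only [Set.mem_ofPred_eq]
  constructor
  · rintro ⟨hx, hn, i, j, k, hij, hjk, hik, hi, hj, hk⟩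
    refine ⟨hx, hn, fun l => ?_⟩
    rw [abs3] at hi hj hk
    have hodd : ∀ l, ¬ (2 : ℤ) ∣ x l := by
      intro l
      rw [parity_const hx l i]
      rcases hi with h | h <;> rw [h] <;> norm_num
    by_cases hl : l = i ∨ l = j ∨ l = k
    · unfold Q2
      rcases hl with rfl | rfl | rfl
      · rcases hi with h | h <;> simp [h]
      · rcases hj with h | h <;> simp [h]
      · rcases hk with h | h <;> simp [h]
    · push Not at hl
      obtain ⟨hli, hlj, hlk⟩ := hl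
      -- the sum over the four coordinates
      have hsub : ∑ m ∈ ({l, i, j, k} : Finset GolayPt), (x m ^ 2 - 1) ≤ ∑ m, (x m ^ 2 - 1) :=
        Finset.sum_le_sum_of_subset_of_nonneg (Finset.subset_univ _)
          (fun m _ _ => by have := odd_sq (x m) (hodd m); omega)
      have htot : ∑ m, (x m ^ 2 - 1) = 24 := by
        rw [Finset.sum_sub_distrib]
        have h1 : ∑ m, x m ^ 2 = 48 := hn
        rw [h1]
        simp [card_golayPt]
      have h4 : ∑ m ∈ ({l, i, j, k} : Finset GolayPt), (x m ^ 2 - 1) =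
          (x l ^ 2 - 1) + ((x i ^ 2 - 1) + ((x j ^ 2 - 1) + (x k ^ 2 - 1))) := by
        rw [Finset.sum_insert (by simp [hli, hlj, hlk]), Finset.sum_insert (by simp [hij, hik]),
          Finset.sum_insert (by simp [hjk]), Finset.sum_singleton]
      have hi2 : x i ^ 2 = 9 := by rcases hi with h | h <;> rw [h] <;> norm_num
      have hj2 : x j ^ 2 = 9 := by rcases hj with h | h <;> rw [h] <;> norm_num
      have hk2 : x k ^ 2 = 9 := by rcases hk with h | h <;> rw [h] <;> norm_num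
      rw [h4, htot, hi2, hj2, hk2] at hsub
      have hl2 : x l ^ 2 ≤ 1 := by omega
      have h1 : -1 ≤ x l := by nlinarith
      have h2 : x l ≤ 1 := by nlinarith
      have h3 := hodd l
      unfold Q2
      interval_cases h : x l
      · right; left; rfl
      · exact absurd (dvd_zero _) h3
      · left; rfl
  · rintro ⟨hx, hn, hQ⟩
    refine ⟨hx, hn, ?_⟩
    classical
    have hterm : ∀ m, x m ^ 2 = 1 + 8 * (if x m = 3 ∨ x m = -3 then 1 else 0) := by
      intro m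
      rcases hQ m with h | h | h | h <;> rw [h] <;> norm_num
    have hsum : (48 : ℤ) = 24 + 8 * (#{m | x m = 3 ∨ x m = -3} : ℤ) := by
      have h1 : ∑ m, x m ^ 2 = 48 := hn
      rw [← h1, Finset.sum_congr rfl (fun m _ => hterm m), Finset.sum_add_distrib,
        ← Finset.mul_sum, Finset.sum_boole]
      simp [card_golayPt]
    have hcard : #{m | x m = 3 ∨ x m = -3} = 3 := by omega
    obtain ⟨i, j, k, hij, hik, hjk, hS⟩ := Finset.card_eq_three.1 hcard
    have hmem : ∀ m, m ∈ ({i, j, k} : Finset GolayPt) → |x m| = 3 := by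
      intro m hm
      rw [← hS, Finset.mem_filter] at hm
      exact (abs3 _).2 hm.2
    exact ⟨i, j, k, hij, hjk, hik, hmem i (by simp), hmem j (by simp), hmem k (by simp)⟩

theorem shape2 : {x : GolayPt → ℤ | x ∈ leechLattice ∧ sqNorm x = 48 ∧
      ∃ i j k, i ≠ j ∧ j ≠ k ∧ i ≠ k ∧ |x i| = 3 ∧ |x j| = 3 ∧ |x k| = 3}.ncard = 8290304 := by
  rw [set2]
  exact c2

theorem set3 : {x : GolayPt → ℤ | x ∈ leechLattice ∧ sqNorm x = 48 ∧ ∃ i, |x i| = 4} =
    {x : GolayPt → ℤ | x ∈ leechLattice ∧ sqNorm x = 48 ∧ ∀ i, Qe (x i)} \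
      {x : GolayPt → ℤ | x ∈ leechLattice ∧ sqNorm x = 48 ∧ ∀ i, Q3 (x i)} := by
  ext x
  simp only [Set.mem_ofPred_eq, Set.mem_sdiff]
  constructor
  · rintro ⟨hx, hn, i, hi⟩
    rw [abs4] at hi
    refine ⟨⟨hx, hn, fun l => ?_⟩, ?_⟩
    · have h2 : (2 : ℤ) ∣ x l := by
        rw [parity_const hx l i]
        rcases hi with h | h <;> rw [h] <;> norm_num
      unfold Qe
      omega
    · rintro ⟨-, -, h3⟩
      have := h3 i
      unfold Q3 at this
      rcases hi with h | h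
      · exact this.2.1 h
      · exact this.2.2 h
  · rintro ⟨⟨hx, hn, he⟩, hnot⟩
    refine ⟨hx, hn, ?_⟩
    by_contra hcon
    push Not at hcon
    apply hnot
    refine ⟨hx, hn, fun l => ⟨he l, fun h => hcon l ((abs4 _).2 (Or.inl h)),
      fun h => hcon l ((abs4 _).2 (Or.inr h))⟩⟩

theorem shape3 : {x : GolayPt → ℤ | x ∈ leechLattice ∧ sqNorm x = 48 ∧ ∃ i, |x i| = 4}.ncard =
    3108864 := by
  rw [set3]
  have hsub : {x : GolayPt → ℤ | x ∈ leechLattice ∧ sqNorm x = 48 ∧ ∀ i, Q3 (x i)} ⊆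
      {x : GolayPt → ℤ | x ∈ leechLattice ∧ sqNorm x = 48 ∧ ∀ i, Qe (x i)} := by
    rintro x ⟨hx, hn, h3⟩
    exact ⟨hx, hn, fun l => (h3 l).1⟩
  have hfin : {x : GolayPt → ℤ | x ∈ leechLattice ∧ sqNorm x = 48 ∧ ∀ i, Qe (x i)}.Finite := by
    have := finiteQ Qe (N := 48) (by norm_num)
    exact_mod_cast this
  have h := Set.ncard_sdiff_add_ncard_of_subset hsub hfin
  rw [c3, ce] at h
  exact (Nat.eq_sub_of_add_eq h).trans (by norm_num)

theorem set5 : {x : GolayPt → ℤ | x ∈ leechLattice ∧ sqNorm x = 48 ∧ ∃ i, |x i| = 5} =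
    {x : GolayPt → ℤ | x ∈ leechLattice ∧ sqNorm x = 48 ∧ ∀ i, Qo (x i)} \
      {x : GolayPt → ℤ | x ∈ leechLattice ∧ sqNorm x = 48 ∧ ∀ i, Q5 (x i)} := by
  ext x
  simp only [Set.mem_ofPred_eq, Set.mem_sdiff]
  constructor
  · rintro ⟨hx, hn, i, hi⟩
    rw [abs5] at hi
    refine ⟨⟨hx, hn, fun l => ?_⟩, ?_⟩
    · have h2 : ¬ (2 : ℤ) ∣ x l := by
        rw [parity_const hx l i]
        rcases hi with h | h <;> rw [h] <;> norm_num
      unfold Qo
      omega
    · rintro ⟨-, -, h3⟩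
      have := h3 i
      unfold Q5 at this
      rcases hi with h | h
      · exact this.2.1 h
      · exact this.2.2 h
  · rintro ⟨⟨hx, hn, he⟩, hnot⟩
    refine ⟨hx, hn, ?_⟩
    by_contra hcon
    push Not at hcon
    apply hnot
    refine ⟨hx, hn, fun l => ⟨he l, fun h => hcon l ((abs5 _).2 (Or.inl h)),
      fun h => hcon l ((abs5 _).2 (Or.inr h))⟩⟩

theorem shape5 : {x : GolayPt → ℤ | x ∈ leechLattice ∧ sqNorm x = 48 ∧ ∃ i, |x i| = 5}.ncard =
    98304 := by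
  rw [set5]
  have hsub : {x : GolayPt → ℤ | x ∈ leechLattice ∧ sqNorm x = 48 ∧ ∀ i, Q5 (x i)} ⊆
      {x : GolayPt → ℤ | x ∈ leechLattice ∧ sqNorm x = 48 ∧ ∀ i, Qo (x i)} := by
    rintro x ⟨hx, hn, h3⟩
    exact ⟨hx, hn, fun l => (h3 l).1⟩
  have hfin : {x : GolayPt → ℤ | x ∈ leechLattice ∧ sqNorm x = 48 ∧ ∀ i, Qo (x i)}.Finite := by
    have := finiteQ Qo (N := 48) (by norm_num)
    exact_mod_cast this
  have h := Set.ncard_sdiff_add_ncard_of_subset hsub hfin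
  rw [c5, co] at h
  exact (Nat.eq_sub_of_add_eq h).trans (by norm_num)

end Cnt
end Cfsg.Agent.Lib.Helper4
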