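import Mathlib
import Cfsg.Agent.Lib.Helper20.TransferInv
import Cfsg.Agent.Lib.Helper21.Dihedral

/-!
Sylow 2-subgroups with Frattini subgroup of order two which are centralisers of an involution.
-/

set_option autoImplicit false

namespace Cfsg.Agent.Lib.Helper4.D8s

theorem zpowers_cases {L : Type*} [Group L] (z : L) (hz : orderOf z = 2) (w : L)
    (hw : w ∈ Subgroup.zpowers z) : w = 1 ∨ w = z := by
  obtain ⟨k, rfl⟩ := Subgroup.mem_zpowers_iff.mp hw
  have h2 : z ^ k = z ^ (k % 2) := by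
    have := (zpow_mod_orderOf z k).symm
    rw [hz] at this
    exact this
  rw [h2]
  rcases Int.emod_two_eq_zero_or_one k with h | h
  · left; rw [h]; simp
  · right; rw [h]; simp

/-- A maximal subgroup of a finite 2-group is normal of index two. -/
theorem coatom_index_two {P : Type*} [Group P] [Finite P] (hP : IsPGroup 2 P) (M : Subgroup P)
    (hM : IsCoatom M) : M.Normal ∧ M.index = 2 := by
  have : Fact (Nat.Prime 2) := ⟨Nat.prime_two⟩
  have hnil : Group.IsNilpotent P := hP.isNilpotent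
  have hn : M.Normal :=
    Subgroup.NormalizerCondition.normal_of_coatom M Group.normalizerCondition_of_isNilpotent hM
  refine ⟨hn, ?_⟩
  have hidx : M.index ≠ 1 := fun h => hM.1 (Subgroup.index_eq_one.mp h)
  obtain ⟨k, hk⟩ := hP.index M
  have h2 : 2 ∣ Nat.card (P ⧸ M) := by
    rw [← Subgroup.index_eq_card, hk]
    cases k with
    | zero => exact absurd (by simpa using hk) hidx
    | succ k => exact Dvd.intro_left _ rfl
  obtain ⟨q, hq⟩ := exists_prime_orderOf_dvd_card' (G := P ⧸ M) 2 h2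
  obtain ⟨a, rfl⟩ := QuotientGroup.mk_surjective q
  have haM : a ∉ M := by
    intro h
    have h1 : ((a : P) : P ⧸ M) = 1 := (QuotientGroup.eq_one_iff a).mpr h
    rw [h1, orderOf_one] at hq
    omega
  have hK : (Subgroup.zpowers ((a : P) : P ⧸ M)).comap (QuotientGroup.mk' M) = ⊤ := by
    apply hM.2
    refine lt_of_le_of_ne ?_ ?_
    · intro m hm
      rw [Subgroup.mem_comap]
      have h1 : QuotientGroup.mk' M m = 1 := (QuotientGroup.eq_one_iff m).mpr hm
      rw [h1]; exact Subgroup.one_mem _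
    · intro h
      apply haM
      rw [h, Subgroup.mem_comap]
      exact Subgroup.mem_zpowers _
  have htop : Subgroup.zpowers ((a : P) : P ⧸ M) = ⊤ := by
    rw [eq_top_iff]
    intro x _
    obtain ⟨b, rfl⟩ := QuotientGroup.mk_surjective x
    have h1 : b ∈ (Subgroup.zpowers ((a : P) : P ⧸ M)).comap (QuotientGroup.mk' M) := by
      rw [hK]; trivial
    exact h1
  calc M.index = Nat.card (P ⧸ M) := Subgroup.index_eq_card M
    _ = Nat.card (⊤ : Subgroup (P ⧸ M)) := Subgroup.card_top.symm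
    _ = Nat.card (Subgroup.zpowers ((a : P) : P ⧸ M)) := by rw [htop]
    _ = orderOf ((a : P) : P ⧸ M) := Nat.card_zpowers _
    _ = 2 := hq

theorem sq_mem_frattini {P : Type*} [Group P] [Finite P] (hP : IsPGroup 2 P) (a : P) :
    a * a ∈ frattini P := by
  unfold frattini Order.radical
  rw [Subgroup.mem_iInf]
  intro M
  rw [Subgroup.mem_iInf]
  intro hM
  exact Subgroup.mul_self_mem_of_index_two (coatom_index_two hP M hM).2 a

/-- An element outside the Frattini subgroup of a finite 2-group is mapped non-trivially by some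
homomorphism onto the group of order two. -/
theorem exists_hom_of_not_mem_frattini {P : Type*} [Group P] [Finite P] (hP : IsPGroup 2 P)
    (y : P) (hy : y ∉ frattini P) : ∃ ϕ : P →* Multiplicative (ZMod 2), ϕ y ≠ 1 := by
  have : Fact (Nat.Prime 2) := ⟨Nat.prime_two⟩
  have h1 : ∃ M : Subgroup P, IsCoatom M ∧ y ∉ M := by
    by_contra hcon
    apply hy
    unfold frattini Order.radical
    rw [Subgroup.mem_iInf]
    intro M
    rw [Subgroup.mem_iInf]
    intro hM
    by_contra hyM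
    exact hcon ⟨M, hM, hyM⟩
  obtain ⟨M, hM, hyM⟩ := h1
  obtain ⟨hn, hi⟩ := coatom_index_two hP M hM
  have hc1 : Nat.card (P ⧸ M) = 2 := by rw [← Subgroup.index_eq_card]; exact hi
  have hc2 : Nat.card (Multiplicative (ZMod 2)) = 2 := by
    rw [Nat.card_eq_fintype_card]; rfl
  let e : P ⧸ M ≃* Multiplicative (ZMod 2) := mulEquivOfPrimeCardEq hc1 hc2
  refine ⟨e.toMonoidHom.comp (QuotientGroup.mk' M), ?_⟩
  intro h
  apply hyM
  have h2 : e (QuotientGroup.mk' M y) = e 1 := by rw [map_one]; exact h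
  exact (QuotientGroup.eq_one_iff y).mp (e.injective h2)

theorem conj_mem_iff_of_finite {L : Type*} [Group L] (H : Subgroup L) [Finite H] (n : L)
    (h : ∀ a ∈ H, n * a * n⁻¹ ∈ H) (a : L) : a ∈ H ↔ n * a * n⁻¹ ∈ H := by
  refine ⟨h a, fun ha => ?_⟩
  let f : ↥H → ↥H := fun b => ⟨n * b * n⁻¹, h b b.2⟩
  have hinj : Function.Injective f := by
    intro b c hbc
    have h1 : n * (b : L) * n⁻¹ = n * (c : L) * n⁻¹ := congrArg Subtype.val hbc
    apply Subtype.ext
    simpa using h1
  obtain ⟨b, hb⟩ := (Finite.injective_iff_surjective.mp hinj) ⟨n * a * n⁻¹, ha⟩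
  have h1 : n * (b : L) * n⁻¹ = n * a * n⁻¹ := congrArg Subtype.val hb
  have hba : (b : L) = a := by simpa using h1
  rw [← hba]; exact b.2

/-- The centraliser of an involution `z` with Frattini subgroup `⟨z⟩` is self-normalising. -/
theorem normalizer_le {L : Type*} [Group L] [Finite L] (z : L) (hz : orderOf z = 2)
    (R : Subgroup L) (hR : R = Subgroup.centralizer ({z} : Set L))
    (hΦ : (frattini ↥R).map R.subtype = Subgroup.zpowers z)
    (n : L) (hn : ∀ a ∈ R, n * a * n⁻¹ ∈ R) : n ∈ R := by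
  have hz1 : z ≠ 1 := by intro h; rw [h, orderOf_one] at hz; omega
  have hzR : z ∈ R := by
    rw [hR, Subgroup.mem_centralizer_iff]
    intro w hw; rw [Set.mem_singleton_iff.mp hw]
  have hzF : (⟨z, hzR⟩ : ↥R) ∈ frattini ↥R := by
    have h1 : z ∈ (frattini ↥R).map R.subtype := by rw [hΦ]; exact Subgroup.mem_zpowers z
    obtain ⟨w, hw, hwz⟩ := h1
    have : w = ⟨z, hzR⟩ := Subtype.ext hwz
    rw [← this]; exact hw
  let f : ↥R →* ↥R :=
    { toFun := fun a => ⟨n * a * n⁻¹, hn a a.2⟩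
      map_one' := Subtype.ext (by simp)
      map_mul' := fun a b => Subtype.ext (by simp) }
  have hbij : Function.Bijective f := by
    have hinj : Function.Injective f := by
      intro b c hbc
      have h1 : n * (b : L) * n⁻¹ = n * (c : L) * n⁻¹ := congrArg Subtype.val hbc
      apply Subtype.ext
      simpa using h1
    exact ⟨hinj, Finite.injective_iff_surjective.mp hinj⟩
  let e : ↥R ≃* ↥R := MulEquiv.ofBijective f hbij
  have hfix := (frattini_characteristic (G := ↥R)).fixed e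
  rw [← hfix] at hzF
  have h2 : e ⟨z, hzR⟩ ∈ frattini ↥R := Subgroup.mem_comap.mp hzF
  have h3 : n * z * n⁻¹ ∈ Subgroup.zpowers z := by
    rw [← hΦ]
    exact ⟨_, h2, rfl⟩
  rw [hR, Subgroup.mem_centralizer_iff]
  intro w hw
  rw [Set.mem_singleton_iff.mp hw]
  rcases zpowers_cases z hz _ h3 with h | h
  · exfalso; apply hz1
    have : z = n⁻¹ * (n * z * n⁻¹) * n := by group
    rw [this, h]; group
  · have h4 := congrArg (· * n) h
    simp only [inv_mul_cancel_right] at h4
    exact h4.symm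

open Cfsg.Agent.Lib.Helper20.TransferInv in
/-- A central involution of a self-normalising Sylow 2-subgroup which is mapped non-trivially by a
homomorphism of the Sylow subgroup onto the group of order two lies outside a normal subgroup of
index two. -/
theorem exists_index_two {L : Type*} [Group L] [Finite L] (R : Sylow 2 L)
    (hN : ∀ n : L, (∀ a ∈ (R : Subgroup L), n * a * n⁻¹ ∈ (R : Subgroup L)) →
      n ∈ (R : Subgroup L))
    (y : L) (hyR : y ∈ (R : Subgroup L)) (hyy : y * y = 1)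
    (hyc : ∀ a ∈ (R : Subgroup L), a * y = y * a)
    (ϕ : ↥(R : Subgroup L) →* Multiplicative (ZMod 2)) (hϕ : ϕ ⟨y, hyR⟩ ≠ 1) :
    ∃ N : Subgroup L, N.Normal ∧ N.index = 2 := by
  classical
  have : Fact (Nat.Prime 2) := ⟨Nat.prime_two⟩
  obtain ⟨t, ht, hV⟩ := transfer_invol (R : Subgroup L) ϕ y hyy
  set X : Set (L ⧸ (R : Subgroup L)) :=
    {q | ∃ h : (t q)⁻¹ * y * t q ∈ (R : Subgroup L), ϕ ⟨_, h⟩ ≠ 1} with hX
  have hconj : ∀ (m ρ : L) (hm : m ∈ (R : Subgroup L)) (hρ : ρ ∈ (R : Subgroup L))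
      (h' : ρ⁻¹ * m * ρ ∈ (R : Subgroup L)), ϕ ⟨ρ⁻¹ * m * ρ, h'⟩ = ϕ ⟨m, hm⟩ := by
    intro m ρ hm hρ h'
    have e : (⟨ρ⁻¹ * m * ρ, h'⟩ : ↥(R : Subgroup L)) = (⟨ρ, hρ⟩)⁻¹ * ⟨m, hm⟩ * ⟨ρ, hρ⟩ :=
      Subtype.ext rfl
    rw [e, map_mul, map_mul, map_inv, mul_comm (ϕ _)⁻¹, inv_mul_cancel_right]
  have hsm : ∀ (g a : L), ((g * a : L) : L ⧸ (R : Subgroup L)) =
      g • ((a : L) : L ⧸ (R : Subgroup L)) := fun g a => rfl
  have hinv : ∀ (c : ↥(R : Subgroup L)) (q : L ⧸ (R : Subgroup L)), q ∈ X → c • q ∈ X := by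
    rintro ⟨c, hc⟩ q ⟨h, hne⟩
    have h1 : ((t ((⟨c, hc⟩ : ↥(R : Subgroup L)) • q) : L) : L ⧸ (R : Subgroup L)) =
        ((c * t q : L) : L ⧸ (R : Subgroup L)) := by
      rw [ht, hsm, ht]; rfl
    have hρ : (c * t q)⁻¹ * t ((⟨c, hc⟩ : ↥(R : Subgroup L)) • q) ∈ (R : Subgroup L) :=
      QuotientGroup.eq.mp h1.symm
    show ∃ h : (t ((⟨c, hc⟩ : ↥(R : Subgroup L)) • q))⁻¹ * y *
      t ((⟨c, hc⟩ : ↥(R : Subgroup L)) • q) ∈ (R : Subgroup L), ϕ ⟨_, h⟩ ≠ 1
    generalize t ((⟨c, hc⟩ : ↥(R : Subgroup L)) • q) = u at hρ ⊢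
    have hcy : c⁻¹ * y * c = y := by rw [mul_assoc, ← hyc c hc, inv_mul_cancel_left]
    have e2 : u⁻¹ * y * u = ((c * t q)⁻¹ * u)⁻¹ * ((t q)⁻¹ * y * t q) * ((c * t q)⁻¹ * u) := by
      have e3 : ((c * t q)⁻¹ * u)⁻¹ * ((t q)⁻¹ * y * t q) * ((c * t q)⁻¹ * u) =
          u⁻¹ * (c * (c⁻¹ * y * c) * c⁻¹) * u := by
        rw [hcy]; group
      rw [e3]; group
    have h' : ((c * t q)⁻¹ * u)⁻¹ * ((t q)⁻¹ * y * t q) * ((c * t q)⁻¹ * u) ∈ (R : Subgroup L) :=
      (R : Subgroup L).mul_mem ((R : Subgroup L).mul_mem ((R : Subgroup L).inv_mem hρ) h) hρ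
    have hu : u⁻¹ * y * u ∈ (R : Subgroup L) := by rw [e2]; exact h'
    refine ⟨hu, ?_⟩
    have e4 : (⟨u⁻¹ * y * u, hu⟩ : ↥(R : Subgroup L)) =
        ⟨((c * t q)⁻¹ * u)⁻¹ * ((t q)⁻¹ * y * t q) * ((c * t q)⁻¹ * u), h'⟩ := Subtype.ext e2
    rw [e4, hconj _ _ h hρ h']
    exact hne
  let S : SubMulAction ↥(R : Subgroup L) (L ⧸ (R : Subgroup L)) :=
    ⟨X, fun c {q} hq => hinv c q hq⟩
  have hmod := R.isPGroup'.card_modEq_card_fixedPoints (↥S)
  have hq0 : ((1 : L) : L ⧸ (R : Subgroup L)) ∈ X := by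
    have h1 : (t ((1 : L) : L ⧸ (R : Subgroup L)))⁻¹ * 1 ∈ (R : Subgroup L) :=
      QuotientGroup.eq.mp (ht _)
    rw [mul_one] at h1
    have h2 : t ((1 : L) : L ⧸ (R : Subgroup L)) ∈ (R : Subgroup L) := by
      have := (R : Subgroup L).inv_mem h1
      rwa [inv_inv] at this
    show ∃ h : (t ((1 : L) : L ⧸ (R : Subgroup L)))⁻¹ * y *
      t ((1 : L) : L ⧸ (R : Subgroup L)) ∈ (R : Subgroup L), ϕ ⟨_, h⟩ ≠ 1
    generalize t ((1 : L) : L ⧸ (R : Subgroup L)) = u at h2 ⊢
    have e : u⁻¹ * y * u = y := by rw [mul_assoc, ← hyc u h2, inv_mul_cancel_left]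
    have hu : u⁻¹ * y * u ∈ (R : Subgroup L) := by rw [e]; exact hyR
    refine ⟨hu, ?_⟩
    have e4 : (⟨u⁻¹ * y * u, hu⟩ : ↥(R : Subgroup L)) = ⟨y, hyR⟩ := Subtype.ext e
    rw [e4]
    exact hϕ
  have hfix : Nat.card (MulAction.fixedPoints ↥(R : Subgroup L) ↥S) = 1 := by
    rw [Nat.card_eq_one_iff_exists]
    refine ⟨⟨⟨((1 : L) : L ⧸ (R : Subgroup L)), hq0⟩, ?_⟩, ?_⟩
    · intro c
      apply Subtype.ext
      show (c : L) • ((1 : L) : L ⧸ (R : Subgroup L)) = ((1 : L) : L ⧸ (R : Subgroup L))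
      rw [← hsm]
      apply QuotientGroup.eq.mpr
      simp only [mul_one]
      exact (R : Subgroup L).inv_mem c.2
    · rintro ⟨⟨q, hq⟩, hfixq⟩
      apply Subtype.ext
      apply Subtype.ext
      show q = ((1 : L) : L ⧸ (R : Subgroup L))
      obtain ⟨n, rfl⟩ := QuotientGroup.mk_surjective q
      have hn : n⁻¹ ∈ (R : Subgroup L) := by
        apply hN
        intro a ha
        have h1 := congrArg (fun s : ↥S => (s : L ⧸ (R : Subgroup L)))
          (hfixq (⟨a, ha⟩ : ↥(R : Subgroup L)))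
        have h2 : ((a * n : L) : L ⧸ (R : Subgroup L)) = ((n : L) : L ⧸ (R : Subgroup L)) := h1
        have h3 := QuotientGroup.eq.mp h2
        have h4 := (R : Subgroup L).inv_mem h3
        have e : ((a * n)⁻¹ * n)⁻¹ = n⁻¹ * a * n⁻¹⁻¹ := by group
        rw [e] at h4
        exact h4
      apply QuotientGroup.eq.mpr
      rw [mul_one]
      exact hn
  have hcard : Nat.card ↥S = X.ncard := Nat.card_coe_set_eq X
  have hodd : X.ncard % 2 = 1 := by
    have h1 := hmod
    rw [hfix, hcard] at h1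
    exact h1
  have hne : MonoidHom.transfer ϕ y ≠ 1 := by
    rw [hV]
    intro h
    have h3 : ((X.ncard : ℕ) : ZMod 2) = 0 := by
      have := congrArg Multiplicative.toAdd h
      simpa using this
    rw [ZMod.natCast_eq_zero_iff] at h3
    omega
  exact ⟨(MonoidHom.transfer ϕ).ker, inferInstance, ker_index_two _ y hne⟩

/-- Main theorem: if the centraliser `R` of an involution `z` is a Sylow 2-subgroup with Frattini
subgroup `⟨z⟩`, `z` is fused to another element of `R`, and the group has no normal subgroup of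
index two, then `R` is dihedral of order eight. -/
theorem main {L : Type*} [Group L] [Finite L] (hno : ∀ N : Subgroup L, N.Normal → N.index ≠ 2)
    (z : L) (hz : orderOf z = 2) (R : Sylow 2 L)
    (hR : (R : Subgroup L) = Subgroup.centralizer ({z} : Set L))
    (hΦ : (frattini ↥(R : Subgroup L)).map (R : Subgroup L).subtype = Subgroup.zpowers z)
    (g : L) (hg : g * z * g⁻¹ ∈ (R : Subgroup L)) (hgz : g * z * g⁻¹ ≠ z) :
    Nonempty (↥(R : Subgroup L) ≃* DihedralGroup 4) := by
  classical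
  have : Fact (Nat.Prime 2) := ⟨Nat.prime_two⟩
  have hzz : z * z = 1 := by rw [← pow_two, ← hz, pow_orderOf_eq_one]
  have hz1 : z ≠ 1 := by intro h; rw [h, orderOf_one] at hz; omega
  have hzinv : z⁻¹ = z := inv_eq_of_mul_eq_one_left hzz
  have hmem : ∀ a : L, a ∈ (R : Subgroup L) ↔ z * a = a * z := by
    intro a
    rw [hR, Subgroup.mem_centralizer_iff]
    constructor
    · intro h; exact h z rfl
    · intro h w hw; rw [Set.mem_singleton_iff.mp hw]; exact h
  have hzR : z ∈ (R : Subgroup L) := (hmem z).mpr rfl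
  have hpow : ∀ w ∈ Subgroup.zpowers z, w = 1 ∨ w = z := zpowers_cases z hz
  have hsq : ∀ a ∈ (R : Subgroup L), a * a = 1 ∨ a * a = z := by
    intro a ha
    apply hpow
    rw [← hΦ]
    exact ⟨⟨a, ha⟩ * ⟨a, ha⟩, sq_mem_frattini R.isPGroup' _, rfl⟩
  have hcomm : ∀ a ∈ (R : Subgroup L), ∀ b ∈ (R : Subgroup L),
      a * b * a⁻¹ * b⁻¹ = 1 ∨ a * b * a⁻¹ * b⁻¹ = z := by
    intro a ha b hb
    have e : a * b * a⁻¹ * b⁻¹ = (a * a) * ((a⁻¹ * b) * (a⁻¹ * b)) * (b * b)⁻¹ := by group
    rw [e]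
    rcases hsq a ha with h1 | h1 <;>
      rcases hsq (a⁻¹ * b) ((R : Subgroup L).mul_mem ((R : Subgroup L).inv_mem ha) hb)
        with h2 | h2 <;>
      rcases hsq b hb with h3 | h3 <;> rw [h1, h2, h3] <;> simp [hzz, hzinv]
  have hNR : ∀ n : L, (∀ a ∈ (R : Subgroup L), n * a * n⁻¹ ∈ (R : Subgroup L)) →
      n ∈ (R : Subgroup L) :=
    fun n hn => normalizer_le z hz (R : Subgroup L) hR hΦ n hn
  -- the fused involution
  obtain ⟨t, ht⟩ : ∃ t : L, t = g * z * g⁻¹ := ⟨_, rfl⟩
  rw [← ht] at hg hgz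
  have htt : t * t = 1 := by
    have e : g * z * g⁻¹ * (g * z * g⁻¹) = g * (z * z) * g⁻¹ := by group
    rw [ht, e, hzz]; group
  have htinv : t⁻¹ = t := inv_eq_of_mul_eq_one_left htt
  have hct : ∀ a : L, t * a = a * t → g⁻¹ * a * g ∈ (R : Subgroup L) := by
    intro a h
    rw [hmem]
    have e1 : z * (g⁻¹ * a * g) = g⁻¹ * (t * a) * g := by rw [ht]; group
    have e2 : g⁻¹ * a * g * z = g⁻¹ * (a * t) * g := by rw [ht]; group
    rw [e1, e2, h]
  have hsqt : ∀ a ∈ (R : Subgroup L), t * a = a * t → a * a = 1 := by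
    intro a ha h
    rcases hsq a ha with h1 | h1
    · exact h1
    · exfalso
      have e : g⁻¹ * a * g * (g⁻¹ * a * g) = g⁻¹ * (a * a) * g := by group
      rcases hsq _ (hct a h) with h2 | h2
      · rw [e, h1] at h2
        apply hz1
        have e3 : z = g * (g⁻¹ * z * g) * g⁻¹ := by group
        rw [e3, h2]; group
      · rw [e, h1] at h2
        apply hgz
        rw [ht]
        calc g * z * g⁻¹ = g * (g⁻¹ * z * g) * g⁻¹ := by rw [h2]
          _ = z := by group
  -- `t` is not central in `R`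
  have hex : ∃ x ∈ (R : Subgroup L), t * x ≠ x * t := by
    by_contra hcon
    have hcon' : ∀ x ∈ (R : Subgroup L), t * x = x * t := by
      intro x hx
      by_contra h
      exact hcon ⟨x, hx, h⟩
    have h1 : g⁻¹ ∈ (R : Subgroup L) := hNR g⁻¹ (fun a ha => by
      have h2 := hct a (hcon' a ha)
      rw [inv_inv]
      exact h2)
    have h2 := (hmem g⁻¹).mp h1
    apply hgz
    rw [ht, mul_assoc, h2, ← mul_assoc, mul_inv_cancel, one_mul]
  obtain ⟨x, hxR, hxt⟩ := hex
  have hconjt : ∀ a ∈ (R : Subgroup L), a * t * a⁻¹ = t ∨ a * t * a⁻¹ = z * t := by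
    intro a ha
    have e : a * t * a⁻¹ = (a * t * a⁻¹ * t⁻¹) * t := by group
    rcases hcomm a ha t hg with h | h
    · left
      rw [e, h, one_mul]
    · right
      rw [e, h]
  have hconjx : ∀ a ∈ (R : Subgroup L), a * x ≠ x * a → a * x * a⁻¹ = z * x := by
    intro a ha hax
    have e : a * x * a⁻¹ = (a * x * a⁻¹ * x⁻¹) * x := by group
    rcases hcomm a ha x hxR with h | h
    · exfalso
      apply hax
      have h1 : a * x * a⁻¹ = x := by rw [e, h, one_mul]
      have h2 := congrArg (· * a) h1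
      simp only [inv_mul_cancel_right] at h2
      exact h2
    · rw [e, h]
  have hzt : z * t = t * z := (hmem t).mp hg
  have hzx : z * x = x * z := (hmem x).mp hxR
  have hxt' : x * t * x⁻¹ = z * t := by
    rcases hconjt x hxR with h | h
    · exfalso; apply hxt
      have h2 := congrArg (· * x) h
      simp only [inv_mul_cancel_right] at h2
      exact h2.symm
    · exact h
  have htx' : t * x * t⁻¹ = z * x := hconjx t hg hxt
  have hsplit : ∀ a ∈ (R : Subgroup L), t * a = a * t ∨ t * (x⁻¹ * a) = (x⁻¹ * a) * t := by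
    intro a ha
    rcases hconjt a ha with h | h
    · left
      have h2 := congrArg (· * a) h
      simp only [inv_mul_cancel_right] at h2
      exact h2.symm
    · right
      have h1 : x⁻¹ * (z * t) * x = t := by
        rw [← hxt']; group
      have h2 : (x⁻¹ * a) * t * (x⁻¹ * a)⁻¹ = t := by
        have e : (x⁻¹ * a) * t * (x⁻¹ * a)⁻¹ = x⁻¹ * (a * t * a⁻¹) * x := by group
        rw [e, h, h1]
      have h3 := congrArg (· * (x⁻¹ * a)) h2
      simp only [inv_mul_cancel_right] at h3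
      exact h3.symm
  have hDcomm : ∀ a ∈ (R : Subgroup L), t * a = a * t → ∀ b ∈ (R : Subgroup L),
      t * b = b * t → a * b = b * a := by
    intro a ha hat b hb hbt
    have hab : t * (a * b) = (a * b) * t := by rw [← mul_assoc, hat, mul_assoc, hbt, mul_assoc]
    have h1 := hsqt (a * b) ((R : Subgroup L).mul_mem ha hb) hab
    have ia : a⁻¹ = a := inv_eq_of_mul_eq_one_left (hsqt a ha hat)
    have ib : b⁻¹ = b := inv_eq_of_mul_eq_one_left (hsqt b hb hbt)
    have iab : (a * b)⁻¹ = a * b := inv_eq_of_mul_eq_one_left h1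
    rw [mul_inv_rev, ia, ib] at iab
    exact iab.symm
  have hKc : ∀ d ∈ (R : Subgroup L), t * d = d * t → d * x = x * d →
      ∀ a ∈ (R : Subgroup L), a * d = d * a := by
    intro d hd hdt hdx a ha
    rcases hsplit a ha with h | h
    · exact hDcomm a ha h d hd hdt
    · have hb : x⁻¹ * a ∈ (R : Subgroup L) :=
        (R : Subgroup L).mul_mem ((R : Subgroup L).inv_mem hxR) ha
      have h1 := hDcomm (x⁻¹ * a) hb h d hd hdt
      calc a * d = x * ((x⁻¹ * a) * d) := by group
        _ = x * (d * (x⁻¹ * a)) := by rw [h1]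
        _ = (x * d) * (x⁻¹ * a) := by group
        _ = (d * x) * (x⁻¹ * a) := by rw [hdx]
        _ = d * a := by group
  have htz : t * z * t⁻¹ = z := by rw [← hzt]; group
  -- the centraliser of `t` in `R` is a four-group
  have hD4 : ∀ d ∈ (R : Subgroup L), t * d = d * t → d = 1 ∨ d = z ∨ d = t ∨ d = t * z := by
    intro d0 hd0 hd0t
    by_contra hcon
    have hc1 : d0 ≠ 1 := fun h => hcon (Or.inl h)
    have hc2 : d0 ≠ z := fun h => hcon (Or.inr (Or.inl h))
    have hc3 : d0 ≠ t := fun h => hcon (Or.inr (Or.inr (Or.inl h)))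
    have hc4 : d0 ≠ t * z := fun h => hcon (Or.inr (Or.inr (Or.inr h)))
    have hy : ∃ y ∈ (R : Subgroup L), t * y = y * t ∧ y * x = x * y ∧ y ≠ 1 ∧ y ≠ z := by
      by_cases hd0x : d0 * x = x * d0
      · exact ⟨d0, hd0, hd0t, hd0x, hc1, hc2⟩
      · refine ⟨t * d0, (R : Subgroup L).mul_mem hg hd0, ?_, ?_, ?_, ?_⟩
        · rw [mul_assoc, hd0t]
        · have h2 := hconjx d0 hd0 hd0x
          have h4 : t * d0 * x * (t * d0)⁻¹ = x := by
            have e : t * d0 * x * (t * d0)⁻¹ = t * (d0 * x * d0⁻¹) * t⁻¹ := by group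
            rw [e, h2]
            have e2 : t * (z * x) * t⁻¹ = (t * z * t⁻¹) * (t * x * t⁻¹) := by group
            rw [e2, htz, htx', ← mul_assoc, hzz, one_mul]
          have h5 := congrArg (· * (t * d0)) h4
          simp only [inv_mul_cancel_right] at h5
          exact h5
        · intro h
          apply hc3
          have e : d0 = t⁻¹ * (t * d0) := by group
          rw [e, h, mul_one, htinv]
        · intro h
          apply hc4
          have e : d0 = t⁻¹ * (t * d0) := by group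
          rw [e, h, htinv]
    obtain ⟨y, hyR, hyt, hyx, hy1, hyz⟩ := hy
    have hyy : y * y = 1 := hsqt y hyR hyt
    have hyc : ∀ a ∈ (R : Subgroup L), a * y = y * a := hKc y hyR hyt hyx
    have hyF : (⟨y, hyR⟩ : ↥(R : Subgroup L)) ∉ frattini ↥(R : Subgroup L) := by
      intro h
      have h1 : y ∈ Subgroup.zpowers z := by rw [← hΦ]; exact ⟨_, h, rfl⟩
      rcases hpow y h1 with h | h
      · exact hy1 h
      · exact hyz h
    obtain ⟨ϕ, hϕ⟩ := exists_hom_of_not_mem_frattini R.isPGroup' _ hyF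
    obtain ⟨N, hN, hNi⟩ := exists_index_two R hNR y hyR hyy hyc ϕ hϕ
    exact hno N hN hNi
  have hR8 : ∀ a ∈ (R : Subgroup L), (a = 1 ∨ a = z ∨ a = t ∨ a = t * z) ∨
      (a = x ∨ a = x * z ∨ a = x * t ∨ a = x * (t * z)) := by
    intro a ha
    rcases hsplit a ha with h | h
    · left; exact hD4 a ha h
    · right
      have e : a = x * (x⁻¹ * a) := by group
      rcases hD4 (x⁻¹ * a) ((R : Subgroup L).mul_mem ((R : Subgroup L).inv_mem hxR) ha) h
        with h' | h' | h' | h'
      · left; rw [h', mul_one] at e; exact e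
      · right; left; rw [h'] at e; exact e
      · right; right; left; rw [h'] at e; exact e
      · right; right; right; rw [h'] at e; exact e
  have hgen : ∀ (C : Subgroup ↥(R : Subgroup L)) (x' t' z' : ↥(R : Subgroup L)),
      (x' : L) = x → (t' : L) = t → (z' : L) = z → x' ∈ C → t' ∈ C → z' ∈ C → C = ⊤ := by
    intro C x' t' z' ex et ez hx ht' hz'
    rw [eq_top_iff]
    intro a _
    rcases hR8 a a.2 with (h | h | h | h) | (h | h | h | h)
    · have : a = 1 := Subtype.ext h
      rw [this]; exact C.one_mem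
    · have : a = z' := Subtype.ext (by rw [h, ez])
      rw [this]; exact hz'
    · have : a = t' := Subtype.ext (by rw [h, et])
      rw [this]; exact ht'
    · have : a = t' * z' := Subtype.ext (by rw [h, Subgroup.coe_mul, et, ez])
      rw [this]; exact C.mul_mem ht' hz'
    · have : a = x' := Subtype.ext (by rw [h, ex])
      rw [this]; exact hx
    · have : a = x' * z' := Subtype.ext (by rw [h, Subgroup.coe_mul, ex, ez])
      rw [this]; exact C.mul_mem hx hz'
    · have : a = x' * t' := Subtype.ext (by rw [h, Subgroup.coe_mul, ex, et])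
      rw [this]; exact C.mul_mem hx ht'
    · have : a = x' * (t' * z') :=
        Subtype.ext (by rw [h, Subgroup.coe_mul, Subgroup.coe_mul, ex, et, ez])
      rw [this]; exact C.mul_mem hx (C.mul_mem ht' hz')
  have h21 : (2 : ℕ) ^ 1 = 2 := by norm_num
  have h22 : (2 : ℕ) ^ (1 + 1) = 4 := by norm_num
  rcases hsq x hxR with hxx | hxx
  · -- `x` is an involution: rotation `t * x`, reflection `x`
    have hxinv : x⁻¹ = x := inv_eq_of_mul_eq_one_left hxx
    have hrR : t * x ∈ (R : Subgroup L) := (R : Subgroup L).mul_mem hg hxR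
    have hrr : (t * x) * (t * x) = z := by
      have h1 : x * t * x = z * t := by rw [← hxt', hxinv]
      calc (t * x) * (t * x) = t * (x * t * x) := by group
        _ = t * (z * t) := by rw [h1]
        _ = t * (t * z) := by rw [hzt]
        _ = (t * t) * z := by group
        _ = z := by rw [htt, one_mul]
    have hord : orderOf (t * x) = 4 := by
      rw [← h22]
      apply orderOf_eq_prime_pow
      · rw [h21, pow_two, hrr]; exact hz1
      · rw [h22]
        have e4 : (t * x) ^ 4 = ((t * x) * (t * x)) * ((t * x) * (t * x)) := by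
          rw [show (4 : ℕ) = 2 + 2 from rfl, pow_add, pow_two]
        rw [e4, hrr, hzz]
    have hsr : x * (t * x) * x⁻¹ = (t * x)⁻¹ := by
      calc x * (t * x) * x⁻¹ = x * t := by group
        _ = x⁻¹ * t⁻¹ := by rw [hxinv, htinv]
        _ = (t * x)⁻¹ := by group
    have hns : (⟨x, hxR⟩ : ↥(R : Subgroup L)) ∉
        Subgroup.zpowers (⟨t * x, hrR⟩ : ↥(R : Subgroup L)) := by
      intro hmem'
      obtain ⟨k, hk⟩ := Subgroup.mem_zpowers_iff.mp hmem'
      have hc : Commute (⟨x, hxR⟩ : ↥(R : Subgroup L)) ⟨t * x, hrR⟩ := by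
        rw [← hk]; exact Commute.zpow_self _ k
      have hc' : x * (t * x) = (t * x) * x := congrArg Subtype.val hc.eq
      apply hxt
      have h5 := congrArg (· * x⁻¹) hc'
      simp only [mul_assoc, mul_inv_cancel, mul_one] at h5
      exact h5.symm
    have hcl : Subgroup.closure ({⟨x, hxR⟩, ⟨t * x, hrR⟩} : Set ↥(R : Subgroup L)) = ⊤ := by
      apply hgen _ ⟨x, hxR⟩ (⟨t * x, hrR⟩ * (⟨x, hxR⟩)⁻¹) (⟨t * x, hrR⟩ * ⟨t * x, hrR⟩) rfl
      · show t * x * x⁻¹ = t
        group
      · exact hrr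
      · exact Subgroup.subset_closure (Or.inl rfl)
      · exact Subgroup.mul_mem _ (Subgroup.subset_closure (Or.inr rfl))
          (Subgroup.inv_mem _ (Subgroup.subset_closure (Or.inl rfl)))
      · exact Subgroup.mul_mem _ (Subgroup.subset_closure (Or.inr rfl))
          (Subgroup.subset_closure (Or.inr rfl))
    obtain ⟨e⟩ := Cfsg.Agent.Lib.Helper21.nonempty_dihedral_mulEquiv
      (G := ↥(R : Subgroup L)) ⟨x, hxR⟩ ⟨t * x, hrR⟩ 4 (Subtype.ext hxx)
      (by rw [← Subgroup.orderOf_coe]; exact hord) (by norm_num) (Subtype.ext hsr) hcl hns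
    exact ⟨e.symm⟩
  · -- `x` has order four: rotation `x`, reflection `t`
    have hord : orderOf x = 4 := by
      rw [← h22]
      apply orderOf_eq_prime_pow
      · rw [h21, pow_two, hxx]; exact hz1
      · rw [h22]
        have e4 : x ^ 4 = (x * x) * (x * x) := by
          rw [show (4 : ℕ) = 2 + 2 from rfl, pow_add, pow_two]
        rw [e4, hxx, hzz]
    have hxinv : x⁻¹ = z * x := by
      apply inv_eq_of_mul_eq_one_right
      calc x * (z * x) = (x * z) * x := by group
        _ = (z * x) * x := by rw [hzx]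
        _ = z * (x * x) := by group
        _ = 1 := by rw [hxx, hzz]
    have hsr : t * x * t⁻¹ = x⁻¹ := by rw [htx', hxinv]
    have hns : (⟨t, hg⟩ : ↥(R : Subgroup L)) ∉
        Subgroup.zpowers (⟨x, hxR⟩ : ↥(R : Subgroup L)) := by
      intro hmem'
      obtain ⟨k, hk⟩ := Subgroup.mem_zpowers_iff.mp hmem'
      have hc : Commute (⟨t, hg⟩ : ↥(R : Subgroup L)) ⟨x, hxR⟩ := by
        rw [← hk]; exact Commute.zpow_self _ k
      exact hxt (congrArg Subtype.val hc.eq)
    have hcl : Subgroup.closure ({⟨t, hg⟩, ⟨x, hxR⟩} : Set ↥(R : Subgroup L)) = ⊤ := by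
      apply hgen _ ⟨x, hxR⟩ ⟨t, hg⟩ (⟨x, hxR⟩ * ⟨x, hxR⟩) rfl rfl
      · exact hxx
      · exact Subgroup.subset_closure (Or.inr rfl)
      · exact Subgroup.subset_closure (Or.inl rfl)
      · exact Subgroup.mul_mem _ (Subgroup.subset_closure (Or.inr rfl))
          (Subgroup.subset_closure (Or.inr rfl))
    obtain ⟨e⟩ := Cfsg.Agent.Lib.Helper21.nonempty_dihedral_mulEquiv
      (G := ↥(R : Subgroup L)) ⟨t, hg⟩ ⟨x, hxR⟩ 4 (Subtype.ext htt)
      (by rw [← Subgroup.orderOf_coe]; exact hord) (by norm_num) (Subtype.ext hsr) hcl hns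
    exact ⟨e.symm⟩

end Cfsg.Agent.Lib.Helper4.D8s
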