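import Cfsg.Agent.Lib.Helper4.GqA
import Cfsg.Agent.Lib.Helper4.GqB

set_option autoImplicit false

namespace Cfsg.Agent.Lib.Helper4
namespace Gq

open Pointwise Golay Sx

/-- The table of the joint stabiliser of the standard dodecad and quartet. -/
def tblG : List (List ℕ × List ℕ × (ℕ × ℕ × ℕ × ℕ) × List ℕ) := tblA ++ tblB

theorem tblG_ok' (e : List ℕ × List ℕ × (ℕ × ℕ × ℕ × ℕ) × List ℕ) (he : e ∈ tblG) : gqChk e = true := by
  have h : tblG.all gqChk = true := by
    rw [tblG, List.all_append, tblA_ok, tblB_ok]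
    rfl
  rw [List.all_eq_true] at h
  exact h e he

set_option maxRecDepth 100000 in
theorem enc_nodup : nodupB (tblG.map (fun e => enc e.1)) = true := by decide +kernel

theorem lists_nodup : (tblG.map (fun e => e.1)).Nodup := by
  have h := nodupB_spec _ enc_nodup
  have e : tblG.map (fun e => enc e.1) = (tblG.map (fun e => e.1)).map enc := by
    rw [List.map_map]
    rfl
  rw [e] at h
  exact List.Nodup.of_map _ h

set_option maxRecDepth 100000 in
theorem tblG_length : tblG.length = 432 := by decide +kernel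

set_option maxRecDepth 100000 in
theorem genmul_ok : tblG.all (fun a => (List.range 4).all (fun i =>
    tupBeq (Fc (compL a.1 (gl i))) (mulT a.2.2.1 (Fc (gl i))))) = true := by decide +kernel

/-- Check of a generator. -/
def genChk (i : ℕ) : Bool :=
  and (and (chk (gl i) (gl' i)) (memChk (gl i)))
    (and (Nat.beq (pmL (gl i) D0) D0) (Tr.mapChk (gl i) Qt.Q0L Qt.Q0L))

set_option maxRecDepth 100000 in
theorem gen_ok : ∀ i < 4, genChk i = true := by decide +kernel

theorem gl_ge (i : ℕ) (hi : 3 ≤ i) : gl i = gl 3 ∧ gl' i = gl' 3 := by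
  unfold gl gl'
  rw [Tr.beq_false (by omega), Tr.beq_false (by omega), Tr.beq_false (by omega)]
  exact ⟨rfl, rfl⟩

theorem genChk_all (i : ℕ) : genChk i = true := by
  by_cases hi : i < 4
  · exact gen_ok i hi
  · have h := gl_ge i (by omega)
    unfold genChk
    rw [h.1, h.2]
    exact gen_ok 3 (by norm_num)

theorem chk_gl (i : ℕ) : chk (gl i) (gl' i) = true := by
  have h := genChk_all i
  simp only [genChk, Bool.and_eq_true] at h
  exact h.1.1

set_option maxRecDepth 100000 in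
theorem one_ok : Fc idL = (1, 0, 0, 1) := by decide +kernel

set_option maxRecDepth 100000 in
theorem img_ok : ∀ a b c e : ZMod 3, a * e - b * c ≠ 0 →
    tblG.any (fun x => tupBeq x.2.2.1 (a.val, b.val, c.val, e.val)) = true := by decide +kernel

set_option maxRecDepth 100000 in
theorem trans_ok : (List.range 24).all (fun i => (List.range 24).all (fun j =>
    or (not (and (D0.testBit i) (D0.testBit j)))
      (tblG.any (fun e => Nat.beq (nth e.1 i) j)))) = true := by decide +kernel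

/-- The joint stabiliser of the standard dodecad and quartet, as a set of permutations. -/
def SG : Set (Equiv.Perm GolayPt) := {g | g ∈ M24 ∧ g • D0s = D0s ∧ g • Qt.Q0 = Qt.Q0}

/-- The joint stabiliser of a dodecad and one of its quartets has order 432. -/
theorem card_stab {d : Finset GolayPt} (hd : d ∈ dodecads) {Q : Finset (Finset GolayPt)}
    (hQ : Q ∈ quartets d) :
    Nat.card ↥(MulAction.stabilizer M24 d ⊓ MulAction.stabilizer M24 Q) = 432 := by
  have h1 := card_orbit_mul_stab (G := ↥(MulAction.stabilizer M24 d)) Q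
  have horb : MulAction.orbit ↥(MulAction.stabilizer M24 d) Q = quartets d := by
    ext Z
    constructor
    · rintro ⟨g, rfl⟩
      have h := Qt.smul_quartet g.1.2 hQ
      have e : (g.1 : Equiv.Perm GolayPt) • d = d := g.2
      rw [e] at h
      exact h
    · intro hZ
      obtain ⟨g, hg, gd, gQ⟩ := Qt.quartet_trans hd hQ hZ
      exact ⟨⟨⟨g, hg⟩, gd⟩, gQ⟩
  rw [horb, Qt.ncard_quartets hd, card_stab_dod hd,
    Nat.card_congr (SimpleCrit.stabMulEquiv (MulAction.stabilizer M24 d) Q).toEquiv] at h1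
  omega

theorem mem_G0 (x : ↥M24) :
    x ∈ MulAction.stabilizer M24 D0s ⊓ MulAction.stabilizer M24 Qt.Q0 ↔ x.1 ∈ SG := by
  rw [Subgroup.mem_inf]
  constructor
  · rintro ⟨h1, h2⟩
    exact ⟨x.2, h1, h2⟩
  · rintro ⟨-, h1, h2⟩
    exact ⟨h1, h2⟩

theorem ncard_SG : SG.ncard = 432 := by
  rw [← card_stab D0_dod Qt.Q0_quartet, ← Nat.card_coe_set_eq]
  refine Nat.card_congr ⟨fun g => ⟨⟨g.1, g.2.1⟩, (mem_G0 _).2 g.2⟩,
    fun x => ⟨x.1.1, (mem_G0 _).1 x.2⟩, fun _ => rfl, fun _ => rfl⟩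

theorem entry_mem (e : List ℕ × List ℕ × (ℕ × ℕ × ℕ × ℕ) × List ℕ) (he : e ∈ tblG) :
    ∃ g ∈ SG, toL g = e.1 ∧ Fc e.1 = e.2.2.1 ∧ evalW e.2.2.2 = e.1 := by
  obtain ⟨hc, hm, hD, hQ, hF, hw⟩ := gq_spec e (tblG_ok' e he)
  exact ⟨mkPerm e.1 e.2.1 hc, ⟨hm, hD, hQ⟩, toL_mkPerm _ _ hc, hF, hw⟩

/-- Every element of the joint stabiliser is in the table. -/
theorem complete {g : Equiv.Perm GolayPt} (hg : g ∈ SG) : ∃ e ∈ tblG, e.1 = toL g := by
  classical
  have hsub : (((tblG.map (fun e => e.1)).toFinset : Finset (List ℕ)) : Set (List ℕ))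
      ⊆ toL '' SG := by
    intro l hl
    rw [Finset.mem_coe, List.mem_toFinset, List.mem_map] at hl
    obtain ⟨e, he, rfl⟩ := hl
    obtain ⟨g, hg, h1, -, -⟩ := entry_mem e he
    exact ⟨g, hg, h1⟩
  have hcard : (toL '' SG).ncard
      ≤ (((tblG.map (fun e => e.1)).toFinset : Finset (List ℕ)) : Set (List ℕ)).ncard := by
    rw [Set.ncard_image_of_injective _ toL_injective, ncard_SG, Set.ncard_coe_finset,
      List.toFinset_card_of_nodup lists_nodup, List.length_map, tblG_length]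
  have hfin : (toL '' SG).Finite := Set.toFinite _
  have heq := Set.eq_of_subset_of_ncard_le hsub hcard hfin
  have hm : toL g ∈ toL '' SG := ⟨g, hg, rfl⟩
  rw [← heq, Finset.mem_coe, List.mem_toFinset, List.mem_map] at hm
  obtain ⟨e, he, h1⟩ := hm
  exact ⟨e, he, h1⟩

/-- The matrix attached to a permutation. -/
noncomputable def Phi (g : Equiv.Perm GolayPt) : Matrix (Fin 2) (Fin 2) (ZMod 3) :=
  matOf (Fc (toL g))

theorem Phi_one : Phi 1 = 1 := by
  rw [Phi, toL_one, one_ok, matOf_one]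

theorem one_mem_SG : (1 : Equiv.Perm GolayPt) ∈ SG :=
  ⟨M24.one_mem, one_smul _ _, one_smul _ _⟩

theorem mul_mem_SG {g h : Equiv.Perm GolayPt} (hg : g ∈ SG) (hh : h ∈ SG) : g * h ∈ SG :=
  ⟨M24.mul_mem hg.1 hh.1, by rw [mul_smul, hh.2.1, hg.2.1], by rw [mul_smul, hh.2.2, hg.2.2]⟩

/-- The permutation of a generator. -/
noncomputable def gperm (i : ℕ) : Equiv.Perm GolayPt := mkPerm (gl i) (gl' i) (chk_gl i)

theorem toL_gperm (i : ℕ) : toL (gperm i) = gl i := toL_mkPerm _ _ _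

theorem gperm_mem (i : ℕ) : gperm i ∈ SG := by
  have h := genChk_all i
  simp only [genChk, Bool.and_eq_true, Nat.beq_eq] at h
  obtain ⟨⟨hc, hm⟩, hD, hmap⟩ := h
  exact ⟨mkPerm_mem _ _ _ hm, Qt.smul_D0 _ hD,
    Qt.map_specQ _ hm hD Qt.Q0_quartet (Qt.rep_ok 0 (by norm_num)).1 hmap⟩

theorem toL_prod (w : List ℕ) : toL ((w.map gperm).prod) = evalW w := by
  induction w with
  | nil =>
    rw [List.map_nil, List.prod_nil, toL_one]
    rfl
  | cons i r ih =>
    rw [List.map_cons, List.prod_cons, toL_mul, toL_gperm, ih]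
    rfl

theorem Phi_gen {g : Equiv.Perm GolayPt} (hg : g ∈ SG) (i : ℕ) :
    Phi (g * gperm i) = Phi g * Phi (gperm i) := by
  obtain ⟨e, he, k1⟩ := complete hg
  obtain ⟨-, -, -, f1, -⟩ := entry_mem e he
  have hm := genmul_ok
  simp only [List.all_eq_true, List.mem_range] at hm
  have key : ∀ j < 4, Fc (compL e.1 (gl j)) = mulT e.2.2.1 (Fc (gl j)) :=
    fun j hj => tupBeq_eq (hm e he j hj)
  rw [Phi, Phi, Phi, toL_mul, toL_gperm, ← k1, ← matOf_mul, f1]
  by_cases hi : i < 4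
  · rw [key i hi]
  · rw [(gl_ge i (by omega)).1, key 3 (by norm_num)]

theorem Phi_word (w : List ℕ) : ∀ g ∈ SG,
    Phi (g * (w.map gperm).prod) = Phi g * (w.map (fun i => Phi (gperm i))).prod := by
  induction w with
  | nil =>
    intro g _
    rw [List.map_nil, List.prod_nil, List.map_nil, List.prod_nil, mul_one, mul_one]
  | cons i r ih =>
    intro g hg
    rw [List.map_cons, List.prod_cons, List.map_cons, List.prod_cons, ← mul_assoc,
      ih _ (mul_mem_SG hg (gperm_mem i)), Phi_gen hg, mul_assoc]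

theorem exists_word {h : Equiv.Perm GolayPt} (hh : h ∈ SG) :
    ∃ w : List ℕ, (w.map gperm).prod = h := by
  obtain ⟨e, he, k1⟩ := complete hh
  obtain ⟨-, -, -, -, hw⟩ := entry_mem e he
  refine ⟨e.2.2.2, toL_injective ?_⟩
  rw [toL_prod, hw, k1]

theorem Phi_mul {g h : Equiv.Perm GolayPt} (hg : g ∈ SG) (hh : h ∈ SG) :
    Phi (g * h) = Phi g * Phi h := by
  obtain ⟨w, rfl⟩ := exists_word hh
  have h1 := Phi_word w g hg
  have h2 := Phi_word w 1 one_mem_SG
  rw [one_mul, Phi_one, one_mul] at h2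
  rw [h1, h2]

/-- The matrix representation of the joint stabiliser of the standard dodecad and quartet. -/
noncomputable def psiM :
    ↥(MulAction.stabilizer M24 D0s ⊓ MulAction.stabilizer M24 Qt.Q0) →*
      Matrix (Fin 2) (Fin 2) (ZMod 3) where
  toFun x := Phi x.1.1
  map_one' := Phi_one
  map_mul' x y := Phi_mul ((mem_G0 _).1 x.2) ((mem_G0 _).1 y.2)

/-- The representation as a homomorphism to the general linear group. -/
noncomputable def psi0 :
    ↥(MulAction.stabilizer M24 D0s ⊓ MulAction.stabilizer M24 Qt.Q0) →*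
      GL (Fin 2) (ZMod 3) := psiM.toHomUnits

theorem psi0_surjective : Function.Surjective psi0 := by
  intro M
  have hdet : (M.1 0 0) * (M.1 1 1) - (M.1 0 1) * (M.1 1 0) ≠ 0 := by
    rw [← Matrix.det_fin_two]
    exact ((Matrix.isUnit_iff_isUnit_det _).1 M.isUnit).ne_zero
  have h := img_ok _ _ _ _ hdet
  rw [List.any_eq_true] at h
  obtain ⟨e, he, ht⟩ := h
  have ht' := tupBeq_eq ht
  obtain ⟨g, hg, h1, f1, -⟩ := entry_mem e he
  refine ⟨⟨⟨g, hg.1⟩, (mem_G0 _).2 hg⟩, ?_⟩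
  apply Units.ext
  show Phi g = M.1
  rw [Phi, h1, f1, ht', matOf]
  ext i j
  fin_cases i <;> fin_cases j <;> simp

theorem card_GL : Nat.card (GL (Fin 2) (ZMod 3)) = 48 := by
  rw [Matrix.card_GL_field]
  simp [Fin.prod_univ_two, ZMod.card]

/-- The joint stabiliser of the standard dodecad and quartet is transitive on the dodecad. -/
theorem trans_std {p q : GolayPt} (hp : p ∈ D0s) (hq : q ∈ D0s) : ∃ g ∈ SG, g p = q := by
  have h := trans_ok
  simp only [List.all_eq_true, List.mem_range] at h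
  have h1 := h (code p) (code_lt p) (code q) (code_lt q)
  rw [Qt.mem_D0s_iff.1 hp, Qt.mem_D0s_iff.1 hq] at h1
  simp only [Bool.and_self, Bool.not_true, Bool.false_or, List.any_eq_true, Nat.beq_eq] at h1
  obtain ⟨e, he, h2⟩ := h1
  obtain ⟨hc, hm, hD, hQ, -, -⟩ := gq_spec e (tblG_ok' e he)
  refine ⟨mkPerm e.1 e.2.1 hc, ⟨hm, hD, hQ⟩, ?_⟩
  rw [mkPerm_apply, h2, pt_code]

/-- Structure of the joint stabiliser of a dodecad and one of its quartets. -/
theorem structure_thm {d : Finset GolayPt} (hd : d ∈ dodecads) {Q : Finset (Finset GolayPt)}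
    (hQ : Q ∈ quartets d) :
    Nat.card ↥(MulAction.stabilizer M24 d ⊓ MulAction.stabilizer M24 Q) = 432 ∧
    (∃ (N : Subgroup ↥(MulAction.stabilizer M24 d ⊓ MulAction.stabilizer M24 Q))
      (_ : N.Normal), Nat.card N = 9 ∧
      Nonempty (↥(MulAction.stabilizer M24 d ⊓ MulAction.stabilizer M24 Q) ⧸ N ≃*
        GL (Fin 2) (ZMod 3))) ∧
    ∀ p ∈ d, ∀ q ∈ d, ∃ g ∈ (MulAction.stabilizer M24 d ⊓ MulAction.stabilizer M24 Q),
      ((g : ↥M24) : Equiv.Perm GolayPt) p = q := by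
  obtain ⟨k, hk, kd, kQ⟩ := Qt.exists_std2 hd hQ
  have e1 : (⟨k, hk⟩ : ↥M24) • d = D0s := kd
  have e2 : (⟨k, hk⟩ : ↥M24) • Q = Qt.Q0 := kQ
  have hconj : ∀ g : ↥M24, g ∈ MulAction.stabilizer M24 d ⊓ MulAction.stabilizer M24 Q ↔
      (⟨k, hk⟩ : ↥M24) * g * (⟨k, hk⟩ : ↥M24)⁻¹ ∈
        MulAction.stabilizer M24 D0s ⊓ MulAction.stabilizer M24 Qt.Q0 := by
    intro g
    rw [Subgroup.mem_inf, Subgroup.mem_inf, ← e1, ← e2, SimpleCrit.conj_mem_stabilizer,
      SimpleCrit.conj_mem_stabilizer]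
  let e := SimpleCrit.conjEquiv (MulAction.stabilizer M24 d ⊓ MulAction.stabilizer M24 Q)
    (MulAction.stabilizer M24 D0s ⊓ MulAction.stabilizer M24 Qt.Q0) ⟨k, hk⟩ hconj
  have hcard := card_stab hd hQ
  refine ⟨hcard, ?_, ?_⟩
  · have hsurj : Function.Surjective (psi0.comp e.toMonoidHom) := by
      intro M
      obtain ⟨x, hx⟩ := psi0_surjective M
      exact ⟨e.symm x, by rw [MonoidHom.comp_apply]; simp [hx]⟩
    refine ⟨(psi0.comp e.toMonoidHom).ker, MonoidHom.normal_ker _, ?_,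
      ⟨QuotientGroup.quotientKerEquivOfSurjective _ hsurj⟩⟩
    have h1 := Subgroup.card_eq_card_quotient_mul_card_subgroup (psi0.comp e.toMonoidHom).ker
    rw [hcard, Nat.card_congr (QuotientGroup.quotientKerEquivOfSurjective _ hsurj).toEquiv,
      card_GL] at h1
    omega
  · intro p hp q hq
    have hp' : k p ∈ D0s := by
      rw [← kd, ← Equiv.Perm.smul_def]
      exact Finset.smul_mem_smul_finset hp
    have hq' : k q ∈ D0s := by
      rw [← kd, ← Equiv.Perm.smul_def]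
      exact Finset.smul_mem_smul_finset hq
    obtain ⟨g, hg, hgp⟩ := trans_std hp' hq'
    refine ⟨(⟨k, hk⟩ : ↥M24)⁻¹ * ⟨g, hg.1⟩ * ⟨k, hk⟩, ?_, ?_⟩
    · rw [hconj]
      have : (⟨k, hk⟩ : ↥M24) * ((⟨k, hk⟩ : ↥M24)⁻¹ * ⟨g, hg.1⟩ * ⟨k, hk⟩) * (⟨k, hk⟩ : ↥M24)⁻¹
          = ⟨g, hg.1⟩ := by group
      rw [this]
      exact (mem_G0 _).2 hg
    · show (k⁻¹ * g * k) p = q
      rw [Equiv.Perm.mul_apply, Equiv.Perm.mul_apply, hgp]
      exact k.symm_apply_apply q

end Gq
end Cfsg.Agent.Lib.Helper4
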