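import Cfsg.Agent.Lib.Helper4.LeechCross2
import Cfsg.Prelude.Def_SporadicCombinatorics

set_option autoImplicit false

namespace Cfsg.Agent.Lib.Helper4
namespace LeechCross

open Cfsg Cfsg.Agent.Lib.Helper28 Finset

theorem wt_zero : wt 0 = 48 := by
  unfold wt
  rw [sqNorm_zero, if_pos rfl]

open Classical in
theorem fiber_le (q : (GolayPt → ℤ) ⧸ D) : ∑ y ∈ Sf.filter (fun y => π y = q), wt y ≤ 48 := by
  classical
  set F := Sf.filter (fun y => π y = q) with hF
  have hmem : ∀ y ∈ F, y ∈ leechLattice ∧ sqNorm y ≤ 64 ∧ π y = q := by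
    intro y hy
    rw [hF, Finset.mem_filter, mem_Sf] at hy
    exact ⟨hy.1.1, hy.1.2, hy.2⟩
  have hpair : ∀ y ∈ F, ∀ y' ∈ F, y' = y ∨ y' = -y ∨
      (sqNorm y' = 64 ∧ sqNorm y = 64 ∧ dotInt y' y = 0) := by
    intro y hy y' hy'
    by_cases h1 : y' = y
    · exact Or.inl h1
    by_cases h2 : y' = -y
    · exact Or.inr (Or.inl h2)
    right; right
    have hπ : π y' = π y := by rw [(hmem y hy).2.2, (hmem y' hy').2.2]
    obtain ⟨z, hz, hzz⟩ := mem_D.1 (π_eq.1 hπ)
    exact leech_congr y' y z (hmem y hy).1 hz (hmem y' hy').2.1 (hmem y hy).2.1 hzz h1 h2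
  by_cases hsmall : ∃ y0 ∈ F, sqNorm y0 < 64
  · obtain ⟨y0, hy0, hlt⟩ := hsmall
    have hsub : F ⊆ {y0, -y0} := by
      intro y hy
      rw [Finset.mem_insert, Finset.mem_singleton]
      rcases hpair y0 hy0 y hy with h | h | h
      · exact Or.inl h
      · exact Or.inr h
      · exact absurd h.2.1 (by omega)
    by_cases h0 : y0 = 0
    · have hsub' : F ⊆ {0} := by
        intro y hy
        have := hsub hy
        rw [h0, neg_zero, Finset.mem_insert, Finset.mem_singleton, or_self] at this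
        rw [Finset.mem_singleton]
        exact this
      calc ∑ y ∈ F, wt y ≤ ∑ y ∈ ({0} : Finset (GolayPt → ℤ)), wt y :=
            Finset.sum_le_sum_of_subset hsub'
        _ = 48 := by rw [Finset.sum_singleton, wt_zero]
    · have hne : y0 ≠ -y0 := by
        intro h
        apply h0
        funext i
        have := congrFun h i
        rw [Pi.neg_apply] at this
        rw [Pi.zero_apply]
        omega
      have hn0 : sqNorm y0 ≠ 0 := fun h => h0 (eq_zero_of_sqNorm h)
      have hw1 : wt y0 = 24 := by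
        unfold wt
        rw [if_neg hn0, if_neg (by omega)]
      have hw2 : wt (-y0) = 24 := by
        unfold wt
        rw [sqNorm_neg, if_neg hn0, if_neg (by omega)]
      calc ∑ y ∈ F, wt y ≤ ∑ y ∈ ({y0, -y0} : Finset (GolayPt → ℤ)), wt y :=
            Finset.sum_le_sum_of_subset hsub
        _ = 48 := by rw [Finset.sum_pair hne, hw1, hw2]
  · push Not at hsmall
    have h64 : ∀ y ∈ F, sqNorm y = 64 := fun y hy => le_antisymm (hmem y hy).2.1 (hsmall y hy)
    have hw : ∀ y ∈ F, wt y = 1 := by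
      intro y hy
      unfold wt
      rw [h64 y hy]
      norm_num
    rw [Finset.sum_congr rfl hw, Finset.sum_const, smul_eq_mul, mul_one]
    exact card_le_48 F h64 (fun y hy y' hy' =>
      (hpair y hy y' hy').imp id (Or.imp id (fun h => h.2.2)))

open Classical in
theorem fiber_eq (q : (GolayPt → ℤ) ⧸ D) (hq : q ∈ Qf) :
    ∑ y ∈ Sf.filter (fun y => π y = q), wt y = 48 := by
  classical
  have hmaps : ∀ y ∈ Sf, π y ∈ Qf := fun y hy => mem_Qf.2 ⟨y, (mem_Sf.1 hy).1, rfl⟩
  have h1 := Finset.sum_fiberwise_of_maps_to hmaps wt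
  rw [total_wt] at h1
  have h2 : ∑ _q ∈ Qf, (48 : ℕ) = 48 * 2 ^ 24 := by
    rw [Finset.sum_const, card_Qf, smul_eq_mul]
    ring
  exact (Finset.sum_eq_sum_iff_of_le (fun q _ => fiber_le q)).1 (h1.trans h2.symm) q hq

/-- Every class modulo twice the lattice contains a short vector. -/
theorem mod_two_rep (x : GolayPt → ℤ) (hx : x ∈ leechLattice) :
    ∃ y ∈ leechLattice, sqNorm y ≤ 64 ∧ ∃ z ∈ leechLattice, x - y = 2 • z := by
  classical
  have hq : π x ∈ Qf := mem_Qf.2 ⟨x, hx, rfl⟩
  have h := fiber_eq (π x) hq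
  have hne : (Sf.filter (fun y => π y = π x)).Nonempty := by
    by_contra hcon
    rw [Finset.not_nonempty_iff_eq_empty] at hcon
    rw [hcon, Finset.sum_empty] at h
    norm_num at h
  obtain ⟨y, hy⟩ := hne
  rw [Finset.mem_filter, mem_Sf] at hy
  exact ⟨y, hy.1.1, hy.1.2, mem_D.1 (π_eq.1 hy.2.symm)⟩

/-- The cross through a vector of sum of squares 64 has 48 members. -/
theorem cross_card (x : GolayPt → ℤ) (hx : x ∈ leechLattice) (hxn : sqNorm x = 64) :
    (cross x).ncard = 48 := by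
  classical
  have hq : π x ∈ Qf := mem_Qf.2 ⟨x, hx, rfl⟩
  have h := fiber_eq (π x) hq
  have hset : cross x = ↑(Sf.filter (fun y => π y = π x)) := by
    ext y
    rw [Finset.mem_coe, Finset.mem_filter, mem_Sf]
    constructor
    · rintro ⟨h1, h2, z, hz, hzz⟩
      exact ⟨⟨h1, by rw [h2, hxn]⟩, (π_eq.2 (mem_D.2 ⟨z, hz, hzz⟩)).symm⟩
    · rintro ⟨⟨h1, h2⟩, h3⟩
      obtain ⟨z, hz, hzz⟩ := mem_D.1 (π_eq.1 h3.symm)
      refine ⟨h1, ?_, z, hz, hzz⟩
      rw [hxn]
      by_cases e1 : x = y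
      · rw [← e1]
        exact hxn
      by_cases e2 : x = -y
      · have := sqNorm_neg y
        rw [← e2] at this
        rw [← this]
        exact hxn
      exact (leech_congr x y z h1 hz (by rw [hxn]) h2 hzz e1 e2).2.1
  have hw : ∀ y ∈ Sf.filter (fun y => π y = π x), wt y = 1 := by
    intro y hy
    have hy' : y ∈ cross x := by
      rw [hset]
      exact hy
    have h64 : sqNorm y = 64 := by rw [hy'.2.1, hxn]
    unfold wt
    rw [h64]
    norm_num
  rw [Finset.sum_congr rfl hw, Finset.sum_const, smul_eq_mul, mul_one] at h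
  rw [hset, Set.ncard_coe_finset]
  exact h

end LeechCross
end Cfsg.Agent.Lib.Helper4
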