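import Cfsg.Agent.Lib.Helper4.GolayM12
import Cfsg.Agent.Lib.Helper4.Rk2

set_option autoImplicit false

namespace Cfsg.Agent.Lib.Helper4
namespace Rk

open Pointwise Golay

/-- Table for the stabiliser of the standard dodecad and its first three points, acting on the
complement. -/
def mV3 : List (ℕ × List ℕ × List ℕ) := [
  (7, [0, 1, 2, 3, 4, 5, 6, 7, 8, 9, 10, 11, 12, 13, 14, 15, 16, 17, 18, 19, 20, 21, 22, 23], [0, 1, 2, 3, 4, 5, 6, 7, 8, 9, 10, 11, 12, 13, 14, 15, 16, 17, 18, 19, 20, 21, 22, 23]),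
  (11, [0, 1, 2, 3, 6, 8, 10, 11, 17, 4, 9, 12, 22, 21, 16, 5, 23, 15, 20, 14, 18, 13, 7, 19], [0, 1, 2, 3, 9, 15, 4, 22, 5, 10, 6, 7, 11, 21, 19, 17, 14, 8, 20, 23, 18, 13, 12, 16]),
  (12, [0, 1, 2, 15, 5, 9, 17, 12, 3, 4, 6, 21, 13, 7, 23, 8, 16, 10, 18, 19, 14, 22, 11, 20], [0, 1, 2, 8, 9, 4, 10, 13, 15, 5, 17, 22, 7, 12, 20, 3, 16, 6, 18, 19, 23, 11, 21, 14]),
  (13, [0, 1, 2, 9, 17, 10, 3, 13, 5, 6, 8, 11, 7, 12, 23, 4, 19, 15, 16, 18, 14, 21, 22, 20], [0, 1, 2, 6, 15, 8, 9, 12, 10, 3, 5, 11, 13, 7, 20, 17, 18, 4, 19, 16, 23, 21, 22, 14]),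
  (14, [0, 1, 2, 8, 6, 9, 15, 14, 5, 3, 4, 16, 20, 23, 13, 10, 21, 17, 11, 22, 12, 18, 19, 7], [0, 1, 2, 9, 10, 8, 4, 23, 3, 5, 15, 18, 20, 14, 7, 6, 11, 17, 21, 22, 12, 16, 19, 13]),
  (16, [0, 1, 2, 6, 17, 9, 4, 16, 15, 8, 10, 14, 18, 19, 11, 5, 12, 3, 7, 13, 21, 23, 20, 22], [0, 1, 2, 17, 6, 15, 3, 18, 9, 5, 10, 14, 16, 19, 11, 8, 7, 4, 12, 13, 22, 20, 23, 21]),
  (18, [0, 1, 2, 9, 4, 3, 15, 18, 17, 10, 5, 20, 19, 16, 11, 8, 13, 6, 12, 7, 21, 14, 23, 22], [0, 1, 2, 5, 4, 10, 17, 19, 15, 3, 9, 14, 18, 16, 21, 6, 13, 8, 7, 12, 11, 20, 23, 22]),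
  (19, [0, 1, 2, 9, 5, 6, 10, 19, 8, 15, 4, 23, 18, 16, 22, 17, 7, 3, 12, 13, 21, 14, 20, 11], [0, 1, 2, 17, 10, 4, 5, 16, 8, 3, 6, 23, 18, 19, 21, 9, 13, 15, 12, 7, 22, 20, 14, 11]),
  (20, [0, 1, 2, 15, 10, 5, 3, 20, 4, 8, 9, 16, 23, 14, 12, 17, 11, 6, 22, 21, 7, 18, 19, 13], [0, 1, 2, 6, 8, 5, 17, 20, 9, 10, 4, 16, 14, 23, 13, 3, 11, 15, 21, 22, 7, 19, 18, 12]),
  (21, [0, 1, 2, 4, 15, 9, 3, 21, 8, 10, 17, 12, 11, 22, 19, 6, 14, 5, 23, 20, 16, 13, 7, 18], [0, 1, 2, 6, 3, 17, 15, 22, 8, 5, 9, 12, 11, 21, 16, 4, 20, 10, 23, 14, 19, 7, 13, 18]),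
  (22, [0, 1, 2, 6, 3, 17, 15, 22, 8, 5, 9, 12, 11, 21, 16, 4, 20, 10, 23, 14, 19, 7, 13, 18], [0, 1, 2, 4, 15, 9, 3, 21, 8, 10, 17, 12, 11, 22, 19, 6, 14, 5, 23, 20, 16, 13, 7, 18]),
  (23, [0, 1, 2, 9, 10, 8, 4, 23, 3, 5, 15, 18, 20, 14, 7, 6, 11, 17, 21, 22, 12, 16, 19, 13], [0, 1, 2, 8, 6, 9, 15, 14, 5, 3, 4, 16, 20, 23, 13, 10, 21, 17, 11, 22, 12, 18, 19, 7])]

theorem mV3_ok : lvlChkD D0 [0, 1, 2] 7 mV3 [7, 11, 12, 13, 14, 16, 18, 19, 20, 21, 22, 23]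
    = true := by decide +kernel

/-- The stabiliser of the standard dodecad and three of its points is transitive on the
complement. -/
theorem std_trans3 (x y : GolayPt) (hx : x ∉ D0s) (hy : y ∉ D0s) :
    ∃ g ∈ M24, g • D0s = D0s ∧ g (pt 0) = pt 0 ∧ g (pt 1) = pt 1 ∧ g (pt 2) = pt 2 ∧ g x = y := by
  have key : ∀ z : GolayPt, z ∉ D0s → ∃ g ∈ M24, (∀ f ∈ [0, 1, 2], g (pt f) = pt f) ∧
      g (pt 7) = z ∧ g • D0s = D0s := by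
    intro z hz
    obtain ⟨g, hg, h1, h2, h3⟩ := lvlD_spec D0 [0, 1, 2] 7 mV3 _ mV3_ok (by norm_num) (by decide)
      (code z) (not_mem_D0s.1 hz)
    rw [pt_code] at h2
    exact ⟨g, hg, h1, h2, h3⟩
  obtain ⟨gx, hgx, fx, ex, dx⟩ := key x hx
  obtain ⟨gy, hgy, fy, ey, dy⟩ := key y hy
  refine ⟨gy * gx⁻¹, M24.mul_mem hgy (M24.inv_mem hgx), ?_, ?_, ?_, ?_, ?_⟩
  · rw [mul_smul, inv_smul_eq_iff.2 dx.symm, dy]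
  · rw [Equiv.Perm.mul_apply, Equiv.Perm.inv_eq_iff_eq.2 (fx 0 (by simp)).symm, fy 0 (by simp)]
  · rw [Equiv.Perm.mul_apply, Equiv.Perm.inv_eq_iff_eq.2 (fx 1 (by simp)).symm, fy 1 (by simp)]
  · rw [Equiv.Perm.mul_apply, Equiv.Perm.inv_eq_iff_eq.2 (fx 2 (by simp)).symm, fy 2 (by simp)]
  · rw [Equiv.Perm.mul_apply, Equiv.Perm.inv_eq_iff_eq.2 ex.symm, ey]

end Rk
end Cfsg.Agent.Lib.Helper4
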