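import Cfsg.Agent.Lib.Helper4.Rk5
import Cfsg.Agent.Lib.Helper4.GolayM12

set_option autoImplicit false

namespace Cfsg.Agent.Lib.Helper4
namespace Rk

open Pointwise Golay

theorem smul_compl (g : Equiv.Perm GolayPt) (s : Finset GolayPt) : g • sᶜ = (g • s)ᶜ := by
  ext x
  rw [← Finset.inv_smul_mem_iff, Finset.mem_compl, Finset.mem_compl, Finset.inv_smul_mem_iff]

theorem support_add_one (v : GolayPt → ZMod 2) : support₂ (v + 1) = (support₂ v)ᶜ := by
  ext p
  simp only [support₂, Finset.mem_filter, Finset.mem_univ, true_and, Finset.mem_compl,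
    Pi.add_apply, Pi.one_apply]
  have : ∀ x : ZMod 2, x + 1 ≠ 0 ↔ ¬ x ≠ 0 := by decide
  exact this _

theorem one_mem_golay : (1 : GolayPt → ZMod 2) ∈ golayCode := by
  rw [one_eq']
  exact gens_mem 23 (by norm_num)

theorem compl_dod {d : Finset GolayPt} (hd : d ∈ dodecads) : dᶜ ∈ dodecads := by
  obtain ⟨⟨v, hv, rfl⟩, h12⟩ := hd
  refine ⟨⟨v + 1, golayCode.add_mem hv one_mem_golay, support_add_one v⟩, ?_⟩
  rw [Finset.card_compl, card_pts, h12]

theorem mask_dod (m : ℕ) (h : red basisP m = 0) (h12 : pc m = 12) :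
    support₂ (word m) ∈ dodecads :=
  ⟨⟨word m, Xi.word_mem_of_red h, rfl⟩, by rw [card_support, hammingNorm_word]; exact h12⟩

/-- The intersection sizes of dodecads with the standard one. -/
def interP (a : ℕ) : Bool :=
  or (not (Nat.beq (pc a) 12))
    (or (Nat.beq (pc (D0 &&& a)) 0) (or (Nat.beq (pc (D0 &&& a)) 4)
      (or (Nat.beq (pc (D0 &&& a)) 6) (or (Nat.beq (pc (D0 &&& a)) 8)
        (Nat.beq (pc (D0 &&& a)) 12)))))

set_option maxRecDepth 100000 in
theorem interP_ok : allComb interP basis 0 = true := by decide +kernel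

/-- Two dodecads meet in 0, 4, 6, 8 or 12 points. -/
theorem dod_inter {d y : Finset GolayPt} (hd : d ∈ dodecads) (hy : y ∈ dodecads) :
    (d ∩ y).card = 0 ∨ (d ∩ y).card = 4 ∨ (d ∩ y).card = 6 ∨ (d ∩ y).card = 8 ∨
      (d ∩ y).card = 12 := by
  obtain ⟨h, hh, e1⟩ := dod_trans hd D0_dod
  obtain ⟨⟨v, hv, e⟩, h12⟩ := smul_mem_weight hh hy
  obtain ⟨a, ha, rfl⟩ := exists_word hv interP interP_ok
  rw [← e, card_support, hammingNorm_word] at h12
  rw [← card_inter_smul h, e1, ← e, card_inter_word]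
  simp only [interP, h12, Bool.or_eq_true, Bool.not_eq_true', Nat.beq_eq] at ha
  rcases ha with ha | ha
  · simp at ha
  · exact ha

/-- Witnesses for chains of dodecads, transported from the standard dodecad. -/
theorem dod_wit (m1 m2 : ℕ) (h1 : red basisP m1 = 0) (h2 : red basisP m2 = 0) (c1 : pc m1 = 12)
    (c2 : pc m2 = 12) {d : Finset GolayPt} (hd : d ∈ dodecads) :
    ∃ d1 ∈ dodecads, ∃ y ∈ dodecads, (d ∩ d1).card = pc (D0 &&& m1) ∧
      (d1 ∩ y).card = pc (m1 &&& m2) ∧ (d ∩ y).card = pc (D0 &&& m2) := by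
  obtain ⟨h, hh, e1⟩ := dod_trans hd D0_dod
  have hi : h⁻¹ ∈ M24 := M24.inv_mem hh
  have ed : d = h⁻¹ • support₂ (word D0) := by rw [← e1, inv_smul_smul]
  refine ⟨h⁻¹ • support₂ (word m1), smul_mem_weight hi (mask_dod m1 h1 c1),
    h⁻¹ • support₂ (word m2), smul_mem_weight hi (mask_dod m2 h2 c2), ?_, ?_, ?_⟩
  · rw [ed, card_inter_smul, card_inter_word]
  · rw [card_inter_smul, card_inter_word]
  · rw [ed, card_inter_smul, card_inter_word]

theorem dod_wit46 {d : Finset GolayPt} (hd : d ∈ dodecads) :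
    ∃ d1 ∈ dodecads, ∃ y ∈ dodecads, (d ∩ d1).card = 4 ∧ (d1 ∩ y).card = 4 ∧
      (d ∩ y).card = 6 :=
  dod_wit 8358088 802710 (by decide +kernel) (by decide +kernel) (by decide +kernel)
    (by decide +kernel) hd

theorem dod_wit86 {d : Finset GolayPt} (hd : d ∈ dodecads) :
    ∃ d1 ∈ dodecads, ∃ y ∈ dodecads, (d ∩ d1).card = 8 ∧ (d1 ∩ y).card = 8 ∧
      (d ∩ y).card = 6 :=
  dod_wit 2887007 3934955 (by decide +kernel) (by decide +kernel) (by decide +kernel)
    (by decide +kernel) hd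

theorem dod_wit64 {d : Finset GolayPt} (hd : d ∈ dodecads) :
    ∃ d1 ∈ dodecads, ∃ y ∈ dodecads, (d ∩ d1).card = 6 ∧ (d1 ∩ y).card = 6 ∧
      (d ∩ y).card = 4 :=
  dod_wit 3934955 7150748 (by decide +kernel) (by decide +kernel) (by decide +kernel)
    (by decide +kernel) hd

theorem eq_of_inter_twelve {d y : Finset GolayPt} (hd : d ∈ dodecads) (hy : y ∈ dodecads)
    (h : (d ∩ y).card = 12) : y = d := by
  have h1 : d ∩ y = d := Finset.eq_of_subset_of_card_le Finset.inter_subset_left (by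
    rw [h, hd.2])
  have h2 : d ⊆ y := by
    rw [← h1]
    exact Finset.inter_subset_right
  exact (Finset.eq_of_subset_of_card_le h2 (by rw [hd.2, hy.2])).symm

theorem eq_compl_of_inter_zero {d y : Finset GolayPt} (hd : d ∈ dodecads) (hy : y ∈ dodecads)
    (h : (d ∩ y).card = 0) : y = dᶜ := by
  have h1 : y ⊆ dᶜ := by
    intro p hp
    rw [Finset.mem_compl]
    intro hpd
    have : p ∈ d ∩ y := Finset.mem_inter.2 ⟨hpd, hp⟩
    rw [Finset.card_eq_zero.1 h] at this
    simp at this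
  exact Finset.eq_of_subset_of_card_le h1 (by rw [Finset.card_compl, card_pts, hd.2, hy.2])

theorem card_inter_compl {d y : Finset GolayPt} (hd : d ∈ dodecads) :
    (d ∩ yᶜ).card + (d ∩ y).card = 12 := by
  have := Finset.card_inter_add_card_sdiff d y
  rw [Finset.sdiff_eq_inter_compl, hd.2] at this
  omega

end Rk
end Cfsg.Agent.Lib.Helper4
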