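import Cfsg.Agent.Lib.Helper4.RkE1
import Cfsg.Agent.Lib.Helper4.RkE2
import Cfsg.Agent.Lib.Helper4.RkE3
import Cfsg.Agent.Lib.Helper4.RkE4

set_option autoImplicit false

namespace Cfsg.Agent.Lib.Helper4
namespace Rk

open Golay

/-- Table of elements of the stabiliser carrying class representatives to the dodecads. -/
def tblE : List (ℕ × List ℕ × List ℕ) := tblE1 ++ (tblE2 ++ (tblE3 ++ tblE4))

theorem tblE_ok : tblE.all (rkChk 165759 [0] repE) = true := by
  rw [tblE, List.all_append, List.all_append, List.all_append, tblE1_ok, tblE2_ok, tblE3_ok,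
    tblE4_ok]
  rfl

set_option maxRecDepth 100000 in
theorem tblE_complete :
    allComb (fun a => or (not (selE a)) (tblE.any (fun e => Nat.beq e.1 a))) basis 0 = true := by
  decide +kernel

end Rk
end Cfsg.Agent.Lib.Helper4
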