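import Cfsg.Agent.Lib.Helper4.Rk4

set_option autoImplicit false

namespace Cfsg.Agent.Lib.Helper4
namespace Rk

open Golay

/-- Class representative by intersection size with the standard dodecad. -/
def repE : ℕ → ℕ := fun k => cond (Nat.beq k 4) 1538225 (cond (Nat.beq k 6) 129431 (cond (Nat.beq k 8) 28637 (165759)))

/-- The selected family of masks: weight twelve, containing the first point. -/
def selE : ℕ → Bool := fun a => and (Nat.beq (pc a) 12) (a.testBit 0)

end Rk
end Cfsg.Agent.Lib.Helper4
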