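import Cfsg.Agent.Lib.Helper4.RkF1
import Cfsg.Agent.Lib.Helper4.RkF2
import Cfsg.Agent.Lib.Helper4.RkF3
import Cfsg.Agent.Lib.Helper4.RkF4
import Cfsg.Agent.Lib.Helper4.RkF5
import Cfsg.Agent.Lib.Helper4.RkF6
import Cfsg.Agent.Lib.Helper4.RkF7
import Cfsg.Agent.Lib.Helper4.RkF8

set_option autoImplicit false

namespace Cfsg.Agent.Lib.Helper4
namespace Rk

open Golay

/-- Bucketed table of elements of the stabiliser of the standard dodecad. -/
def bkF : List (List (ℕ × List ℕ × List ℕ)) :=
  bkF1 ++ (bkF2 ++ (bkF3 ++ (bkF4 ++ (bkF5 ++ (bkF6 ++ (bkF7 ++ bkF8))))))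

/-- Table of elements of the stabiliser of the standard dodecad. -/
def tblF : List (ℕ × List ℕ × List ℕ) := bkF.flatten

theorem tblF_ok : tblF.all (rkChk 165759 [] repF) = true := by
  apply all_flatten'
  rw [bkF, List.all_append, List.all_append, List.all_append, List.all_append, List.all_append,
    List.all_append, List.all_append, bkF1_ok, bkF2_ok, bkF3_ok, bkF4_ok, bkF5_ok, bkF6_ok,
    bkF7_ok, bkF8_ok]
  rfl

set_option maxRecDepth 100000 in
theorem bkF_complete :
    allComb (fun a => or (not (selF a))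
      ((bkF.getD (a % 64) []).any (fun e => Nat.beq e.1 a))) basis 0 = true := by
  decide +kernel

theorem tblF_complete :
    allComb (fun a => or (not (selF a)) (tblF.any (fun e => Nat.beq e.1 a))) basis 0 = true :=
  complete_of_buckets selF bkF 64 bkF_complete

end Rk
end Cfsg.Agent.Lib.Helper4
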