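import Cfsg.Agent.Lib.Helper4.Rk5

set_option autoImplicit false

namespace Cfsg.Agent.Lib.Helper4
namespace Rk

open Golay

/-- Class representative by intersection size with the standard dodecad. -/
def repF : ℕ → ℕ := fun k => cond (Nat.beq k 0) 16611456 (cond (Nat.beq k 4) 916384 (cond (Nat.beq k 6) 129431 (cond (Nat.beq k 8) 28637 (165759))))

/-- The selected family of masks: weight twelve. -/
def selF : ℕ → Bool := fun a => Nat.beq (pc a) 12

end Rk
end Cfsg.Agent.Lib.Helper4
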