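import Mathlib

set_option autoImplicit false
set_option linter.unusedSectionVars false

namespace Cfsg.Agent.Lib.Helper4
namespace Sharp

variable {α : Type*} [Fintype α] [DecidableEq α]

/-- `G` acts sharply `k`-transitively on the invariant set `Ω`. -/
structure IsSharp (G : Subgroup (Equiv.Perm α)) (Ω : Finset α) (k : ℕ) : Prop where
  inv : ∀ g ∈ G, ∀ a ∈ Ω, g a ∈ Ω
  trans : ∀ p q : Fin k → α, Function.Injective p → Function.Injective q → (∀ i, p i ∈ Ω) →
    (∀ i, q i ∈ Ω) → ∃ g ∈ G, ∀ i, g (p i) = q i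
  rigid : ∀ g ∈ G, ∀ p : Fin k → α, Function.Injective p → (∀ i, p i ∈ Ω) →
    (∀ i, g (p i) = p i) → g = 1

theorem IsSharp.eq_of_agree {G : Subgroup (Equiv.Perm α)} {Ω : Finset α} {k : ℕ}
    (h : IsSharp G Ω k) {g g' : Equiv.Perm α} (hg : g ∈ G) (hg' : g' ∈ G) (p : Fin k → α)
    (hp : Function.Injective p) (hpΩ : ∀ i, p i ∈ Ω) (e : ∀ i, g (p i) = g' (p i)) : g = g' := by
  have := h.rigid (g'⁻¹ * g) (G.mul_mem (G.inv_mem hg') hg) p hp hpΩ (fun i => by
    rw [Equiv.Perm.mul_apply, e i]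
    simp)
  exact (inv_mul_eq_one.1 this).symm

theorem isSharp_univ (G : Subgroup (Equiv.Perm α)) (k : ℕ)
    [MulAction.IsMultiplyPretransitive G α k]
    (hsharp : ∀ x : Fin k ↪ α, MulAction.stabilizer G x = ⊥) : IsSharp G Finset.univ k := by
  refine ⟨fun _ _ _ _ => Finset.mem_univ _, ?_, ?_⟩
  · intro p q hp hq _ _
    obtain ⟨g, hg⟩ := (MulAction.isMultiplyPretransitive_iff.1
      (inferInstance : MulAction.IsMultiplyPretransitive G α k)) ⟨p, hp⟩ ⟨q, hq⟩
    refine ⟨g.1, g.2, fun i => ?_⟩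
    have := DFunLike.congr_fun hg i
    exact this
  · intro g hg p hp _ hfix
    have hmem : (⟨g, hg⟩ : G) ∈ MulAction.stabilizer G (⟨p, hp⟩ : Fin k ↪ α) := by
      rw [MulAction.mem_stabilizer_iff]
      apply Function.Embedding.ext
      intro i
      exact hfix i
    rw [hsharp, Subgroup.mem_bot] at hmem
    exact congrArg Subtype.val hmem

theorem IsSharp.stab {G : Subgroup (Equiv.Perm α)} {Ω : Finset α} {k : ℕ}
    (h : IsSharp G Ω (k + 1)) {a : α} (ha : a ∈ Ω) :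
    IsSharp (G ⊓ MulAction.stabilizer (Equiv.Perm α) a) (Ω.erase a) k := by
  have hcons : ∀ p : Fin k → α, Function.Injective p → (∀ i, p i ∈ Ω.erase a) →
      Function.Injective (Fin.cons a p : Fin (k + 1) → α) ∧
        ∀ i, (Fin.cons a p : Fin (k + 1) → α) i ∈ Ω := by
    intro p hp hpΩ
    refine ⟨?_, ?_⟩
    · rw [Fin.cons_injective_iff]
      refine ⟨?_, hp⟩
      rintro ⟨i, hi⟩
      exact (Finset.mem_erase.1 (hpΩ i)).1 hi
    · intro i
      refine Fin.cases ?_ ?_ i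
      · rw [Fin.cons_zero]
        exact ha
      · intro j
        rw [Fin.cons_succ]
        exact Finset.mem_of_mem_erase (hpΩ j)
  refine ⟨?_, ?_, ?_⟩
  · intro g hg b hb
    rw [Subgroup.mem_inf, MulAction.mem_stabilizer_iff] at hg
    rw [Finset.mem_erase] at hb ⊢
    refine ⟨?_, h.inv g hg.1 b hb.2⟩
    intro e
    have hga : g a = a := hg.2
    rw [← hga] at e
    exact hb.1 (g.injective e)
  · intro p q hp hq hpΩ hqΩ
    obtain ⟨hp1, hp2⟩ := hcons p hp hpΩ
    obtain ⟨hq1, hq2⟩ := hcons q hq hqΩ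
    obtain ⟨g, hg, hgq⟩ := h.trans _ _ hp1 hq1 hp2 hq2
    refine ⟨g, Subgroup.mem_inf.2 ⟨hg, ?_⟩, ?_⟩
    · rw [MulAction.mem_stabilizer_iff]
      have := hgq 0
      rw [Fin.cons_zero, Fin.cons_zero] at this
      exact this
    · intro i
      have := hgq i.succ
      rw [Fin.cons_succ, Fin.cons_succ] at this
      exact this
  · intro g hg p hp hpΩ hfix
    rw [Subgroup.mem_inf, MulAction.mem_stabilizer_iff] at hg
    obtain ⟨hp1, hp2⟩ := hcons p hp hpΩ
    apply h.rigid g hg.1 _ hp1 hp2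
    intro i
    refine Fin.cases ?_ ?_ i
    · rw [Fin.cons_zero]
      exact hg.2
    · intro j
      rw [Fin.cons_succ]
      exact hfix j

theorem exists_tuple {S : Finset α} {k : ℕ} (h : k ≤ S.card) :
    ∃ p : Fin k → α, Function.Injective p ∧ ∀ i, p i ∈ S := by
  obtain ⟨t, hts, htc⟩ := Finset.exists_subset_card_eq h
  refine ⟨fun i => ((t.equivFinOfCardEq htc).symm i).1, ?_, fun i => hts ((t.equivFinOfCardEq htc).symm i).2⟩
  intro i j hij
  exact (t.equivFinOfCardEq htc).symm.injective (Subtype.ext hij)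

/-- The elements of `K` commuting with `x`. -/
def Cent (K : Subgroup (Equiv.Perm α)) (x : Equiv.Perm α) : Set (Equiv.Perm α) :=
  {c | c ∈ K ∧ c * x = x * c}

/-- The injective tuples in `Ω` on which `x` acts according to the pattern `π`. -/
def Pat (Ω : Finset α) (x : Equiv.Perm α) {k : ℕ} (π : Fin k → Fin k) : Set (Fin k → α) :=
  {q | Function.Injective q ∧ (∀ i, q i ∈ Ω) ∧ ∀ i, x (q i) = q (π i)}

theorem card_cent {K : Subgroup (Equiv.Perm α)} {Ω : Finset α} {k : ℕ} (h : IsSharp K Ω k)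
    (x : Equiv.Perm α) (hxx : x * x = 1) (hxK : ∀ g ∈ K, x * g * x ∈ K)
    (p : Fin k → α) (hp : Function.Injective p) (hpΩ : ∀ i, p i ∈ Ω) (π : Fin k → Fin k)
    (hπ : ∀ i, x (p i) = p (π i)) : Nat.card (Cent K x) = Nat.card (Pat Ω x π) := by
  apply Nat.card_congr
  refine Equiv.ofBijective (fun c => ⟨fun i => c.1 (p i), ?_⟩) ⟨?_, ?_⟩
  · refine ⟨fun i j hij => hp (c.1.injective hij), fun i => h.inv c.1 c.2.1 _ (hpΩ i),
      fun i => ?_⟩
    have h1 : (x * c.1) (p i) = (c.1 * x) (p i) := by rw [c.2.2]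
    rw [Equiv.Perm.mul_apply, Equiv.Perm.mul_apply, hπ i] at h1
    exact h1
  · intro c c' e
    apply Subtype.ext
    exact h.eq_of_agree c.2.1 c'.2.1 p hp hpΩ (fun i => congrFun (congrArg Subtype.val e) i)
  · rintro ⟨q, hq, hqΩ, hqπ⟩
    obtain ⟨g, hg, hgq⟩ := h.trans p q hp hq hpΩ hqΩ
    have h1 : x * g * x = g := h.eq_of_agree (hxK g hg) hg p hp hpΩ (fun i => by
      rw [Equiv.Perm.mul_apply, Equiv.Perm.mul_apply, hπ i, hgq (π i), ← hqπ i, hgq i]
      show (x * x) (q i) = q i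
      rw [hxx]
      rfl)
    have hc : g * x = x * g := by
      calc g * x = (x * g * x) * x := by rw [h1]
        _ = x * g * (x * x) := by group
        _ = x * g := by rw [hxx, mul_one]
    exact ⟨⟨g, hg, hc⟩, Subtype.ext (funext hgq)⟩

/-- The fixed points of `x` in `Ω`. -/
def Fx (Ω : Finset α) (x : Equiv.Perm α) : Finset α := Ω.filter (fun w => x w = w)

/-- The points of `Ω` moved by `x`. -/
def Mv (Ω : Finset α) (x : Equiv.Perm α) : Finset α := Ω.filter (fun w => x w ≠ w)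

theorem mem_Fx {Ω : Finset α} {x : Equiv.Perm α} {w : α} : w ∈ Fx Ω x ↔ w ∈ Ω ∧ x w = w := by
  rw [Fx, Finset.mem_filter]

theorem mem_Mv {Ω : Finset α} {x : Equiv.Perm α} {w : α} : w ∈ Mv Ω x ↔ w ∈ Ω ∧ x w ≠ w := by
  rw [Mv, Finset.mem_filter]

theorem card_Fx_add_Mv (Ω : Finset α) (x : Equiv.Perm α) :
    (Fx Ω x).card + (Mv Ω x).card = Ω.card :=
  Finset.card_filter_add_card_filter_not _

theorem inv_apply {x : Equiv.Perm α} (hxx : x * x = 1) (w : α) : x (x w) = w := by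
  show (x * x) w = w
  rw [hxx]
  rfl

theorem Mv_map {Ω : Finset α} {x : Equiv.Perm α} (hxx : x * x = 1) (hxΩ : ∀ a ∈ Ω, x a ∈ Ω)
    {w : α} (hw : w ∈ Mv Ω x) : x w ∈ Mv Ω x := by
  rw [mem_Mv] at hw ⊢
  refine ⟨hxΩ w hw.1, ?_⟩
  rw [inv_apply hxx]
  exact Ne.symm hw.2

theorem tuple4_inj (a b c d : α) (hab : a ≠ b) (hac : a ≠ c) (had : a ≠ d) (hbc : b ≠ c)
    (hbd : b ≠ d) (hcd : c ≠ d) : Function.Injective ![a, b, c, d] := by
  rw [← List.nodup_ofFn]
  simp [hab, hac, had, hbc, hbd, hcd]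

theorem cardA (Ω : Finset α) (x : Equiv.Perm α) (hxx : x * x = 1) (hxΩ : ∀ a ∈ Ω, x a ∈ Ω) :
    Nat.card (Pat Ω x ![1, 0, 2, 3]) =
      (Mv Ω x).card * ((Fx Ω x).card * (Fx Ω x).card - (Fx Ω x).card) := by
  rw [← Finset.offDiag_card, ← Finset.card_product, ← Fintype.card_coe,
    ← Nat.card_eq_fintype_card]
  apply Nat.card_congr
  refine
    { toFun := fun q => ⟨(q.1 0, (q.1 2, q.1 3)), ?_⟩
      invFun := fun t => ⟨![t.1.1, x t.1.1, t.1.2.1, t.1.2.2], ?_⟩
      left_inv := ?_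
      right_inv := ?_ }
  · obtain ⟨q, hq, hqΩ, hqπ⟩ := q
    rw [Finset.mem_product, Finset.mem_offDiag, mem_Mv, mem_Fx, mem_Fx]
    have h0 := hqπ 0
    have h2 := hqπ 2
    have h3 := hqπ 3
    refine ⟨⟨hqΩ 0, ?_⟩, ⟨hqΩ 2, h2⟩, ⟨hqΩ 3, h3⟩, ?_⟩
    · show x (q 0) ≠ q 0
      rw [h0]
      intro e
      exact absurd (hq e) (by decide)
    · intro e
      exact absurd (hq e) (by decide)
  · obtain ⟨⟨u, v, w⟩, ht⟩ := t
    rw [Finset.mem_product, Finset.mem_offDiag, mem_Mv, mem_Fx, mem_Fx] at ht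
    obtain ⟨⟨hu, hxu⟩, ⟨hv, hxv⟩, ⟨hw, hxw⟩, hvw⟩ := ht
    dsimp only at hu hxu hv hxv hw hxw hvw ⊢
    refine ⟨?_, ?_, ?_⟩
    · apply tuple4_inj _ _ _ _ (Ne.symm hxu)
      · rintro rfl
        exact hxu hxv
      · rintro rfl
        exact hxu hxw
      · intro e
        apply hxu
        have := hxv
        rw [← e, inv_apply hxx] at this
        exact this.symm
      · intro e
        apply hxu
        have := hxw
        rw [← e, inv_apply hxx] at this
        exact this.symm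
      · exact hvw
    · intro i
      fin_cases i
      · exact hu
      · exact hxΩ u hu
      · exact hv
      · exact hw
    · intro i
      fin_cases i
      · rfl
      · exact inv_apply hxx u
      · exact hxv
      · exact hxw
  · rintro ⟨q, hq, hqΩ, hqπ⟩
    apply Subtype.ext
    funext i
    fin_cases i
    · rfl
    · exact hqπ 0
    · rfl
    · rfl
  · rintro ⟨⟨u, v, w⟩, ht⟩
    rfl

theorem cardB (Ω : Finset α) (x : Equiv.Perm α) (hxx : x * x = 1) (hxΩ : ∀ a ∈ Ω, x a ∈ Ω) :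
    Nat.card (Pat Ω x ![1, 0, 3, 2]) = (Mv Ω x).card * ((Mv Ω x).card - 2) := by
  have hcard : ((Mv Ω x).sigma (fun u => ((Mv Ω x).erase u).erase (x u))).card
      = (Mv Ω x).card * ((Mv Ω x).card - 2) := by
    rw [Finset.card_sigma]
    have : ∀ u ∈ Mv Ω x, (((Mv Ω x).erase u).erase (x u)).card = (Mv Ω x).card - 2 := by
      intro u hu
      have h1 : x u ∈ (Mv Ω x).erase u :=
        Finset.mem_erase.2 ⟨(mem_Mv.1 hu).2, Mv_map hxx hxΩ hu⟩
      rw [Finset.card_erase_of_mem h1, Finset.card_erase_of_mem hu]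
      omega
    rw [Finset.sum_congr rfl this, Finset.sum_const, smul_eq_mul]
  rw [← hcard, ← Fintype.card_coe, ← Nat.card_eq_fintype_card]
  apply Nat.card_congr
  refine
    { toFun := fun q => ⟨⟨q.1 0, q.1 2⟩, ?_⟩
      invFun := fun t => ⟨![t.1.1, x t.1.1, t.1.2, x t.1.2], ?_⟩
      left_inv := ?_
      right_inv := ?_ }
  · obtain ⟨q, hq, hqΩ, hqπ⟩ := q
    rw [Finset.mem_sigma, Finset.mem_erase, Finset.mem_erase, mem_Mv, mem_Mv]
    have h0 := hqπ 0
    have h2 := hqπ 2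
    refine ⟨⟨hqΩ 0, ?_⟩, ?_, ?_, hqΩ 2, ?_⟩
    · show x (q 0) ≠ q 0
      rw [h0]
      intro e
      exact absurd (hq e) (by decide)
    · show q 2 ≠ x (q 0)
      rw [h0]
      intro e
      exact absurd (hq e) (by decide)
    · intro e
      exact absurd (hq e) (by decide)
    · show x (q 2) ≠ q 2
      rw [h2]
      intro e
      exact absurd (hq e) (by decide)
  · obtain ⟨⟨u, w⟩, ht⟩ := t
    rw [Finset.mem_sigma, Finset.mem_erase, Finset.mem_erase, mem_Mv, mem_Mv] at ht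
    obtain ⟨⟨hu, hxu⟩, hwxu, hwu, hw, hxw⟩ := ht
    dsimp only at hu hxu hwxu hwu hw hxw ⊢
    refine ⟨?_, ?_, ?_⟩
    · apply tuple4_inj _ _ _ _ (Ne.symm hxu) (Ne.symm hwu)
      · intro e
        apply hwxu
        rw [e, inv_apply hxx]
      · exact Ne.symm hwxu
      · intro e
        exact hwu (x.injective e).symm
      · exact Ne.symm hxw
    · intro i
      fin_cases i
      · exact hu
      · exact hxΩ u hu
      · exact hw
      · exact hxΩ w hw
    · intro i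
      fin_cases i
      · rfl
      · exact inv_apply hxx u
      · rfl
      · exact inv_apply hxx w
  · rintro ⟨q, hq, hqΩ, hqπ⟩
    apply Subtype.ext
    funext i
    fin_cases i
    · rfl
    · exact hqπ 0
    · rfl
    · exact hqπ 2
  · rintro ⟨⟨u, w⟩, ht⟩
    rfl

/-- The counting identity behind the theorem on sharply four-fold transitive groups. -/
theorem jordan_eq {K : Subgroup (Equiv.Perm α)} {Ω : Finset α} (h : IsSharp K Ω 4)
    (x : Equiv.Perm α) (hxx : x * x = 1) (hxK : ∀ g ∈ K, x * g * x ∈ K)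
    (hxΩ : ∀ a ∈ Ω, x a ∈ Ω) (hF : 2 ≤ (Fx Ω x).card) (hM : 4 ≤ (Mv Ω x).card) :
    (Mv Ω x).card = (Fx Ω x).card * ((Fx Ω x).card - 1) + 2 := by
  obtain ⟨a1, ha1⟩ := Finset.card_pos.1 (by omega : 0 < (Mv Ω x).card)
  have ha2 := Mv_map hxx hxΩ ha1
  obtain ⟨a3, ha3, a4, ha4, h34⟩ := Finset.one_lt_card.1 (by omega : 1 < (Fx Ω x).card)
  have hc5 : 0 < (((Mv Ω x).erase a1).erase (x a1)).card := by
    rw [Finset.card_erase_of_mem (Finset.mem_erase.2 ⟨(mem_Mv.1 ha1).2, ha2⟩),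
      Finset.card_erase_of_mem ha1]
    omega
  obtain ⟨a5, ha5⟩ := Finset.card_pos.1 hc5
  rw [Finset.mem_erase, Finset.mem_erase] at ha5
  obtain ⟨h52, h51, ha5⟩ := ha5
  have ha6 := Mv_map hxx hxΩ ha5
  have m1 := mem_Mv.1 ha1
  have m3 := mem_Fx.1 ha3
  have m4 := mem_Fx.1 ha4
  have m5 := mem_Mv.1 ha5
  have hA := card_cent h x hxx hxK ![a1, x a1, a3, a4]
    (by
      apply tuple4_inj _ _ _ _ (Ne.symm m1.2)
      · rintro rfl
        exact m1.2 m3.2
      · rintro rfl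
        exact m1.2 m4.2
      · intro e
        apply m1.2
        have := m3.2
        rw [← e, inv_apply hxx] at this
        exact this.symm
      · intro e
        apply m1.2
        have := m4.2
        rw [← e, inv_apply hxx] at this
        exact this.symm
      · exact h34)
    (by
      intro i
      fin_cases i
      · exact m1.1
      · exact hxΩ a1 m1.1
      · exact m3.1
      · exact m4.1)
    ![1, 0, 2, 3]
    (by
      intro i
      fin_cases i
      · rfl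
      · exact inv_apply hxx a1
      · exact m3.2
      · exact m4.2)
  have hB := card_cent h x hxx hxK ![a1, x a1, a5, x a5]
    (by
      apply tuple4_inj _ _ _ _ (Ne.symm m1.2) (Ne.symm h51)
      · intro e
        apply h52
        rw [e, inv_apply hxx]
      · exact Ne.symm h52
      · intro e
        exact h51 (x.injective e).symm
      · exact Ne.symm m5.2)
    (by
      intro i
      fin_cases i
      · exact m1.1
      · exact hxΩ a1 m1.1
      · exact m5.1
      · exact hxΩ a5 m5.1)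
    ![1, 0, 3, 2]
    (by
      intro i
      fin_cases i
      · rfl
      · exact inv_apply hxx a1
      · rfl
      · exact inv_apply hxx a5)
  rw [cardA Ω x hxx hxΩ] at hA
  rw [cardB Ω x hxx hxΩ, hA] at hB
  have h3 := Nat.eq_of_mul_eq_mul_left (by omega : 0 < (Mv Ω x).card) hB
  have h4 : (Fx Ω x).card * (Fx Ω x).card - (Fx Ω x).card
      = (Fx Ω x).card * ((Fx Ω x).card - 1) := by
    rw [Nat.mul_sub, mul_one]
  rw [h4] at h3
  omega

/-- The involution swapping the first two points of a tuple and fixing the others. -/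
theorem exists_swap {G : Subgroup (Equiv.Perm α)} {Ω : Finset α} {k : ℕ} (h : IsSharp G Ω (k + 2))
    (p : Fin (k + 2) → α) (hp : Function.Injective p) (hpΩ : ∀ i, p i ∈ Ω) :
    ∃ x ∈ G, x * x = 1 ∧ x (p 0) = p 1 ∧ x (p 1) = p 0 ∧ ∀ i, i ≠ 0 → i ≠ 1 → x (p i) = p i := by
  obtain ⟨x, hx, hxq⟩ := h.trans p (p ∘ Equiv.swap 0 1) hp (hp.comp (Equiv.injective _)) hpΩ
    (fun i => hpΩ _)
  have x0 : x (p 0) = p 1 := by
    have := hxq 0
    rwa [Function.comp_apply, Equiv.swap_apply_left] at this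
  have x1 : x (p 1) = p 0 := by
    have := hxq 1
    rwa [Function.comp_apply, Equiv.swap_apply_right] at this
  have xi : ∀ i : Fin (k + 2), i ≠ 0 → i ≠ 1 → x (p i) = p i := by
    intro i h0 h1
    have := hxq i
    rwa [Function.comp_apply, Equiv.swap_apply_of_ne_of_ne h0 h1] at this
  refine ⟨x, hx, ?_, x0, x1, xi⟩
  apply h.rigid _ (G.mul_mem hx hx) p hp hpΩ
  intro i
  rw [Equiv.Perm.mul_apply]
  by_cases h0 : i = 0
  · rw [h0, x0, x1]
  · by_cases h1 : i = 1
    · rw [h1, x1, x0]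
    · rw [xi i h0 h1, xi i h0 h1]

/-- A sharply four-fold transitive group has degree 4, 5, 6 or 11. -/
theorem jordan4 {G : Subgroup (Equiv.Perm α)} {Ω : Finset α} (h : IsSharp G Ω 4)
    (h4 : 4 ≤ Ω.card) : Ω.card = 4 ∨ Ω.card = 5 ∨ Ω.card = 6 ∨ Ω.card = 11 := by
  obtain ⟨p, hp, hpΩ⟩ := exists_tuple h4
  obtain ⟨x, hx, hxx, x0, x1, xi⟩ := exists_swap (k := 2) h p hp hpΩ
  have hxK : ∀ g ∈ G, x * g * x ∈ G := fun g hg => G.mul_mem (G.mul_mem hx hg) hx
  have hxΩ : ∀ a ∈ Ω, x a ∈ Ω := h.inv x hx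
  have hF2 : 2 ≤ (Fx Ω x).card := by
    have : 1 < (Fx Ω x).card := Finset.one_lt_card.2
      ⟨p 2, mem_Fx.2 ⟨hpΩ 2, xi 2 (by decide) (by decide)⟩, p 3,
        mem_Fx.2 ⟨hpΩ 3, xi 3 (by decide) (by decide)⟩, hp.ne (by decide)⟩
    omega
  have hF3 : (Fx Ω x).card ≤ 3 := by
    by_contra hcon
    obtain ⟨r, hr, hrF⟩ := exists_tuple (S := Fx Ω x) (k := 4) (by omega)
    have hone := h.rigid x hx r hr (fun i => (mem_Fx.1 (hrF i)).1) (fun i => (mem_Fx.1 (hrF i)).2)
    rw [hone] at x0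
    exact hp.ne (by decide : (0 : Fin 4) ≠ 1) x0
  have hM2 : 2 ≤ (Mv Ω x).card := by
    have : 1 < (Mv Ω x).card := Finset.one_lt_card.2
      ⟨p 0, mem_Mv.2 ⟨hpΩ 0, by rw [x0]; exact hp.ne (by decide)⟩, p 1,
        mem_Mv.2 ⟨hpΩ 1, by rw [x1]; exact hp.ne (by decide)⟩, hp.ne (by decide)⟩
    omega
  have hsum := card_Fx_add_Mv Ω x
  by_cases hM4 : 4 ≤ (Mv Ω x).card
  · have hj := jordan_eq h x hxx hxK hxΩ hF2 hM4
    have hF : (Fx Ω x).card = 2 ∨ (Fx Ω x).card = 3 := by omega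
    rcases hF with hF | hF
    · rw [hF] at hj
      omega
    · rw [hF] at hj
      omega
  · omega

theorem jordan_ge (k : ℕ) : ∀ (G : Subgroup (Equiv.Perm α)) (Ω : Finset α),
    IsSharp G Ω (4 + k) → 4 + k ≤ Ω.card →
    Ω.card = 4 + k ∨ Ω.card = 5 + k ∨ Ω.card = 6 + k ∨ Ω.card = 11 + k := by
  induction k with
  | zero =>
    intro G Ω h h4
    exact jordan4 h h4
  | succ k ih =>
    intro G Ω h h4
    obtain ⟨a, ha⟩ := Finset.card_pos.1 (by omega : 0 < Ω.card)
    have h' : IsSharp (G ⊓ MulAction.stabilizer (Equiv.Perm α) a) (Ω.erase a) (4 + k) :=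
      IsSharp.stab (k := 4 + k) h ha
    have hc := Finset.card_erase_of_mem ha
    have := ih _ _ h' (by omega)
    omega

/-- There is no sharply six-fold transitive group of degree 13. -/
theorem no13 {G : Subgroup (Equiv.Perm α)} {Ω : Finset α} (h : IsSharp G Ω 6) : Ω.card ≠ 13 := by
  intro h13
  obtain ⟨p, hp, hpΩ⟩ := exists_tuple (S := Ω) (k := 6) (by omega)
  obtain ⟨x, hx, hxx, x0, x1, xi⟩ := exists_swap (k := 4) h p hp hpΩ
  have hK1 := IsSharp.stab (k := 5) h (hpΩ 0)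
  have h1mem : p 1 ∈ Ω.erase (p 0) := Finset.mem_erase.2 ⟨hp.ne (by decide), hpΩ 1⟩
  have hK := IsSharp.stab (k := 4) hK1 h1mem
  have hxK : ∀ g ∈ G ⊓ MulAction.stabilizer (Equiv.Perm α) (p 0) ⊓
      MulAction.stabilizer (Equiv.Perm α) (p 1),
      x * g * x ∈ G ⊓ MulAction.stabilizer (Equiv.Perm α) (p 0) ⊓
        MulAction.stabilizer (Equiv.Perm α) (p 1) := by
    intro g hg
    rw [Subgroup.mem_inf, Subgroup.mem_inf, MulAction.mem_stabilizer_iff,
      MulAction.mem_stabilizer_iff] at hg ⊢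
    obtain ⟨⟨hgG, hg0⟩, hg1⟩ := hg
    have hg0' : g (p 0) = p 0 := hg0
    have hg1' : g (p 1) = p 1 := hg1
    refine ⟨⟨G.mul_mem (G.mul_mem hx hgG) hx, ?_⟩, ?_⟩
    · show (x * g * x) (p 0) = p 0
      rw [Equiv.Perm.mul_apply, Equiv.Perm.mul_apply, x0, hg1', x1]
    · show (x * g * x) (p 1) = p 1
      rw [Equiv.Perm.mul_apply, Equiv.Perm.mul_apply, x1, hg0', x0]
  have hxΩ : ∀ a ∈ (Ω.erase (p 0)).erase (p 1), x a ∈ (Ω.erase (p 0)).erase (p 1) := by
    intro a ha
    rw [Finset.mem_erase, Finset.mem_erase] at ha ⊢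
    refine ⟨?_, ?_, h.inv x hx a ha.2.2⟩
    · intro e
      apply ha.2.1
      have := inv_apply hxx a
      rw [e, x1] at this
      exact this.symm
    · intro e
      apply ha.1
      have := inv_apply hxx a
      rw [e, x0] at this
      exact this.symm
  have hmemF : ∀ i : Fin 6, i ≠ 0 → i ≠ 1 → p i ∈ Fx ((Ω.erase (p 0)).erase (p 1)) x := by
    intro i h0 h1
    rw [mem_Fx, Finset.mem_erase, Finset.mem_erase]
    exact ⟨⟨hp.ne h1, hp.ne h0, hpΩ i⟩, xi i h0 h1⟩
  have hF4 : 4 ≤ (Fx ((Ω.erase (p 0)).erase (p 1)) x).card := by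
    have hsub : (Finset.univ.filter (fun i : Fin 6 => i ≠ 0 ∧ i ≠ 1)).image p ⊆
        Fx ((Ω.erase (p 0)).erase (p 1)) x := by
      intro a ha
      rw [Finset.mem_image] at ha
      obtain ⟨i, hi, rfl⟩ := ha
      rw [Finset.mem_filter] at hi
      exact hmemF i hi.2.1 hi.2.2
    have hc := Finset.card_le_card hsub
    rw [Finset.card_image_of_injective _ hp] at hc
    have : (Finset.univ.filter (fun i : Fin 6 => i ≠ 0 ∧ i ≠ 1)).card = 4 := by decide
    omega
  have hF5 : (Fx ((Ω.erase (p 0)).erase (p 1)) x).card ≤ 5 := by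
    by_contra hcon
    obtain ⟨r, hr, hrF⟩ := exists_tuple (S := Fx ((Ω.erase (p 0)).erase (p 1)) x) (k := 6)
      (by omega)
    have hone := h.rigid x hx r hr (fun i => by
      have := (mem_Fx.1 (hrF i)).1
      exact Finset.mem_of_mem_erase (Finset.mem_of_mem_erase this))
      (fun i => (mem_Fx.1 (hrF i)).2)
    rw [hone] at x0
    exact hp.ne (by decide : (0 : Fin 6) ≠ 1) x0
  have hsum := card_Fx_add_Mv ((Ω.erase (p 0)).erase (p 1)) x
  have hcΩ2 : ((Ω.erase (p 0)).erase (p 1)).card = 11 := by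
    rw [Finset.card_erase_of_mem h1mem, Finset.card_erase_of_mem (hpΩ 0)]
    omega
  have hM4 : 4 ≤ (Mv ((Ω.erase (p 0)).erase (p 1)) x).card := by omega
  have hj := jordan_eq hK x hxx hxK hxΩ (by omega) hM4
  have hF : (Fx ((Ω.erase (p 0)).erase (p 1)) x).card = 4 ∨
      (Fx ((Ω.erase (p 0)).erase (p 1)) x).card = 5 := by omega
  rcases hF with hF | hF
  · rw [hF] at hj
    omega
  · rw [hF] at hj
    omega

theorem no_ge (k : ℕ) : ∀ (G : Subgroup (Equiv.Perm α)) (Ω : Finset α),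
    IsSharp G Ω (6 + k) → Ω.card ≠ 13 + k := by
  induction k with
  | zero =>
    intro G Ω h
    exact no13 h
  | succ k ih =>
    intro G Ω h hc
    obtain ⟨a, ha⟩ := Finset.card_pos.1 (by omega : 0 < Ω.card)
    exact ih _ _ (IsSharp.stab (k := 6 + k) h ha) (by
      rw [Finset.card_erase_of_mem ha]
      omega)

end Sharp
end Cfsg.Agent.Lib.Helper4
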