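import Cfsg.Agent.Lib.Helper4.Sharp
import Cfsg.Agent.Lib.Helper4.SimpleCrit

set_option autoImplicit false
set_option linter.unusedSectionVars false

namespace Cfsg.Agent.Lib.Helper4
namespace Sharp

variable {α : Type*} [Fintype α] [DecidableEq α]

theorem exists_extend {Ω : Finset α} {j m : ℕ} (hk : j + m ≤ Ω.card) (p : Fin j → α)
    (hp : Function.Injective p) (hpΩ : ∀ i, p i ∈ Ω) :
    ∃ p' : Fin (j + m) → α, Function.Injective p' ∧ (∀ i, p' i ∈ Ω) ∧
      ∀ i : Fin j, p' (Fin.castAdd m i) = p i := by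
  have hc : m ≤ (Ω \ Finset.image p Finset.univ).card := by
    have h1 : (Finset.image p Finset.univ).card = j := by
      rw [Finset.card_image_of_injective _ hp, Finset.card_univ, Fintype.card_fin]
    have h2 := Finset.le_card_sdiff (Finset.image p Finset.univ) Ω
    omega
  obtain ⟨r, hr, hrΩ⟩ := exists_tuple hc
  refine ⟨Fin.append p r, ?_, ?_, fun i => Fin.append_left p r i⟩
  · intro x y hxy
    induction x using Fin.addCases with
    | left x =>
      induction y using Fin.addCases with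
      | left y =>
        rw [Fin.append_left, Fin.append_left] at hxy
        rw [hp hxy]
      | right y =>
        rw [Fin.append_left, Fin.append_right] at hxy
        exfalso
        have := (Finset.mem_sdiff.1 (hrΩ y)).2
        exact this (Finset.mem_image.2 ⟨x, Finset.mem_univ _, hxy⟩)
    | right x =>
      induction y using Fin.addCases with
      | left y =>
        rw [Fin.append_right, Fin.append_left] at hxy
        exfalso
        have := (Finset.mem_sdiff.1 (hrΩ x)).2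
        exact this (Finset.mem_image.2 ⟨y, Finset.mem_univ _, hxy.symm⟩)
      | right y =>
        rw [Fin.append_right, Fin.append_right] at hxy
        rw [hr hxy]
  · intro i
    induction i using Fin.addCases with
    | left i =>
      rw [Fin.append_left]
      exact hpΩ i
    | right i =>
      rw [Fin.append_right]
      exact (Finset.mem_sdiff.1 (hrΩ i)).1

theorem IsSharp.trans_le {G : Subgroup (Equiv.Perm α)} {Ω : Finset α} {k : ℕ}
    (h : IsSharp G Ω k) (hk : k ≤ Ω.card) {j : ℕ} (hj : j ≤ k) (p q : Fin j → α)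
    (hp : Function.Injective p) (hq : Function.Injective q) (hpΩ : ∀ i, p i ∈ Ω)
    (hqΩ : ∀ i, q i ∈ Ω) : ∃ g ∈ G, ∀ i, g (p i) = q i := by
  obtain ⟨m, rfl⟩ := Nat.exists_eq_add_of_le hj
  obtain ⟨p', hp', hp'Ω, ep⟩ := exists_extend hk p hp hpΩ
  obtain ⟨q', hq', hq'Ω, eq⟩ := exists_extend hk q hq hqΩ
  obtain ⟨g, hg, e⟩ := h.trans p' q' hp' hq' hp'Ω hq'Ω
  refine ⟨g, hg, fun i => ?_⟩
  rw [← ep i, e, eq i]

theorem IsSharp.faithful {G : Subgroup (Equiv.Perm α)} {Ω : Finset α} {k : ℕ}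
    (h : IsSharp G Ω k) (hk : k ≤ Ω.card) :
    ∀ g ∈ G, (∀ q ∈ (Ω : Set α), g q = q) → g = 1 := by
  intro g hg hfix
  obtain ⟨p, hp, hpΩ⟩ := exists_tuple hk
  exact h.rigid g hg p hp hpΩ (fun i => hfix _ (Finset.mem_coe.2 (hpΩ i)))

theorem IsSharp.one {G : Subgroup (Equiv.Perm α)} {Ω : Finset α} {k : ℕ}
    (h : IsSharp G Ω k) (hk : k ≤ Ω.card) (h1 : 1 ≤ k) :
    ∀ b ∈ Ω, ∀ c ∈ Ω, ∃ g ∈ G, g b = c := by
  intro b hb c hc
  obtain ⟨g, hg, e⟩ := h.trans_le hk h1 ![b] ![c]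
    (fun i j _ => Subsingleton.elim i j) (fun i j _ => Subsingleton.elim i j)
    (fun i => by fin_cases i; exact hb) (fun i => by fin_cases i; exact hc)
  exact ⟨g, hg, e 0⟩

theorem IsSharp.two {G : Subgroup (Equiv.Perm α)} {Ω : Finset α} {k : ℕ}
    (h : IsSharp G Ω k) (hk : k ≤ Ω.card) (h2 : 2 ≤ k) :
    ∀ b ∈ (Ω : Set α), ∀ b' ∈ (Ω : Set α), ∀ c ∈ (Ω : Set α), ∀ c' ∈ (Ω : Set α),
      b ≠ b' → c ≠ c' → ∃ g ∈ G, g b = c ∧ g b' = c' := by
  intro b hb b' hb' c hc c' hc' hbb hcc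
  obtain ⟨g, hg, e⟩ := h.trans_le hk h2 ![b, b'] ![c, c']
    (fun i j hij => by fin_cases i <;> fin_cases j <;> simp_all)
    (fun i j hij => by fin_cases i <;> fin_cases j <;> simp_all)
    (fun i => by fin_cases i <;> simp_all) (fun i => by fin_cases i <;> simp_all)
  exact ⟨g, hg, e 0, e 1⟩

theorem IsSharp.three {G : Subgroup (Equiv.Perm α)} {Ω : Finset α} {k : ℕ}
    (h : IsSharp G Ω k) (hk : k ≤ Ω.card) (h3 : 3 ≤ k) :
    ∀ b1 ∈ (Ω : Set α), ∀ b2 ∈ (Ω : Set α), ∀ b3 ∈ (Ω : Set α), ∀ c1 ∈ (Ω : Set α),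
      ∀ c2 ∈ (Ω : Set α), ∀ c3 ∈ (Ω : Set α), b1 ≠ b2 → b1 ≠ b3 →
      b2 ≠ b3 → c1 ≠ c2 → c1 ≠ c3 → c2 ≠ c3 → ∃ g ∈ G, g b1 = c1 ∧ g b2 = c2 ∧ g b3 = c3 := by
  intro b1 hb1 b2 hb2 b3 hb3 c1 hc1 c2 hc2 c3 hc3 hb12 hb13 hb23 hc12 hc13 hc23
  obtain ⟨g, hg, e⟩ := h.trans_le hk h3 ![b1, b2, b3] ![c1, c2, c3]
    (fun i j hij => by fin_cases i <;> fin_cases j <;> simp_all)
    (fun i j hij => by fin_cases i <;> fin_cases j <;> simp_all)
    (fun i => by fin_cases i <;> simp_all) (fun i => by fin_cases i <;> simp_all)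
  exact ⟨g, hg, e 0, e 1, e 2⟩

/-- The stabiliser of a point in a subgroup, as a subgroup of the ambient group. -/
def stabEquiv' (H : Subgroup (Equiv.Perm α)) (p : α) :
    MulAction.stabilizer H p ≃ ↥(H ⊓ MulAction.stabilizer (Equiv.Perm α) p) where
  toFun x := ⟨x.1.1, x.1.2, x.2⟩
  invFun y := ⟨⟨y.1, y.2.1⟩, y.2.2⟩
  left_inv _ := rfl
  right_inv _ := rfl

theorem card_eq_orbit_mul' (H : Subgroup (Equiv.Perm α)) (p : α) :
    Nat.card H = (MulAction.orbit H p).ncard *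
      Nat.card ↥(H ⊓ MulAction.stabilizer (Equiv.Perm α) p) := by
  rw [Subgroup.card_eq_card_quotient_mul_card_subgroup (MulAction.stabilizer H p),
    ← Nat.card_congr (MulAction.orbitEquivQuotientStabilizer H p), Nat.card_coe_set_eq,
    Nat.card_congr (stabEquiv' H p)]

theorem IsSharp.card {k : ℕ} : ∀ {G : Subgroup (Equiv.Perm α)} {Ω : Finset α},
    IsSharp G Ω k → k ≤ Ω.card → Nat.card ↥G = Ω.card.descFactorial k := by
  induction k with
  | zero =>
    intro G Ω h _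
    have : G = ⊥ := by
      rw [Subgroup.eq_bot_iff_forall]
      intro g hg
      exact h.rigid g hg Fin.elim0 (fun i => i.elim0) (fun i => i.elim0) (fun i => i.elim0)
    rw [this, Nat.descFactorial_zero]
    exact Subgroup.card_bot
  | succ k ih =>
    intro G Ω h hk
    obtain ⟨a, ha⟩ : Ω.Nonempty := Finset.card_pos.1 (by omega)
    have horb : MulAction.orbit G a = (Ω : Set α) := by
      ext b
      constructor
      · rintro ⟨g, rfl⟩
        exact Finset.mem_coe.2 (h.inv g.1 g.2 a ha)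
      · intro hb
        obtain ⟨g, hg, e⟩ := h.one hk (by omega) a ha b (Finset.mem_coe.1 hb)
        exact ⟨⟨g, hg⟩, e⟩
    have h1 := card_eq_orbit_mul' G a
    rw [horb, Set.ncard_coe_finset, ih (h.stab ha) (by rw [Finset.card_erase_of_mem ha]; omega),
      Finset.card_erase_of_mem ha] at h1
    rw [h1]
    obtain ⟨n, hn⟩ : ∃ n, Ω.card = n + 1 := ⟨Ω.card - 1, by omega⟩
    rw [hn, Nat.succ_descFactorial_succ]
    simp

theorem pow_card_of_mem {A : Type*} [Group A] {H : Subgroup A} {x : A} (hx : x ∈ H) :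
    x ^ Nat.card H = 1 := by
  have := pow_card_eq_one' (G := ↥H) (x := ⟨x, hx⟩)
  exact congrArg Subtype.val this

/-- A transitive subgroup normalised by a triply transitive group on a set whose size has an odd
prime factor is not regular. -/
theorem no_regular {G N : Subgroup (Equiv.Perm α)} (Ω : Set α) (a : α) (ha : a ∈ Ω)
    (hNG : N ≤ G) (hnorm : ∀ g ∈ G, ∀ n ∈ N, g * n * g⁻¹ ∈ N)
    (hinv : ∀ g ∈ G, ∀ q ∈ Ω, g q ∈ Ω)
    (htr : ∀ c ∈ Ω, ∀ c' ∈ Ω, ∃ n ∈ N, n c = c')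
    (h3 : ∀ b1 ∈ Ω, ∀ b2 ∈ Ω, ∀ b3 ∈ Ω, ∀ c1 ∈ Ω, ∀ c2 ∈ Ω, ∀ c3 ∈ Ω, b1 ≠ b2 → b1 ≠ b3 →
      b2 ≠ b3 → c1 ≠ c2 → c1 ≠ c3 → c2 ≠ c3 → ∃ g ∈ G, g b1 = c1 ∧ g b2 = c2 ∧ g b3 = c3)
    (p : ℕ) (hp : p.Prime) (hp2 : p ≠ 2) (hpd : p ∣ Ω.ncard) (h4 : 4 ≤ Ω.ncard) :
    N ⊓ (G ⊓ MulAction.stabilizer (Equiv.Perm α) a) ≠ ⊥ := by
  classical
  intro hK
  have hinj : ∀ n1 ∈ N, ∀ n2 ∈ N, n1 a = n2 a → n1 = n2 := by
    intro n1 h1 n2 h2 e
    have hmem : n1⁻¹ * n2 ∈ N ⊓ (G ⊓ MulAction.stabilizer (Equiv.Perm α) a) := by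
      refine Subgroup.mem_inf.2 ⟨N.mul_mem (N.inv_mem h1) h2,
        Subgroup.mem_inf.2 ⟨G.mul_mem (G.inv_mem (hNG h1)) (hNG h2), ?_⟩⟩
      rw [MulAction.mem_stabilizer_iff]
      show (n1⁻¹ * n2) a = a
      rw [Equiv.Perm.mul_apply, ← e]
      simp
    rw [hK, Subgroup.mem_bot, inv_mul_eq_one] at hmem
    exact hmem
  have hcard : Nat.card ↥N = Ω.ncard := by
    rw [← Nat.card_coe_set_eq]
    apply Nat.card_congr
    refine Equiv.ofBijective (fun n : ↥N => (⟨n.1 a, hinv n.1 (hNG n.2) a ha⟩ : ↥Ω)) ⟨?_, ?_⟩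
    · intro n1 n2 e
      exact Subtype.ext (hinj n1.1 n1.2 n2.1 n2.2 (congrArg Subtype.val e))
    · rintro ⟨c, hc⟩
      obtain ⟨n, hn, e⟩ := htr a ha c hc
      exact ⟨⟨n, hn⟩, Subtype.ext e⟩
  have : Fact p.Prime := ⟨hp⟩
  obtain ⟨x, hx⟩ := exists_prime_orderOf_dvd_card' (G := ↥N) p (by rw [hcard]; exact hpd)
  have hx' : orderOf (x : Equiv.Perm α) = p := by rw [Subgroup.orderOf_coe]; exact hx
  have hp3 : 3 ≤ p := by
    have := hp.two_le
    omega
  have hx1 : (x : Equiv.Perm α) ≠ 1 := by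
    intro h
    rw [h, orderOf_one] at hx'
    omega
  have hx2 : (x : Equiv.Perm α) ^ 2 ≠ 1 := by
    intro h
    have := orderOf_dvd_of_pow_eq_one h
    rw [hx'] at this
    have := Nat.le_of_dvd (by norm_num) this
    omega
  have hx3 : (x : Equiv.Perm α) ^ 2 ≠ (x : Equiv.Perm α) := by
    intro h
    apply hx1
    have : (x : Equiv.Perm α) * (x : Equiv.Perm α) = (x : Equiv.Perm α) * 1 := by
      rw [← pow_two, h, mul_one]
    exact mul_left_cancel this
  have hxN : (x : Equiv.Perm α) ∈ N := x.2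
  have hx2N : (x : Equiv.Perm α) ^ 2 ∈ N := N.pow_mem hxN 2
  have hb : (x : Equiv.Perm α) a ∈ Ω := hinv _ (hNG hxN) a ha
  have hc : ((x : Equiv.Perm α) ^ 2) a ∈ Ω := hinv _ (hNG hx2N) a ha
  have hba : a ≠ (x : Equiv.Perm α) a := by
    intro h
    exact hx1 (hinj _ hxN 1 N.one_mem h.symm)
  have hca : a ≠ ((x : Equiv.Perm α) ^ 2) a := by
    intro h
    exact hx2 (hinj _ hx2N 1 N.one_mem h.symm)
  have hcb : (x : Equiv.Perm α) a ≠ ((x : Equiv.Perm α) ^ 2) a := by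
    intro h
    exact hx3 (hinj _ hx2N _ hxN h.symm)
  obtain ⟨c', hc', hc'n⟩ := SimpleCrit.exists_not_mem Ω h4
    {a, (x : Equiv.Perm α) a, ((x : Equiv.Perm α) ^ 2) a} (Finset.card_le_three)
  simp only [Finset.mem_insert, Finset.mem_singleton, not_or] at hc'n
  obtain ⟨g, hg, e1, e2, e3⟩ := h3 a ha _ hb _ hc a ha _ hb c' hc' hba hca hcb hba
    (Ne.symm hc'n.1) (Ne.symm hc'n.2.1)
  have hy : g * (x : Equiv.Perm α) * g⁻¹ = (x : Equiv.Perm α) := by
    apply hinj _ (hnorm g hg _ hxN) _ hxN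
    rw [Equiv.Perm.mul_apply, Equiv.Perm.mul_apply]
    have : g⁻¹ a = a := by rw [Equiv.Perm.inv_eq_iff_eq]; exact e1.symm
    rw [this, e2]
  have hy2 : (g * (x : Equiv.Perm α) * g⁻¹) ^ 2 = g * (x : Equiv.Perm α) ^ 2 * g⁻¹ :=
    conj_pow
  rw [hy] at hy2
  have : ((x : Equiv.Perm α) ^ 2) a = c' := by
    conv_lhs => rw [hy2]
    rw [Equiv.Perm.mul_apply, Equiv.Perm.mul_apply]
    have : g⁻¹ a = a := by rw [Equiv.Perm.inv_eq_iff_eq]; exact e1.symm
    rw [this, e3]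
  exact hc'n.2.2 this.symm

theorem fact7920 : Nat.factorization 7920 11 = 1 := by
  have h : (7920 : ℕ) = 11 ^ 1 * 720 := by norm_num
  rw [h, Nat.factorization_mul (by norm_num) (by norm_num), Finsupp.add_apply,
    Nat.Prime.factorization_pow (by norm_num)]
  simp
  norm_num [Nat.factorization_eq_zero_of_not_dvd]

/-- A sharply 4-transitive group on 11 points is simple. -/
theorem simple11 {G : Subgroup (Equiv.Perm α)} {Ω : Finset α} (h : IsSharp G Ω 4)
    (hΩ : Ω.card = 11) : IsSimpleGroup ↥G := by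
  classical
  have hk : 4 ≤ Ω.card := by omega
  have hcard : Nat.card ↥G = 7920 := by
    rw [h.card hk, hΩ]
    rfl
  obtain ⟨a, ha⟩ : Ω.Nonempty := Finset.card_pos.1 (by omega)
  have hsa := h.stab ha
  have hea : (Ω.erase a).card = 10 := by rw [Finset.card_erase_of_mem ha, hΩ]
  have hca : Nat.card ↥(G ⊓ MulAction.stabilizer (Equiv.Perm α) a) = 720 := by
    rw [hsa.card (by omega), hea]
    rfl
  obtain ⟨b, hb⟩ : (Ω.erase a).Nonempty := Finset.card_pos.1 (by omega)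
  have hsb := hsa.stab hb
  have heb : ((Ω.erase a).erase b).card = 9 := by rw [Finset.card_erase_of_mem hb, hea]
  have hcb : Nat.card ↥(G ⊓ MulAction.stabilizer (Equiv.Perm α) a ⊓
      MulAction.stabilizer (Equiv.Perm α) b) = 72 := by
    rw [hsb.card (by omega), heb]
    rfl
  have hG : G ≠ ⊥ := by
    intro e
    rw [e, Subgroup.card_bot] at hcard
    omega
  rw [Subgroup.isSimpleGroup_iff]
  refine ⟨hG, ?_⟩
  intro N hNG hnormal
  by_cases hN : N = ⊥
  · exact Or.inl hN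
  right
  have hnorm : ∀ g ∈ G, ∀ n ∈ N, g * n * g⁻¹ ∈ N := by
    intro g hg n hn
    have := hnormal.conj_mem ⟨n, hNG hn⟩ (Subgroup.mem_subgroupOf.2 hn) ⟨g, hg⟩
    exact Subgroup.mem_subgroupOf.1 this
  have hinv : ∀ g ∈ G, ∀ q ∈ (Ω : Set α), g q ∈ (Ω : Set α) :=
    fun g hg q hq => Finset.mem_coe.2 (h.inv g hg q (Finset.mem_coe.1 hq))
  have hfaith := h.faithful hk
  -- `N` is transitive
  have htr := SimpleCrit.normal_trans (Ω : Set α) hnorm hN (fun g hg => hfaith g (hNG hg))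
    (fun g hg => hinv g (hNG hg)) (h.two hk (by norm_num))
  -- the stabiliser of `a` in `N` is nontrivial
  have hNa : N ⊓ (G ⊓ MulAction.stabilizer (Equiv.Perm α) a) ≠ ⊥ :=
    no_regular (Ω : Set α) a (Finset.mem_coe.2 ha) hNG hnorm hinv htr (h.three hk (by norm_num))
      11 (by norm_num) (by norm_num) (by rw [Set.ncard_coe_finset, hΩ])
      (by rw [Set.ncard_coe_finset, hΩ]; norm_num)
  -- and transitive on the remaining points
  have hnorm_a : ∀ g ∈ G ⊓ MulAction.stabilizer (Equiv.Perm α) a,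
      ∀ n ∈ N ⊓ (G ⊓ MulAction.stabilizer (Equiv.Perm α) a),
      g * n * g⁻¹ ∈ N ⊓ (G ⊓ MulAction.stabilizer (Equiv.Perm α) a) := by
    intro g hg n hn
    refine Subgroup.mem_inf.2 ⟨hnorm g (Subgroup.mem_inf.1 hg).1 n (Subgroup.mem_inf.1 hn).1, ?_⟩
    exact Subgroup.mul_mem _ (Subgroup.mul_mem _ hg (Subgroup.mem_inf.1 hn).2)
      (Subgroup.inv_mem _ hg)
  have hka : 3 ≤ (Ω.erase a).card := by omega
  have htr_a := SimpleCrit.normal_trans ((Ω.erase a : Finset α) : Set α) hnorm_a hNa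
    (fun g hg => hsa.faithful hka g (Subgroup.mem_inf.1 hg).2)
    (fun g hg q hq => Finset.mem_coe.2 (hsa.inv g (Subgroup.mem_inf.1 hg).2 q
      (Finset.mem_coe.1 hq)))
    (hsa.two hka (by norm_num))
  -- `G = N G_ab`
  have hNH : ∀ g ∈ G, ∃ n ∈ N, n⁻¹ * g ∈ G ⊓ MulAction.stabilizer (Equiv.Perm α) a ⊓
      MulAction.stabilizer (Equiv.Perm α) b := by
    intro g hg
    obtain ⟨n1, hn1, e1⟩ := htr a (Finset.mem_coe.2 ha) (g a) (hinv g hg a (Finset.mem_coe.2 ha))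
    have hg1 : n1⁻¹ * g ∈ G ⊓ MulAction.stabilizer (Equiv.Perm α) a := by
      refine Subgroup.mem_inf.2 ⟨G.mul_mem (G.inv_mem (hNG hn1)) hg, ?_⟩
      rw [MulAction.mem_stabilizer_iff]
      show (n1⁻¹ * g) a = a
      rw [Equiv.Perm.mul_apply, ← e1]
      simp
    obtain ⟨n2, hn2, e2⟩ := htr_a b (Finset.mem_coe.2 hb) ((n1⁻¹ * g) b)
      (Finset.mem_coe.2 (hsa.inv _ hg1 b hb))
    have hprod : (n1 * n2)⁻¹ * g = n2⁻¹ * (n1⁻¹ * g) := by group
    refine ⟨n1 * n2, N.mul_mem hn1 (Subgroup.mem_inf.1 hn2).1, Subgroup.mem_inf.2 ⟨?_, ?_⟩⟩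
    · rw [hprod]
      exact Subgroup.mul_mem _ (Subgroup.inv_mem _ (Subgroup.mem_inf.1 hn2).2) hg1
    · rw [MulAction.mem_stabilizer_iff]
      show ((n1 * n2)⁻¹ * g) b = b
      rw [hprod, Equiv.Perm.mul_apply, ← e2]
      simp
  -- elements of order 11 lie in `N`
  have h11 : ∀ u ∈ G, u ^ 11 = 1 → u ∈ N := by
    intro u hu e
    exact SimpleCrit.coprime_mem hnorm (inf_le_left.trans inf_le_left) hNH 72
      (fun x hx => by rw [← hcb]; exact pow_card_of_mem hx) hu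
      (by norm_num : Nat.Coprime 11 72) e
  have : Fact (Nat.Prime 11) := ⟨by norm_num⟩
  obtain ⟨P⟩ : Nonempty (Sylow 11 ↥G) := Sylow.nonempty
  have hPc : Nat.card ↥(P : Subgroup ↥G) = 11 := by
    rw [Sylow.card_eq_multiplicity, hcard, fact7920]
    norm_num
  have hPN : (P : Subgroup ↥G) ≤ N.subgroupOf G := by
    intro x hx
    rw [Subgroup.mem_subgroupOf]
    apply h11 x.1 x.2
    have e := pow_card_of_mem hx
    rw [hPc] at e
    have e' := congrArg Subtype.val e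
    rw [Subgroup.coe_pow, Subgroup.coe_one] at e'
    exact e'
  have hfr : Subgroup.normalizer ((P : Subgroup ↥G) : Set ↥G) ⊔ N.subgroupOf G = ⊤ :=
    Sylow.normalizer_sup_eq_top' P hPN
  have hidx : Nat.card (Sylow 11 ↥G) =
      (Subgroup.normalizer ((P : Subgroup ↥G) : Set ↥G)).index :=
    Sylow.card_eq_index_normalizer P
  obtain ⟨x, hx⟩ := exists_prime_orderOf_dvd_card' (G := ↥(P : Subgroup ↥G)) 11 (by rw [hPc])
  have hxu : orderOf (x.1.1 : Equiv.Perm α) = 11 := by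
    rw [Subgroup.orderOf_coe, Subgroup.orderOf_coe]
    exact hx
  have huG : (x.1.1 : Equiv.Perm α) ∈ G := x.1.2
  have hu11 : (x.1.1 : Equiv.Perm α) ^ 11 = 1 := by
    have e := pow_orderOf_eq_one (x.1.1 : Equiv.Perm α)
    rw [hxu] at e
    exact e
  have hfinj : Function.Injective (fun i : Fin 11 => ((x.1.1 : Equiv.Perm α) ^ (i : ℕ)) a) := by
    intro i j hij
    have hij' : ((x.1.1 : Equiv.Perm α) ^ (i : ℕ)) a = ((x.1.1 : Equiv.Perm α) ^ (j : ℕ)) a := hij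
    have hmem : (x.1.1 : Equiv.Perm α) ^ ((11 - (j : ℕ)) + (i : ℕ)) ∈
        G ⊓ MulAction.stabilizer (Equiv.Perm α) a := by
      refine Subgroup.mem_inf.2 ⟨G.pow_mem huG _, ?_⟩
      rw [MulAction.mem_stabilizer_iff]
      show ((x.1.1 : Equiv.Perm α) ^ ((11 - (j : ℕ)) + (i : ℕ))) a = a
      rw [pow_add, Equiv.Perm.mul_apply, hij', ← Equiv.Perm.mul_apply, ← pow_add]
      have : 11 - (j : ℕ) + (j : ℕ) = 11 := by omega
      rw [this, hu11]
      rfl
    have h1 := pow_card_of_mem hmem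
    rw [hca, ← pow_mul] at h1
    have h2 := orderOf_dvd_of_pow_eq_one h1
    rw [hxu] at h2
    have h3 : 11 ∣ (11 - (j : ℕ)) + (i : ℕ) :=
      (Nat.Coprime.dvd_mul_right (by norm_num : Nat.Coprime 11 720)).1 h2
    apply Fin.ext
    omega
  have hsurj : ∀ c ∈ Ω, ∃ i : ℕ, ((x.1.1 : Equiv.Perm α) ^ i) a = c := by
    have himg : Finset.image (fun i : Fin 11 => ((x.1.1 : Equiv.Perm α) ^ (i : ℕ)) a)
        Finset.univ = Ω := by
      apply Finset.eq_of_subset_of_card_le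
      · intro c hc
        obtain ⟨i, -, rfl⟩ := Finset.mem_image.1 hc
        exact h.inv _ (G.pow_mem huG _) a ha
      · rw [Finset.card_image_of_injective _ hfinj, Finset.card_univ, Fintype.card_fin, hΩ]
    intro c hc
    rw [← himg] at hc
    obtain ⟨i, -, e⟩ := Finset.mem_image.1 hc
    exact ⟨i, e⟩
  have hd121 : Nat.card ↥(Subgroup.normalizer ((P : Subgroup ↥G) : Set ↥G)) ≤ 121 := by
    have hinj : Function.Injective
        (fun y : ↥(Subgroup.normalizer ((P : Subgroup ↥G) : Set ↥G)) =>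
          ((⟨y.1 * x.1 * y.1⁻¹, (Subgroup.mem_normalizer_iff.1 y.2 x.1).1 x.2⟩ :
            ↥(P : Subgroup ↥G)), (⟨y.1.1 a, h.inv _ y.1.2 a ha⟩ : ↥Ω))) := by
      intro y y' e
      have e1 : y.1 * x.1 * y.1⁻¹ = y'.1 * x.1 * y'.1⁻¹ :=
        congrArg (fun z => (z.1.1 : ↥G)) e
      have e2 : y.1.1 a = y'.1.1 a := congrArg (fun z => (z.2.1 : α)) e
      have hc : (y.1⁻¹ * y'.1 : ↥G) = 1 := by
        apply Subtype.ext
        apply hfaith _ (y.1⁻¹ * y'.1 : ↥G).2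
        intro q hq
        obtain ⟨i, rfl⟩ := hsurj q (Finset.mem_coe.1 hq)
        have hcomm : Commute ((y.1⁻¹ * y'.1 : ↥G) : Equiv.Perm α) (x.1.1 : Equiv.Perm α) := by
          have : (y.1⁻¹ * y'.1 : ↥G) * x.1 = x.1 * (y.1⁻¹ * y'.1) := by
            calc (y.1⁻¹ * y'.1 : ↥G) * x.1 = y.1⁻¹ * (y'.1 * x.1 * y'.1⁻¹) * y'.1 := by group
              _ = y.1⁻¹ * (y.1 * x.1 * y.1⁻¹) * y'.1 := by rw [e1]
              _ = x.1 * (y.1⁻¹ * y'.1) := by group
          exact congrArg Subtype.val this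
        have hfix : ((y.1⁻¹ * y'.1 : ↥G) : Equiv.Perm α) a = a := by
          show (y.1.1⁻¹ * y'.1.1) a = a
          rw [Equiv.Perm.mul_apply, ← e2]
          simp
        have hci := (hcomm.pow_right i).eq
        calc ((y.1⁻¹ * y'.1 : ↥G) : Equiv.Perm α) (((x.1.1 : Equiv.Perm α) ^ i) a)
            = (((y.1⁻¹ * y'.1 : ↥G) : Equiv.Perm α) * (x.1.1 : Equiv.Perm α) ^ i) a := rfl
          _ = ((x.1.1 : Equiv.Perm α) ^ i * ((y.1⁻¹ * y'.1 : ↥G) : Equiv.Perm α)) a := by rw [hci]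
          _ = ((x.1.1 : Equiv.Perm α) ^ i) a := by rw [Equiv.Perm.mul_apply, hfix]
      apply Subtype.ext
      exact inv_mul_eq_one.1 hc
    have hle := Nat.card_le_card_of_injective _ hinj
    have hΩc : Nat.card ↥Ω = 11 := by rw [Nat.card_eq_fintype_card, Fintype.card_coe, hΩ]
    rw [Nat.card_prod, hPc, hΩc] at hle
    exact hle
  have hd : Nat.card ↥(Subgroup.normalizer ((P : Subgroup ↥G) : Set ↥G)) = 55 := by
    have h1 : 11 ∣ Nat.card ↥(Subgroup.normalizer ((P : Subgroup ↥G) : Set ↥G)) := by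
      have e := Subgroup.card_dvd_of_le (Subgroup.le_normalizer (H := (P : Subgroup ↥G)))
      rw [hPc] at e
      exact e
    have h2 := Subgroup.card_mul_index (Subgroup.normalizer ((P : Subgroup ↥G) : Set ↥G))
    rw [← hidx, hcard] at h2
    have h3 := card_sylow_modEq_one 11 ↥G
    rw [Nat.ModEq] at h3
    obtain ⟨t, ht⟩ := h1
    rw [ht] at h2 hd121 ⊢
    have ht11 : t ≤ 11 := by omega
    generalize Nat.card (Sylow 11 ↥G) = I at h2 h3
    interval_cases t <;> omega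
  have hHG : (Subgroup.normalizer ((P : Subgroup ↥G) : Set ↥G)).map G.subtype ≤ G := by
    rintro _ ⟨y, -, rfl⟩
    exact y.2
  have hH55 : ∀ y ∈ (Subgroup.normalizer ((P : Subgroup ↥G) : Set ↥G)).map G.subtype,
      y ^ 55 = 1 := by
    rintro _ ⟨y, hy, rfl⟩
    have e := pow_card_of_mem hy
    rw [hd] at e
    have e' := congrArg Subtype.val e
    rw [Subgroup.coe_pow, Subgroup.coe_one] at e'
    exact e'
  have hNH' : ∀ g ∈ G, ∃ n ∈ N, n⁻¹ * g ∈
      (Subgroup.normalizer ((P : Subgroup ↥G) : Set ↥G)).map G.subtype := by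
    intro g hg
    have hmem : (⟨g, hg⟩ : ↥G) ∈ ((N.subgroupOf G ⊔
        Subgroup.normalizer ((P : Subgroup ↥G) : Set ↥G) : Subgroup ↥G) : Set ↥G) := by
      rw [sup_comm, hfr]
      exact Subgroup.mem_top _
    rw [Subgroup.normal_mul] at hmem
    obtain ⟨n, hn, y, hy, e⟩ := Set.mem_mul.1 hmem
    refine ⟨n.1, Subgroup.mem_subgroupOf.1 hn, ?_⟩
    have e' : n.1 * y.1 = g := congrArg Subtype.val e
    have : n.1⁻¹ * g = y.1 := by
      rw [← e']
      group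
    rw [this]
    exact ⟨y, hy, rfl⟩
  have hab : G ⊓ MulAction.stabilizer (Equiv.Perm α) a ⊓
      MulAction.stabilizer (Equiv.Perm α) b ≤ N := by
    intro v hv
    exact SimpleCrit.coprime_mem hnorm hHG hNH' 55 hH55
      (Subgroup.mem_inf.1 (Subgroup.mem_inf.1 hv).1).1
      (by norm_num : Nat.Coprime 72 55) (by rw [← hcb]; exact pow_card_of_mem hv)
  apply le_antisymm hNG
  intro g hg
  obtain ⟨n, hn, hh⟩ := hNH g hg
  have := N.mul_mem hn (hab hh)
  rwa [mul_inv_cancel_left] at this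

/-- A sharply 5-transitive group on 12 points is simple. -/
theorem simple12 {G : Subgroup (Equiv.Perm α)} {Ω : Finset α} (h : IsSharp G Ω 5)
    (hΩ : Ω.card = 12) : IsSimpleGroup ↥G := by
  obtain ⟨a, ha⟩ : Ω.Nonempty := Finset.card_pos.1 (by omega)
  have hk : 5 ≤ Ω.card := by omega
  exact SimpleCrit.simple_of_stab_simple (Ω : Set α) a (Finset.mem_coe.2 ha) (h.faithful hk)
    (fun g hg q hq => Finset.mem_coe.2 (h.inv g hg q (Finset.mem_coe.1 hq)))
    (h.three hk (by norm_num)) 3 (by norm_num) (by norm_num)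
    (by rw [Set.ncard_coe_finset, hΩ]; norm_num) (by rw [Set.ncard_coe_finset, hΩ]; norm_num)
    (simple11 (h.stab ha) (by rw [Finset.card_erase_of_mem ha, hΩ]))

end Sharp
end Cfsg.Agent.Lib.Helper4
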