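import Mathlib
import Cfsg.Prelude
import Cfsg.Agent.S0765
import Cfsg.Agent.S0766
import Cfsg.Agent.S0767
import Cfsg.Agent.Lib.Helper3.SpTools

set_option autoImplicit false

namespace Cfsg.Agent.Lib.Helper4
namespace SpTv

open Matrix Cfsg Cfsg.Agent.S0766

variable (m : ℕ)

/-- The transvection along `w` over the field with two elements. -/
def T (w : Fin m ⊕ Fin m → ZMod 2) : Matrix.symplecticGroup (Fin m) (ZMod 2) :=
  ⟨sympTransvection m w 1, Cfsg.Agent.S0764.result m w 1⟩

theorem T_mulVec (w x : Fin m ⊕ Fin m → ZMod 2) :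
    (T m w).1 *ᵥ x = x + sympForm m (ZMod 2) x w • w := by
  show sympTransvection m w 1 *ᵥ x = _
  rw [tv_mulVec, one_mul]

theorem z2_cases (a : ZMod 2) : a = 0 ∨ a = 1 := by
  revert a
  decide

theorem vec_add_self (v : Fin m ⊕ Fin m → ZMod 2) : v + v = 0 := by
  funext i
  exact CharTwo.add_self_eq_zero (v i)

theorem form_swap2 (x y : Fin m ⊕ Fin m → ZMod 2) :
    sympForm m (ZMod 2) x y = sympForm m (ZMod 2) y x := by
  rw [form_swap]
  exact CharTwo.neg_eq _

theorem ext_mulVec {A B : Matrix.symplecticGroup (Fin m) (ZMod 2)}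
    (h : ∀ x, A.1 *ᵥ x = B.1 *ᵥ x) : A = B :=
  Subtype.ext (Matrix.mulVec_injective (funext h))

theorem T_zero : T m 0 = 1 := by
  apply Subtype.ext
  show sympTransvection m (0 : Fin m ⊕ Fin m → ZMod 2) 1 = 1
  exact Cfsg.Agent.Lib.Helper3.sympTransvection_zero m 1

theorem T_sq (w : Fin m ⊕ Fin m → ZMod 2) : T m w * T m w = 1 := by
  apply Subtype.ext
  show sympTransvection m w 1 * sympTransvection m w 1 = 1
  rw [(Cfsg.Agent.S0767.result m w).1]
  have h2 : (1 : ZMod 2) + 1 = 0 := by decide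
  rw [h2]
  unfold sympTransvection
  rw [zero_smul, add_zero]

theorem T_inv (w : Fin m ⊕ Fin m → ZMod 2) : (T m w)⁻¹ = T m w :=
  inv_eq_of_mul_eq_one_right (T_sq m w)

theorem T_conj (A : Matrix.symplecticGroup (Fin m) (ZMod 2)) (w : Fin m ⊕ Fin m → ZMod 2) :
    A * T m w * A⁻¹ = T m (A.1 *ᵥ w) := by
  apply Subtype.ext
  exact Cfsg.Agent.Lib.Helper3.sp_conj_transvection m A w 1

theorem exists_form_one (w : Fin m ⊕ Fin m → ZMod 2) (hw : w ≠ 0) :
    ∃ x, sympForm m (ZMod 2) x w = 1 := by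
  obtain ⟨y, hy⟩ := form_nondeg m w hw
  refine ⟨y, ?_⟩
  rw [form_swap2]
  rcases z2_cases (sympForm m (ZMod 2) w y) with h | h
  · exact absurd h hy
  · exact h

theorem T_ne_one (w : Fin m ⊕ Fin m → ZMod 2) (hw : w ≠ 0) : T m w ≠ 1 := by
  intro h
  obtain ⟨x, hx⟩ := exists_form_one m w hw
  have h1 := T_mulVec m w x
  rw [h, hx, one_smul] at h1
  have h2 : ((1 : Matrix.symplecticGroup (Fin m) (ZMod 2)).1) *ᵥ x = x := Matrix.one_mulVec x
  rw [h2] at h1
  exact hw (left_eq_add.1 h1)

theorem T_inj {u w : Fin m ⊕ Fin m → ZMod 2} (hu : u ≠ 0) (h : T m u = T m w) : u = w := by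
  obtain ⟨x, hx⟩ := exists_form_one m u hu
  have h1 := T_mulVec m u x
  rw [h, T_mulVec, hx, one_smul] at h1
  rcases z2_cases (sympForm m (ZMod 2) x w) with h2 | h2
  · rw [h2, zero_smul, add_zero] at h1
    exact absurd (left_eq_add.1 h1) hu
  · rw [h2, one_smul] at h1
    exact (add_left_cancel h1).symm

/-- The rank-one condition characterises transvections. -/
theorem rank_iff (g : Matrix.symplecticGroup (Fin m) (ZMod 2)) :
    (g.1 - 1).rank = 1 ↔ ∃ w, w ≠ 0 ∧ g = T m w := by
  have hsub : ∀ x : Fin m ⊕ Fin m → ZMod 2, (g.1 - 1) *ᵥ x = g.1 *ᵥ x - x := fun x => by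
    rw [Matrix.sub_mulVec, Matrix.one_mulVec]
  constructor
  · intro h
    have h1 : Module.finrank (ZMod 2) (LinearMap.range (g.1 - 1).mulVecLin) = 1 := h
    rw [finrank_eq_one_iff'] at h1
    obtain ⟨u0, hu0, hspan⟩ := h1
    have hu : u0.1 ≠ 0 := fun e => hu0 (Subtype.ext e)
    obtain ⟨y0, hy0⟩ := u0.2
    have hy0' : g.1 *ᵥ y0 = y0 + u0.1 := by
      have e : (g.1 - 1) *ᵥ y0 = u0.1 := hy0
      rw [hsub] at e
      rw [← e]
      abel
    have hcase : ∀ x, g.1 *ᵥ x = x ∨ g.1 *ᵥ x = x + u0.1 := by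
      intro x
      obtain ⟨c, hc⟩ := hspan ⟨(g.1 - 1) *ᵥ x, ⟨x, rfl⟩⟩
      have hc' : c • u0.1 = g.1 *ᵥ x - x := by
        have e := congrArg Subtype.val hc
        rw [← hsub]
        exact e
      rcases z2_cases c with rfl | rfl
      · left
        rw [zero_smul] at hc'
        exact (sub_eq_zero.1 hc'.symm)
      · right
        rw [one_smul] at hc'
        rw [hc']
        abel
    have hfix : ∀ x, g.1 *ᵥ x = x → sympForm m (ZMod 2) x u0.1 = 0 := by
      intro x hx
      have e := form_pres m g x y0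
      rw [hx, hy0', form_add_right] at e
      exact left_eq_add.1 e.symm
    have hmove : ∀ x, g.1 *ᵥ x = x + u0.1 →
        sympForm m (ZMod 2) x u0.1 = sympForm m (ZMod 2) u0.1 y0 := by
      intro x hx
      have e := form_pres m g x y0
      rw [hx, hy0', form_add_right, form_add_left, form_add_left, form_self, add_zero] at e
      have e2 : sympForm m (ZMod 2) x u0.1 + sympForm m (ZMod 2) u0.1 y0 = 0 := by
        have e3 : sympForm m (ZMod 2) x y0 + sympForm m (ZMod 2) u0.1 y0 +
            sympForm m (ZMod 2) x u0.1 = sympForm m (ZMod 2) x y0 + 0 := by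
          rw [add_zero]
          exact e
        rw [add_assoc] at e3
        rw [add_comm]
        exact add_left_cancel e3
      exact CharTwo.add_eq_zero.1 e2
    have hκ : sympForm m (ZMod 2) u0.1 y0 = 1 := by
      obtain ⟨z, hz⟩ := exists_form_one m u0.1 hu
      rcases hcase z with h3 | h3
      · rw [hfix z h3] at hz
        exact absurd hz (by decide)
      · rw [← hmove z h3]
        exact hz
    refine ⟨u0.1, hu, ?_⟩
    apply ext_mulVec
    intro x
    rw [T_mulVec]
    rcases hcase x with h3 | h3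
    · rw [h3, hfix x h3, zero_smul, add_zero]
    · rw [h3, hmove x h3, hκ, one_smul]
  · rintro ⟨w, hw, rfl⟩
    show Module.finrank (ZMod 2) (LinearMap.range ((T m w).1 - 1).mulVecLin) = 1
    have hr : LinearMap.range ((T m w).1 - 1).mulVecLin = Submodule.span (ZMod 2) {w} := by
      ext y
      rw [Submodule.mem_span_singleton, LinearMap.mem_range]
      constructor
      · rintro ⟨x, rfl⟩
        refine ⟨sympForm m (ZMod 2) x w, ?_⟩
        rw [Matrix.mulVecLin_apply, Matrix.sub_mulVec, Matrix.one_mulVec, T_mulVec]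
        abel
      · rintro ⟨a, rfl⟩
        rcases z2_cases a with rfl | rfl
        · exact ⟨0, by rw [map_zero, zero_smul]⟩
        · obtain ⟨x, hx⟩ := exists_form_one m w hw
          refine ⟨x, ?_⟩
          rw [Matrix.mulVecLin_apply, Matrix.sub_mulVec, Matrix.one_mulVec, T_mulVec, hx]
          abel
    rw [hr]
    exact finrank_span_singleton hw

theorem T_T (u w : Fin m ⊕ Fin m → ZMod 2) :
    (T m u * T m w) ^ 2 = 1 ∨ (T m u * T m w) ^ 3 = 1 := by
  have hconj := T_conj m (T m u) w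
  rw [T_inv, T_mulVec] at hconj
  have hconj' := T_conj m (T m w) u
  rw [T_inv, T_mulVec] at hconj'
  rcases z2_cases (sympForm m (ZMod 2) w u) with h | h
  · left
    rw [h, zero_smul, add_zero] at hconj
    rw [pow_two]
    calc T m u * T m w * (T m u * T m w) = (T m u * T m w * T m u) * T m w := by group
      _ = 1 := by rw [hconj, T_sq]
  · right
    have h' : sympForm m (ZMod 2) u w = 1 := by rw [form_swap2, h]
    rw [h, one_smul] at hconj
    rw [h', one_smul] at hconj'
    have e : (T m u * T m w) ^ 3 = (T m u * T m w * T m u) * (T m w * T m u * T m w) := by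
      rw [pow_succ, pow_two]
      group
    rw [e, hconj, hconj', add_comm u w, T_sq]


/-- Symplectic transvections over the field with two elements form a class of 3-transpositions
generating the symplectic group. -/
theorem three_transposition (n : ℕ) (hn : 1 ≤ n) :
    Cfsg.IsThreeTranspositionClass
      {g : Matrix.symplecticGroup (Fin n) (ZMod 2) |
        ((g : Matrix (Fin n ⊕ Fin n) (Fin n ⊕ Fin n) (ZMod 2)) - 1).rank = 1} := by
  refine ⟨⟨?_, ?_⟩, ?_, ?_⟩
  · rintro d hd
    obtain ⟨w, hw, rfl⟩ := (rank_iff n d).1 hd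
    exact orderOf_eq_prime (by rw [pow_two]; exact T_sq n w) (T_ne_one n w hw)
  · rintro d hd e he
    obtain ⟨u, hu, rfl⟩ := (rank_iff n d).1 hd
    obtain ⟨w, hw, rfl⟩ := (rank_iff n e).1 he
    exact T_T n u w
  · have he0 : (Pi.single (Sum.inl ⟨0, hn⟩) 1 : Fin n ⊕ Fin n → ZMod 2) ≠ 0 := by
      intro h
      have := congrFun h (Sum.inl ⟨0, hn⟩)
      simp at this
    refine ⟨T n (Pi.single (Sum.inl ⟨0, hn⟩) 1), (rank_iff n _).2 ⟨_, he0, rfl⟩, ?_⟩
    ext g
    show _ ↔ IsConj _ g
    rw [isConj_iff]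
    show ((g : Matrix (Fin n ⊕ Fin n) (Fin n ⊕ Fin n) (ZMod 2)) - 1).rank = 1 ↔ _
    rw [rank_iff]
    constructor
    · rintro ⟨w, hw, rfl⟩
      obtain ⟨A, -, hA⟩ := Cfsg.Agent.S0766.trans_vec n ⊤
        (fun w c => ⟨⟨_, Cfsg.Agent.S0764.result n w c⟩, Subgroup.mem_top _, rfl⟩) _ w he0 hw
      exact ⟨A, by rw [T_conj, hA]⟩
    · rintro ⟨A, rfl⟩
      refine ⟨A.1 *ᵥ Pi.single (Sum.inl ⟨0, hn⟩) 1, ?_, T_conj n A _⟩
      intro h0
      have h1 := T_conj n A (Pi.single (Sum.inl ⟨0, hn⟩) 1)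
      rw [h0, T_zero] at h1
      apply T_ne_one n _ he0
      have h2 : T n (Pi.single (Sum.inl ⟨0, hn⟩) 1) =
          A⁻¹ * (A * T n (Pi.single (Sum.inl ⟨0, hn⟩) 1) * A⁻¹) * A := by
        group
      rw [h2, h1]
      group
  · rw [eq_top_iff, ← Cfsg.Agent.S0765.result n, Subgroup.closure_le]
    rintro A ⟨w, c, hA⟩
    rcases z2_cases c with rfl | rfl
    · have h1 : A = 1 := Subtype.ext (by
        rw [hA]
        unfold Cfsg.sympTransvection
        simp)
      rw [h1]
      exact Subgroup.one_mem _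
    · have hAT : A = T n w := Subtype.ext hA
      by_cases hw : w = 0
      · rw [hAT, hw, T_zero]
        exact Subgroup.one_mem _
      · exact Subgroup.subset_closure ((rank_iff n A).2 ⟨w, hw, hAT⟩)

end SpTv
end Cfsg.Agent.Lib.Helper4
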