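import Cfsg.Agent.Lib.Helper4.Steiner

set_option autoImplicit false
set_option linter.unusedSectionVars false

namespace Cfsg.Agent.Lib.Helper4
namespace Steiner

open Finset

section Num

variable {α : Type*} [Fintype α] [DecidableEq α]

theorem s3622_inter (hα : Fintype.card α = 22) {B : Set (Finset α)}
    (hB : IsSteinerSystem 3 6 B) {b c : Finset α} (hb : b ∈ B) (hc : c ∈ B) (hbc : b ≠ c) :
    (c ∩ b).card = 0 ∨ (c ∩ b).card = 2 := by
  obtain ⟨h0, h1, h2⟩ := s3622 hα hB hb
  have hpos := cnt_pos (s := ∅) (X := b) hc (empty_subset _) rfl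
  have h8 : (c ∩ b).card < 3 := by
    by_contra hcon
    exact hbc (eq_of_le_inter hB hc hb (by omega)).symm
  have n1 : (c ∩ b).card ≠ 1 := fun e => by rw [e, h1] at hpos; exact lt_irrefl _ hpos
  omega

theorem s3622_disjoint_pair (hα : Fintype.card α = 22) {B : Set (Finset α)}
    (hB : IsSteinerSystem 3 6 B) {b c : Finset α} (hb : b ∈ B) (hc : c ∈ B)
    (hbc : Disjoint b c) : cnt B ∅ (b ∪ c) 0 = 0 := by
  have hbcard := hB.1 b hb
  have hccard := hB.1 c hc
  have hne : b ≠ c := by
    rintro rfl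
    rw [disjoint_self_iff_empty] at hbc
    rw [hbc] at hbcard
    simp at hbcard
  have hX : (b ∪ c).card = 12 := by rw [card_union_of_disjoint hbc, hbcard, hccard]
  have hd := fun T => s3622_deg hα hB T
  have key : ∀ d ∈ B, ((d ∩ (b ∪ c)).card = 0 ∨ (d ∩ (b ∪ c)).card = 2 ∨
      (d ∩ (b ∪ c)).card = 4 ∨ (d ∩ (b ∪ c)).card = 6) := by
    intro d hd
    have e : (d ∩ (b ∪ c)).card = (d ∩ b).card + (d ∩ c).card := by
      rw [inter_union_distrib_left, card_union_of_disjoint]
      exact disjoint_of_subset_left inter_subset_right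
        (disjoint_of_subset_right inter_subset_right hbc)
    by_cases h1 : d = b
    · subst h1
      rw [e, inter_self, hbcard, disjoint_iff_inter_eq_empty.1 hbc]
      simp
    by_cases h2 : d = c
    · subst h2
      rw [e, inter_self, hccard, inter_comm, disjoint_iff_inter_eq_empty.1 hbc]
      simp
    have := s3622_inter hα hB hb hd (Ne.symm h1)
    have := s3622_inter hα hB hc hd (Ne.symm h2)
    omega
  have z : ∀ j, j ≠ 0 → j ≠ 2 → j ≠ 4 → j ≠ 6 → cnt B ∅ (b ∪ c) j = 0 := by
    intro j h0 h2 h4 h6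
    apply cnt_eq_zero
    intro d hd _ hj
    have := key d hd
    omega
  have h6 : 2 ≤ cnt B ∅ (b ∪ c) 6 := by
    rw [cnt, ← card_pair hne]
    apply card_le_card
    intro d hd
    rw [mem_insert, mem_singleton] at hd
    rw [mem_filter, mem_blocks]
    rcases hd with rfl | rfl
    · exact ⟨hb, empty_subset _, by rw [inter_eq_left.2 subset_union_left, hbcard]⟩
    · exact ⟨hc, empty_subset _, by rw [inter_eq_left.2 subset_union_right, hccard]⟩
  have e0 := sum_choose_cnt B ∅ (b ∪ c) (disjoint_empty_left _) 0 77 13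
    (fun T hT => (hd T).1 (by simpa using hT)) (by omega)
  have e1 := sum_choose_cnt B ∅ (b ∪ c) (disjoint_empty_left _) 1 21 13
    (fun T hT => (hd T).2.1 (by simpa using hT)) (by omega)
  have e2 := sum_choose_cnt B ∅ (b ∪ c) (disjoint_empty_left _) 2 5 13
    (fun T hT => (hd T).2.2.1 (by simpa using hT)) (by omega)
  have z1 := z 1 (by norm_num) (by norm_num) (by norm_num) (by norm_num)
  have z3 := z 3 (by norm_num) (by norm_num) (by norm_num) (by norm_num)
  have z5 := z 5 (by norm_num) (by norm_num) (by norm_num) (by norm_num)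
  have z7 := z 7 (by norm_num) (by norm_num) (by norm_num) (by norm_num)
  have z8 := z 8 (by norm_num) (by norm_num) (by norm_num) (by norm_num)
  have z9 := z 9 (by norm_num) (by norm_num) (by norm_num) (by norm_num)
  have z10 := z 10 (by norm_num) (by norm_num) (by norm_num) (by norm_num)
  have z11 := z 11 (by norm_num) (by norm_num) (by norm_num) (by norm_num)
  have z12 := z 12 (by norm_num) (by norm_num) (by norm_num) (by norm_num)
  simp only [sum_range_succ, sum_range_zero, hX, z1, z3, z5, z7, z8, z9, z10, z11, z12]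
    at e0 e1 e2
  norm_num [Nat.choose] at e0 e1 e2
  omega

theorem s3622_meet_pair (hα : Fintype.card α = 22) {B : Set (Finset α)}
    (hB : IsSteinerSystem 3 6 B) {b c : Finset α} (hb : b ∈ B) (hc : c ∈ B)
    (hne : b ≠ c) (hbc : ¬ Disjoint b c) : (b ∩ c).card = 2 ∧ cnt B ∅ (b ∪ c) 0 = 4 := by
  have hbcard := hB.1 b hb
  have hccard := hB.1 c hc
  have h2 : (b ∩ c).card = 2 := by
    rcases s3622_inter hα hB hc hb hne.symm with h | h
    · rw [card_eq_zero, ← disjoint_iff_inter_eq_empty] at h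
      exact absurd h hbc
    · exact h
  refine ⟨h2, ?_⟩
  have hX : (b ∪ c).card = 10 := by
    have := card_union_add_card_inter b c
    omega
  have hd := fun T => s3622_deg hα hB T
  have key : ∀ d ∈ B, (d = b ∨ d = c) ∨ ((d ∩ (b ∪ c)).card = 0 ∨ (d ∩ (b ∪ c)).card = 2 ∨
      (d ∩ (b ∪ c)).card = 3 ∨ (d ∩ (b ∪ c)).card = 4) := by
    intro d hd
    by_cases h1 : d = b
    · exact Or.inl (Or.inl h1)
    by_cases h2' : d = c
    · exact Or.inl (Or.inr h2')
    right
    have e : (d ∩ (b ∪ c)).card + ((d ∩ b) ∩ (d ∩ c)).card = (d ∩ b).card + (d ∩ c).card := by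
      rw [inter_union_distrib_left, card_union_add_card_inter]
    have l1 : ((d ∩ b) ∩ (d ∩ c)).card ≤ (d ∩ b).card := card_le_card inter_subset_left
    have l2 : ((d ∩ b) ∩ (d ∩ c)).card ≤ (d ∩ c).card := card_le_card inter_subset_right
    have := s3622_inter hα hB hb hd (Ne.symm h1)
    have := s3622_inter hα hB hc hd (Ne.symm h2')
    omega
  have hbX : (b ∩ (b ∪ c)).card = 6 := by rw [inter_eq_left.2 subset_union_left, hbcard]
  have hcX : (c ∩ (b ∪ c)).card = 6 := by rw [inter_eq_left.2 subset_union_right, hccard]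
  have z : ∀ j, j ≠ 0 → j ≠ 2 → j ≠ 3 → j ≠ 4 → j ≠ 6 → cnt B ∅ (b ∪ c) j = 0 := by
    intro j h0 h2 h3 h4 h6
    apply cnt_eq_zero
    intro d hd _ hj
    rcases key d hd with (rfl | rfl) | h
    · omega
    · omega
    · omega
  have h6 : cnt B ∅ (b ∪ c) 6 = 2 := by
    rw [cnt, ← card_pair hne]
    congr 1
    ext d
    rw [mem_insert, mem_singleton, mem_filter, mem_blocks]
    constructor
    · rintro ⟨hd, _, hj⟩
      rcases key d hd with h | h
      · exact h
      · omega
    · rintro (rfl | rfl)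
      · exact ⟨hb, empty_subset _, hbX⟩
      · exact ⟨hc, empty_subset _, hcX⟩
  have e0 := sum_choose_cnt B ∅ (b ∪ c) (disjoint_empty_left _) 0 77 11
    (fun T hT => (hd T).1 (by simpa using hT)) (by omega)
  have e1 := sum_choose_cnt B ∅ (b ∪ c) (disjoint_empty_left _) 1 21 11
    (fun T hT => (hd T).2.1 (by simpa using hT)) (by omega)
  have e2 := sum_choose_cnt B ∅ (b ∪ c) (disjoint_empty_left _) 2 5 11
    (fun T hT => (hd T).2.2.1 (by simpa using hT)) (by omega)
  have e3 := sum_choose_cnt B ∅ (b ∪ c) (disjoint_empty_left _) 3 1 11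
    (fun T hT => (hd T).2.2.2 (by simpa using hT)) (by omega)
  have z1 := z 1 (by norm_num) (by norm_num) (by norm_num) (by norm_num) (by norm_num)
  have z5 := z 5 (by norm_num) (by norm_num) (by norm_num) (by norm_num) (by norm_num)
  have z7 := z 7 (by norm_num) (by norm_num) (by norm_num) (by norm_num) (by norm_num)
  have z8 := z 8 (by norm_num) (by norm_num) (by norm_num) (by norm_num) (by norm_num)
  have z9 := z 9 (by norm_num) (by norm_num) (by norm_num) (by norm_num) (by norm_num)
  have z10 := z 10 (by norm_num) (by norm_num) (by norm_num) (by norm_num) (by norm_num)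
  simp only [sum_range_succ, sum_range_zero, hX, z1, z5, z7, z8, z9, z10, h6] at e0 e1 e2 e3
  norm_num [Nat.choose] at e0 e1 e2 e3
  omega

theorem s3622_point_block (hα : Fintype.card α = 22) {B : Set (Finset α)}
    (hB : IsSteinerSystem 3 6 B) {b : Finset α} (hb : b ∈ B) {p : α} (hp : p ∉ b) :
    cnt B {p} b 0 = 6 := by
  have hbcard := hB.1 b hb
  have hd := fun T => s3622_deg hα hB T
  have hdisj : Disjoint {p} b := disjoint_singleton_left.2 hp
  have z : ∀ j, j ≠ 0 → j ≠ 2 → cnt B {p} b j = 0 := by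
    intro j h0 h2
    apply cnt_eq_zero
    intro d hd hpd hj
    have hne : b ≠ d := by
      rintro rfl
      exact hp (hpd (mem_singleton_self p))
    have := s3622_inter hα hB hb hd hne
    omega
  have e0 := sum_choose_cnt B {p} b hdisj 0 21 7
    (fun T hT => (hd T).2.1 (by simpa using hT)) (by omega)
  have e2 := sum_choose_cnt B {p} b hdisj 2 1 7
    (fun T hT => (hd T).2.2.2 (by simpa using hT)) (by omega)
  have z1 := z 1 (by norm_num) (by norm_num)
  have z3 := z 3 (by norm_num) (by norm_num)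
  have z4 := z 4 (by norm_num) (by norm_num)
  have z5 := z 5 (by norm_num) (by norm_num)
  have z6 := z 6 (by norm_num) (by norm_num)
  simp only [sum_range_succ, sum_range_zero, hbcard, z1, z3, z4, z5, z6] at e0 e2
  norm_num [Nat.choose] at e0 e2
  omega

end Num

section Graph

variable {α : Type*} [Fintype α]

theorem card_eq_ncard {γ : Type*} (S : Set γ) [Fintype S] : Fintype.card S = S.ncard := by
  rw [← Nat.card_eq_fintype_card, Nat.card_coe_set_eq]

theorem ncard_eq_sum {γ : Type*} [Fintype γ] (S : Set γ) [DecidablePred (· ∈ S)] :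
    S.ncard = ∑ x, if x ∈ S then 1 else 0 := by
  rw [← Finset.card_filter, ← Set.ncard_coe_finset]
  congr 1
  ext x
  simp

theorem ncard_opt_mem {β γ : Type*} [Finite β] [Finite γ] (S : Set (Option (β ⊕ γ)))
    (h : none ∈ S) :
    S.ncard = 1 + {a | some (Sum.inl a) ∈ S}.ncard + {b | some (Sum.inr b) ∈ S}.ncard := by
  classical
  have := Fintype.ofFinite β
  have := Fintype.ofFinite γ
  rw [ncard_eq_sum, Fintype.sum_option, Fintype.sum_sum_type, ncard_eq_sum, ncard_eq_sum]
  simp [h, add_assoc]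

theorem ncard_opt_not_mem {β γ : Type*} [Finite β] [Finite γ] (S : Set (Option (β ⊕ γ)))
    (h : none ∉ S) :
    S.ncard = {a | some (Sum.inl a) ∈ S}.ncard + {b | some (Sum.inr b) ∈ S}.ncard := by
  classical
  have := Fintype.ofFinite β
  have := Fintype.ofFinite γ
  rw [ncard_eq_sum, Fintype.sum_option, Fintype.sum_sum_type, ncard_eq_sum, ncard_eq_sum]
  simp [h]

theorem ncard_sub [DecidableEq α] (B : Set (Finset α)) (P : Finset α → Prop) [DecidablePred P]
    (S : Set B) (h : ∀ d : B, d ∈ S ↔ P d.1) : S.ncard = ((blocks B).filter P).card := by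
  rw [← Set.ncard_image_of_injective S Subtype.val_injective, ← ncard_setOf]
  congr 1
  ext d
  constructor
  · rintro ⟨x, hx, rfl⟩
    exact ⟨x.2, (h x).1 hx⟩
  · rintro ⟨hd, hP⟩
    exact ⟨⟨d, hd⟩, (h _).2 hP, rfl⟩

theorem blockGraph_adj {B : Set (Finset α)} (v w : B) :
    (blockGraph B).Adj v w ↔ v ≠ w ∧ Disjoint v.1 w.1 := by
  rw [blockGraph, SimpleGraph.fromRel_adj]
  constructor
  · rintro ⟨h, h1 | h1⟩
    · exact ⟨h, h1⟩
    · exact ⟨h, h1.symm⟩
  · rintro ⟨h, h1⟩
    exact ⟨h, Or.inl h1⟩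

theorem s3622_card (hα : Fintype.card α = 22) {B : Set (Finset α)}
    (hB : IsSteinerSystem 3 6 B) : B.ncard = 77 := by
  classical
  rw [← deg_empty]
  exact (s3622_deg hα hB ∅).1 rfl

theorem ne_of_disjoint_block {B : Set (Finset α)} (hB : IsSteinerSystem 3 6 B)
    {v w : B} (h : Disjoint v.1 w.1) : v ≠ w := by
  rintro rfl
  rw [disjoint_self_iff_empty] at h
  have := hB.1 v.1 v.2
  rw [h] at this
  simp at this

theorem blockGraph_neighbor (hα : Fintype.card α = 22) {B : Set (Finset α)}
    (hB : IsSteinerSystem 3 6 B) (v : B) : ((blockGraph B).neighborSet v).ncard = 16 := by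
  classical
  rw [ncard_sub B (fun d => Disjoint v.1 d) _ (fun d => by
    rw [SimpleGraph.mem_neighborSet, blockGraph_adj]
    exact ⟨fun h => h.2, fun h => ⟨ne_of_disjoint_block hB h, h⟩⟩)]
  rw [← ncard_setOf, ncard_disjoint]
  exact (s3622 hα hB v.2).1

theorem blockGraph_common (hα : Fintype.card α = 22) {B : Set (Finset α)}
    (hB : IsSteinerSystem 3 6 B) (v w : B) (hne : v ≠ w) :
    (Disjoint v.1 w.1 → ((blockGraph B).commonNeighbors v w).ncard = 0) ∧
    (¬ Disjoint v.1 w.1 → ((blockGraph B).commonNeighbors v w).ncard = 4) := by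
  classical
  have e : ((blockGraph B).commonNeighbors v w).ncard = cnt B ∅ (v.1 ∪ w.1) 0 := by
    rw [ncard_sub B (fun d => Disjoint (v.1 ∪ w.1) d) _ (fun d => by
      rw [SimpleGraph.mem_commonNeighbors, blockGraph_adj, blockGraph_adj, disjoint_union_left]
      exact ⟨fun h => ⟨h.1.2, h.2.2⟩, fun h => ⟨⟨ne_of_disjoint_block hB h.1, h.1⟩,
        ⟨ne_of_disjoint_block hB h.2, h.2⟩⟩⟩)]
    rw [← ncard_setOf, ncard_disjoint]
  rw [e]
  have hne' : v.1 ≠ w.1 := fun h => hne (Subtype.ext h)
  exact ⟨fun h => s3622_disjoint_pair hα hB v.2 w.2 h,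
    fun h => (s3622_meet_pair hα hB v.2 w.2 hne' h).2⟩

end Graph

end Steiner
end Cfsg.Agent.Lib.Helper4
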