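import Cfsg.Agent.Lib.Helper4.Steiner22

set_option autoImplicit false
set_option linter.unusedSectionVars false

namespace Cfsg.Agent.Lib.Helper4
namespace Steiner

open Finset

section PBG

variable {α : Type*} [Fintype α]

theorem pbg_nn (B : Set (Finset α)) : ¬ (pointBlockGraph B).Adj none none := by
  simp [pointBlockGraph]

theorem pbg_np (B : Set (Finset α)) (a : α) :
    (pointBlockGraph B).Adj none (some (Sum.inl a)) := by
  simp [pointBlockGraph, pointBlockRel]

theorem pbg_pn (B : Set (Finset α)) (a : α) :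
    (pointBlockGraph B).Adj (some (Sum.inl a)) none := (pbg_np B a).symm

theorem pbg_nb (B : Set (Finset α)) (b : B) :
    ¬ (pointBlockGraph B).Adj none (some (Sum.inr b)) := by
  simp [pointBlockGraph, pointBlockRel]

theorem pbg_bn (B : Set (Finset α)) (b : B) :
    ¬ (pointBlockGraph B).Adj (some (Sum.inr b)) none := fun h => pbg_nb B b h.symm

theorem pbg_pp (B : Set (Finset α)) (a a' : α) :
    ¬ (pointBlockGraph B).Adj (some (Sum.inl a)) (some (Sum.inl a')) := by
  simp [pointBlockGraph, pointBlockRel]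

theorem pbg_pb (B : Set (Finset α)) (a : α) (b : B) :
    (pointBlockGraph B).Adj (some (Sum.inl a)) (some (Sum.inr b)) ↔ a ∈ b.1 := by
  simp [pointBlockGraph, pointBlockRel]

theorem pbg_bp (B : Set (Finset α)) (a : α) (b : B) :
    (pointBlockGraph B).Adj (some (Sum.inr b)) (some (Sum.inl a)) ↔ a ∈ b.1 := by
  rw [SimpleGraph.adj_comm, pbg_pb]

theorem pbg_bb (B : Set (Finset α)) (b c : B) :
    (pointBlockGraph B).Adj (some (Sum.inr b)) (some (Sum.inr c)) ↔
      b ≠ c ∧ Disjoint b.1 c.1 := by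
  simp only [pointBlockGraph, SimpleGraph.fromRel_adj, pointBlockRel, ne_eq, Option.some.injEq,
    Sum.inr.injEq]
  constructor
  · rintro ⟨h, h1 | h1⟩
    · exact ⟨h, h1⟩
    · exact ⟨h, h1.symm⟩
  · rintro ⟨h, h1⟩
    exact ⟨h, Or.inl h1⟩

theorem pbg_neighbor (hα : Fintype.card α = 22) {B : Set (Finset α)}
    (hB : IsSteinerSystem 3 6 B) (v : Option (α ⊕ B)) :
    ((pointBlockGraph B).neighborSet v).ncard = 22 := by
  classical
  rcases v with _ | p | b
  · rw [ncard_opt_not_mem _ (by simp)]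
    have h1 : {a : α | some (Sum.inl a) ∈ (pointBlockGraph B).neighborSet none} = Set.univ := by
      ext a
      simp [pbg_np]
    have h2 : {b : B | some (Sum.inr b) ∈ (pointBlockGraph B).neighborSet none} = ∅ := by
      ext b
      simp [pbg_nb]
    rw [h1, h2, Set.ncard_univ, Nat.card_eq_fintype_card, hα, Set.ncard_empty]
  · rw [ncard_opt_mem _ (by simp [pbg_pn])]
    have h1 : {a : α | some (Sum.inl a) ∈
        (pointBlockGraph B).neighborSet (some (Sum.inl p))} = ∅ := by
      ext a
      simp [pbg_pp]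
    have h2 : {b : B | some (Sum.inr b) ∈
        (pointBlockGraph B).neighborSet (some (Sum.inl p))}.ncard = 21 := by
      rw [ncard_sub B (fun d => {p} ⊆ d) _ (fun d => by simp [pbg_pb])]
      exact (s3622_deg hα hB {p}).2.1 (card_singleton p)
    rw [h1, h2, Set.ncard_empty]
  · rw [ncard_opt_not_mem _ (by simp [pbg_bn])]
    have h1 : {a : α | some (Sum.inl a) ∈
        (pointBlockGraph B).neighborSet (some (Sum.inr b))}.ncard = 6 := by
      have : {a : α | some (Sum.inl a) ∈
          (pointBlockGraph B).neighborSet (some (Sum.inr b))} = (b.1 : Set α) := by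
        ext a
        simp [pbg_bp]
      rw [this, Set.ncard_coe_finset, hB.1 b.1 b.2]
    have h2 : {c : B | some (Sum.inr c) ∈
        (pointBlockGraph B).neighborSet (some (Sum.inr b))}.ncard = 16 := by
      rw [ncard_sub B (fun d => Disjoint b.1 d) _ (fun d => by
        simp only [Set.mem_ofPred_eq, SimpleGraph.mem_neighborSet, pbg_bb]
        exact ⟨fun h => h.2, fun h => ⟨ne_of_disjoint_block hB h, h⟩⟩)]
      rw [← ncard_setOf, ncard_disjoint]
      exact (s3622 hα hB b.2).1
    rw [h1, h2]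

theorem pbg_c_np (B : Set (Finset α)) (p : α) :
    ((pointBlockGraph B).commonNeighbors none (some (Sum.inl p))).ncard = 0 := by
  rw [ncard_opt_not_mem _ (by simp [SimpleGraph.mem_commonNeighbors])]
  have h1 : {a : α | some (Sum.inl a) ∈
      (pointBlockGraph B).commonNeighbors none (some (Sum.inl p))} = ∅ := by
    ext a
    simp [SimpleGraph.mem_commonNeighbors, pbg_pp]
  have h2 : {b : B | some (Sum.inr b) ∈
      (pointBlockGraph B).commonNeighbors none (some (Sum.inl p))} = ∅ := by
    ext b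
    simp [SimpleGraph.mem_commonNeighbors, pbg_nb]
  rw [h1, h2, Set.ncard_empty, Set.ncard_empty]

theorem pbg_c_nb {B : Set (Finset α)} (hB : IsSteinerSystem 3 6 B) (b : B) :
    ((pointBlockGraph B).commonNeighbors none (some (Sum.inr b))).ncard = 6 := by
  rw [ncard_opt_not_mem _ (by simp [SimpleGraph.mem_commonNeighbors])]
  have h1 : {a : α | some (Sum.inl a) ∈
      (pointBlockGraph B).commonNeighbors none (some (Sum.inr b))} = (b.1 : Set α) := by
    ext a
    simp [SimpleGraph.mem_commonNeighbors, pbg_np, pbg_bp]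
  have h2 : {c : B | some (Sum.inr c) ∈
      (pointBlockGraph B).commonNeighbors none (some (Sum.inr b))} = ∅ := by
    ext c
    simp [SimpleGraph.mem_commonNeighbors, pbg_nb]
  rw [h1, h2, Set.ncard_empty, Set.ncard_coe_finset, hB.1 b.1 b.2]

theorem pbg_c_pp (hα : Fintype.card α = 22) {B : Set (Finset α)}
    (hB : IsSteinerSystem 3 6 B) (p q : α) (hpq : p ≠ q) :
    ((pointBlockGraph B).commonNeighbors (some (Sum.inl p)) (some (Sum.inl q))).ncard = 6 := by
  classical
  rw [ncard_opt_mem _ (by simp [SimpleGraph.mem_commonNeighbors, pbg_pn])]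
  have h1 : {a : α | some (Sum.inl a) ∈
      (pointBlockGraph B).commonNeighbors (some (Sum.inl p)) (some (Sum.inl q))} = ∅ := by
    ext a
    simp [SimpleGraph.mem_commonNeighbors, pbg_pp]
  have h2 : {c : B | some (Sum.inr c) ∈
      (pointBlockGraph B).commonNeighbors (some (Sum.inl p)) (some (Sum.inl q))}.ncard = 5 := by
    rw [ncard_sub B (fun d => {p, q} ⊆ d) _ (fun d => by
      simp [SimpleGraph.mem_commonNeighbors, pbg_pb, insert_subset_iff])]
    exact (s3622_deg hα hB {p, q}).2.2.1 (card_pair hpq)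
  rw [h1, h2, Set.ncard_empty]

theorem pbg_c_pb (hα : Fintype.card α = 22) {B : Set (Finset α)}
    (hB : IsSteinerSystem 3 6 B) (p : α) (b : B) :
    (p ∈ b.1 →
      ((pointBlockGraph B).commonNeighbors (some (Sum.inl p)) (some (Sum.inr b))).ncard = 0) ∧
    (p ∉ b.1 →
      ((pointBlockGraph B).commonNeighbors (some (Sum.inl p)) (some (Sum.inr b))).ncard = 6) := by
  classical
  rw [ncard_opt_not_mem _ (by simp [SimpleGraph.mem_commonNeighbors, pbg_bn])]
  have h1 : {a : α | some (Sum.inl a) ∈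
      (pointBlockGraph B).commonNeighbors (some (Sum.inl p)) (some (Sum.inr b))} = ∅ := by
    ext a
    simp [SimpleGraph.mem_commonNeighbors, pbg_pp]
  rw [h1, Set.ncard_empty, zero_add]
  constructor
  · intro hp
    have h2 : {c : B | some (Sum.inr c) ∈
        (pointBlockGraph B).commonNeighbors (some (Sum.inl p)) (some (Sum.inr b))} = ∅ := by
      ext c
      simp only [Set.mem_ofPred_eq, SimpleGraph.mem_commonNeighbors, pbg_pb, pbg_bb,
        Set.mem_empty_iff_false, iff_false]
      rintro ⟨hpc, _, hd⟩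
      exact (Finset.disjoint_left.1 hd hp) hpc
    rw [h2, Set.ncard_empty]
  · intro hp
    rw [ncard_sub B (fun d => {p} ⊆ d ∧ (d ∩ b.1).card = 0) _ (fun d => by
      simp only [Set.mem_ofPred_eq, SimpleGraph.mem_commonNeighbors, pbg_pb, pbg_bb,
        singleton_subset_iff, card_eq_zero]
      rw [inter_comm, ← disjoint_iff_inter_eq_empty]
      exact ⟨fun h => ⟨h.1, h.2.2⟩, fun h => ⟨h.1, ne_of_disjoint_block hB h.2, h.2⟩⟩)]
    exact s3622_point_block hα hB b.2 hp

theorem pbg_c_bb (hα : Fintype.card α = 22) {B : Set (Finset α)}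
    (hB : IsSteinerSystem 3 6 B) (b c : B) (hne : b ≠ c) :
    (Disjoint b.1 c.1 →
      ((pointBlockGraph B).commonNeighbors (some (Sum.inr b)) (some (Sum.inr c))).ncard = 0) ∧
    (¬ Disjoint b.1 c.1 →
      ((pointBlockGraph B).commonNeighbors (some (Sum.inr b)) (some (Sum.inr c))).ncard = 6) := by
  classical
  rw [ncard_opt_not_mem _ (by simp [SimpleGraph.mem_commonNeighbors, pbg_bn])]
  have h1 : {a : α | some (Sum.inl a) ∈
      (pointBlockGraph B).commonNeighbors (some (Sum.inr b)) (some (Sum.inr c))}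
        = ((b.1 ∩ c.1 : Finset α) : Set α) := by
    ext a
    simp [SimpleGraph.mem_commonNeighbors, pbg_bp]
  have h2 : {d : B | some (Sum.inr d) ∈
      (pointBlockGraph B).commonNeighbors (some (Sum.inr b)) (some (Sum.inr c))}.ncard
        = cnt B ∅ (b.1 ∪ c.1) 0 := by
    rw [ncard_sub B (fun d => Disjoint (b.1 ∪ c.1) d) _ (fun d => by
      simp only [Set.mem_ofPred_eq, SimpleGraph.mem_commonNeighbors, pbg_bb, disjoint_union_left]
      exact ⟨fun h => ⟨h.1.2, h.2.2⟩, fun h => ⟨⟨ne_of_disjoint_block hB h.1, h.1⟩,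
        ⟨ne_of_disjoint_block hB h.2, h.2⟩⟩⟩)]
    rw [← ncard_setOf, ncard_disjoint]
  rw [h1, h2, Set.ncard_coe_finset]
  have hne' : b.1 ≠ c.1 := fun h => hne (Subtype.ext h)
  constructor
  · intro h
    rw [s3622_disjoint_pair hα hB b.2 c.2 h, disjoint_iff_inter_eq_empty.1 h, card_empty]
  · intro h
    obtain ⟨e1, e2⟩ := s3622_meet_pair hα hB b.2 c.2 hne' h
    rw [e1, e2]

theorem pbg_common (hα : Fintype.card α = 22) {B : Set (Finset α)}
    (hB : IsSteinerSystem 3 6 B) (v w : Option (α ⊕ B)) (hne : v ≠ w) :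
    ((pointBlockGraph B).Adj v w → ((pointBlockGraph B).commonNeighbors v w).ncard = 0) ∧
    (¬ (pointBlockGraph B).Adj v w → ((pointBlockGraph B).commonNeighbors v w).ncard = 6) := by
  rcases v with _ | p | b <;> rcases w with _ | q | c
  · exact absurd rfl hne
  · exact ⟨fun _ => pbg_c_np B q, fun h => absurd (pbg_np B q) h⟩
  · exact ⟨fun h => absurd h (pbg_nb B c), fun _ => pbg_c_nb hB c⟩
  · rw [SimpleGraph.commonNeighbors_symm]
    exact ⟨fun _ => pbg_c_np B p, fun h => absurd (pbg_pn B p) h⟩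
  · have hpq : p ≠ q := fun h => hne (by rw [h])
    exact ⟨fun h => absurd h (pbg_pp B p q), fun _ => pbg_c_pp hα hB p q hpq⟩
  · rw [pbg_pb]
    exact pbg_c_pb hα hB p c
  · rw [SimpleGraph.commonNeighbors_symm]
    exact ⟨fun h => absurd h (pbg_bn B b), fun _ => pbg_c_nb hB b⟩
  · rw [SimpleGraph.commonNeighbors_symm, pbg_bp]
    exact pbg_c_pb hα hB q b
  · have hbc : b ≠ c := fun h => hne (by rw [h])
    rw [pbg_bb]
    obtain ⟨h1, h2⟩ := pbg_c_bb hα hB b c hbc
    exact ⟨fun h => h1 h.2, fun h => h2 (fun hd => h ⟨hbc, hd⟩)⟩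

end PBG

end Steiner
end Cfsg.Agent.Lib.Helper4
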