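import Cfsg.Agent.Lib.Helper4.Stv9

set_option autoImplicit false

namespace Cfsg.Agent.Lib.Helper4
namespace Stv

open Cfsg Cfsg.Agent.Lib.Helper28 Cfsg.Agent.Lib.Helper4.Golay
open scoped Pointwise

theorem normC1a (w : leechLattice) (hn : sqNorm (w : GolayPt → ℤ) = 32)
    (hodd : ∀ i, (w : GolayPt → ℤ) i % 2 = 1) (ha : (w : GolayPt → ℤ) a = -3)
    (hb : (w : GolayPt → ℤ) b = 1) : RelV w uA := by
  obtain ⟨c, hc, i0, hw⟩ := odd_data w hn hodd
  have ea := hw a
  have eb := hw b
  have ha0 : a = i0 := by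
    by_contra h
    rw [if_neg h] at ea
    split_ifs at ea <;> omega
  have hb0 : b ≠ i0 := fun h' => ab (ha0.trans h'.symm)
  rw [if_pos ha0] at ea
  rw [if_neg hb0] at eb
  have hca : c a = 0 := by
    rcases z2_cases (c a) with h | h
    · exact h
    · exfalso
      rw [if_pos h] at ea
      omega
  have hcb : c b = 0 := by
    rcases z2_cases (c b) with h | h
    · exact h
    · exfalso
      rw [if_pos h] at eb
      omega
  have r := relV_sgn c hc hca hcb w
  have e : CoA.sgnP c hc w = uA := by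
    apply Subtype.ext
    funext k
    rw [CoA.sgnP_apply]
    unfold CoA.sgn
    have e2 : (uA : GolayPt → ℤ) k = if k = a then -3 else 1 := uA_val k
    rw [e2, hw k, ha0]
    split_ifs <;> ring
  rw [e] at r
  exact r

theorem normC1 (w : leechLattice) (hn : sqNorm (w : GolayPt → ℤ) = 32)
    (hd : (w : GolayPt → ℤ) a + (w : GolayPt → ℤ) b = -2)
    (hodd : ∀ i, (w : GolayPt → ℤ) i % 2 = 1)
    (h3 : (w : GolayPt → ℤ) a = -3 ∨ (w : GolayPt → ℤ) b = -3) : RelV w uA := by
  rcases h3 with h | h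
  · exact normC1a w hn hodd h (by omega)
  · obtain ⟨s, hs, sa, sb⟩ := exists_swap
    have r1 := relV_swap s hs sa sb w
    refine r1.trans (normC1a _ (by rw [r1.norm]; exact hn) (fun i => hodd (s i)) ?_ ?_)
    · show (w : GolayPt → ℤ) (s a) = -3
      rw [sa]
      exact h
    · show (w : GolayPt → ℤ) (s b) = 1
      rw [sb]
      omega

def c2m : ℕ := 18147

theorem c2_mem : word c2m ∈ golayCode := Xi.word_mem_of_red (by decide +kernel)

theorem c2_a : word c2m a = 1 := by decide

theorem c2_b : word c2m b = 1 := by decide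

/-- The standard odd vector of inner product -1 with both standard coordinates -1. -/
def tC2 : leechLattice := CoA.sgnP (word c2m) c2_mem Orb.cStar

theorem normC2 (w : leechLattice) (hn : sqNorm (w : GolayPt → ℤ) = 32)
    (hd : (w : GolayPt → ℤ) a + (w : GolayPt → ℤ) b = -2)
    (hodd : ∀ i, (w : GolayPt → ℤ) i % 2 = 1) (h1 : (w : GolayPt → ℤ) a = -1) :
    RelV w tC2 := by
  obtain ⟨c, hc, i0, hw⟩ := odd_data w hn hodd
  have ea := hw a
  have eb := hw b
  have hb1 : (w : GolayPt → ℤ) b = -1 := by omega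
  have ha0 : a ≠ i0 := by
    intro h
    rw [if_pos h] at ea
    split_ifs at ea <;> omega
  have hb0 : b ≠ i0 := by
    intro h
    rw [if_pos h] at eb
    split_ifs at eb <;> omega
  rw [if_neg ha0] at ea
  rw [if_neg hb0] at eb
  have hca : c a = 1 := by
    by_contra h
    rw [if_neg h] at ea
    omega
  have hcb : c b = 1 := by
    by_contra h
    rw [if_neg h] at eb
    omega
  obtain ⟨g, hg, ga, gb, gi⟩ := map3 a b none a b i0 (by decide) (by simp [ab, ha0, hb0])
  have r1 := relV_prm g hg ga gb w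
  have hc' : c ∘ g ∈ golayCode := Golay.comp_mem_of_mem_M24 hg hc
  have hw1 : ∀ k, ((CoA.prmP g hg w : leechLattice) : GolayPt → ℤ) k =
      if c (g k) = 1 then -((Orb.cStar : leechLattice) : GolayPt → ℤ) k
        else ((Orb.cStar : leechLattice) : GolayPt → ℤ) k := by
    intro k
    show (w : GolayPt → ℤ) (g k) = if c (g k) = 1 then -(if k = none then (-3 : ℤ) else 1)
      else (if k = none then (-3 : ℤ) else 1)
    rw [hw (g k)]
    have e : (g k = i0) ↔ (k = none) :=
      ⟨fun h => g.injective (h.trans gi.symm), fun h => by rw [h, gi]⟩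
    simp only [e]
  have hc'' : c ∘ g + word c2m ∈ golayCode := Submodule.add_mem _ hc' c2_mem
  have hca' : (c ∘ g + word c2m) a = 0 := by
    show c (g a) + word c2m a = 0
    rw [ga, hca, c2_a]
    decide
  have hcb' : (c ∘ g + word c2m) b = 0 := by
    show c (g b) + word c2m b = 0
    rw [gb, hcb, c2_b]
    decide
  have r2 := relV_sgn _ hc'' hca' hcb' (CoA.prmP g hg w)
  have e : CoA.sgnP _ hc'' (CoA.prmP g hg w) = tC2 := by
    apply Subtype.ext
    funext k
    rw [CoA.sgnP_apply]
    unfold CoA.sgn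
    show (if c (g k) + word c2m k = 1 then
        -((CoA.prmP g hg w : leechLattice) : GolayPt → ℤ) k
      else ((CoA.prmP g hg w : leechLattice) : GolayPt → ℤ) k) =
      (if word c2m k = 1 then -((Orb.cStar : leechLattice) : GolayPt → ℤ) k
        else ((Orb.cStar : leechLattice) : GolayPt → ℤ) k)
    rw [hw1 k, sgn_comb]
  rw [e] at r2
  exact r1.trans r2

def sB3L : List ℤ := [0, 0, 0, -2, 2, -2, 0, 0, 0, 2, 0, 0, 0, 2, 0, 0, 0, 0, 0, -2, 2, -2, 0, 0]

set_option maxRecDepth 100000 in
theorem sB3_chk : Xi.inD (fun k => 2 * Orb.vecL sB3L k) 0 3678776 := by decide +kernel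

def sB3 : leechLattice := ⟨Orb.vecL sB3L, Orb.mem_of_double _ 0 3678776 sB3_chk⟩

set_option maxRecDepth 100000 in
theorem sB3_norm : sqNorm (sB3 : GolayPt → ℤ) = 32 := by decide +kernel

set_option maxRecDepth 100000 in
theorem uA_norm : sqNorm (uA : GolayPt → ℤ) = 32 := by decide +kernel

set_option maxRecDepth 100000 in
theorem uA_chk2 : Orb.vecL uAL a + Orb.vecL uAL b = -2 ∧ G1 (Orb.vecL uAL) (some 0) % 8 = 4 := by
  decide +kernel

set_option maxRecDepth 100000 in
theorem sB3_chk2 : Orb.vecL sB3L (some 3) % 4 = 2 ∧ Orb.vecL sB3L a + Orb.vecL sB3L b = -2 ∧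
    (∀ i, G1 (Orb.vecL sB3L) i % 4 = 2) ∧ G1 (Orb.vecL sB3L) a = -2 := by decide +kernel

theorem link2CB : RelV uA tB3 := by
  have hd : (uA : GolayPt → ℤ) a + (uA : GolayPt → ℤ) b = -2 := uA_chk2.1
  have s2 : RelV (g1 uA) tB3 := by
    apply normB2' (g1 uA) (by rw [g1_norm]; exact uA_norm) (by rw [g1_dot]; exact hd) (some 0)
    have h1 := g1_coord uA (some 0)
    have h2 : G1 (uA : GolayPt → ℤ) (some 0) % 8 = 4 := uA_chk2.2
    omega
  exact (relV_g1 uA).trans s2

theorem link2BC : RelV tB3 tC2 := by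
  have hd : (sB3 : GolayPt → ℤ) a + (sB3 : GolayPt → ℤ) b = -2 := sB3_chk2.2.1
  have s1 : RelV sB3 tB3 := normB2' sB3 sB3_norm hd (some 3) sB3_chk2.1
  have s2 : RelV (g1 sB3) tC2 := by
    apply normC2 (g1 sB3) (by rw [g1_norm]; exact sB3_norm) (by rw [g1_dot]; exact hd)
    · intro i
      have h1 := g1_coord sB3 i
      have h2 : G1 (sB3 : GolayPt → ℤ) i % 4 = 2 := sB3_chk2.2.2.1 i
      omega
    · have h1 := g1_coord sB3 a
      have h2 : G1 (sB3 : GolayPt → ℤ) a = -2 := sB3_chk2.2.2.2
      omega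
  exact s1.symm.trans ((relV_g1 sB3).trans s2)

/-- All minimal vectors with inner product -8 with the standard one are in one orbit of its
stabiliser. -/
theorem all_rel2 (w : leechLattice) (hn : sqNorm (w : GolayPt → ℤ) = 32)
    (hd : (w : GolayPt → ℤ) a + (w : GolayPt → ℤ) b = -2) : RelV w tB3 := by
  obtain ⟨bb, c, hc, h1⟩ := Orb.min_data w hn
  cases bb
  · rw [Cnt.pz_false] at h1
    by_cases hex : ∃ i0, c i0 = 1
    · obtain ⟨i0, hi0⟩ := hex
      have h2 : (w : GolayPt → ℤ) i0 % 4 = 2 := by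
        have := h1 i0
        rw [if_pos hi0] at this
        omega
      exact normB2' w hn hd i0 h2
    · exfalso
      push Not at hex
      have ha := h1 a
      have hb := h1 b
      rw [if_neg (hex a)] at ha
      rw [if_neg (hex b)] at hb
      omega
  · rw [Cnt.pz_true] at h1
    have hodd : ∀ i, (w : GolayPt → ℤ) i % 2 = 1 := by
      intro i
      have := h1 i
      split_ifs at this <;> omega
    obtain ⟨c', -, i0, hw⟩ := odd_data w hn hodd
    have ea := hw a
    have eb := hw b
    have hcase : ((w : GolayPt → ℤ) a = -3 ∨ (w : GolayPt → ℤ) b = -3) ∨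
        (w : GolayPt → ℤ) a = -1 := by
      split_ifs at ea eb <;> omega
    rcases hcase with h3 | h3
    · exact (normC1 w hn hd hodd h3).trans link2CB
    · exact (normC2 w hn hd hodd h3).trans link2BC.symm

/-- The stabiliser of a minimal vector is transitive on the minimal vectors of inner product
-8 with it. -/
theorem stab_m8 (v w w' : leechLattice) (hv : sqNorm (v : GolayPt → ℤ) = 32)
    (hw : sqNorm (w : GolayPt → ℤ) = 32) (hw' : sqNorm (w' : GolayPt → ℤ) = 32)
    (hd : dotInt (v : GolayPt → ℤ) (w : GolayPt → ℤ) = -8)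
    (hd' : dotInt (v : GolayPt → ℤ) (w' : GolayPt → ℤ) = -8) :
    ∃ g : Co0, g • v = v ∧ g • w = w' :=
  stab_transfer (-2) (fun x y hx hy dx dy => (all_rel2 x hx dx).trans (all_rel2 y hy dy).symm)
    v w w' hv hw hw' (by rw [hd]; norm_num) (by rw [hd']; norm_num)

end Stv
end Cfsg.Agent.Lib.Helper4
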