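import Cfsg.Agent.Lib.Helper4.Suz10

set_option autoImplicit false

namespace Cfsg.Agent.Lib.Helper4
namespace Suz

open Matrix
open scoped Pointwise

variable {F : Type*} [Field F] (D : Dat F)

theorem Dat.uMat_mulVec (a b x0 x1 x2 x3 : F) :
    D.uMat a b *ᵥ ![x0, x1, x2, x3] =
      ![x0 + a * x1 + (b + a * D.σ a) * x2 + D.f a b * x3, x1 + D.σ a * x2 + b * x3,
        x2 + a * x3, x3] := by
  ext i
  fin_cases i <;> simp [Matrix.mulVec, dotProduct, Fin.sum_univ_four, Dat.uMat]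

theorem Dat.hMat_mulVec (k : Fˣ) (x0 x1 x2 x3 : F) :
    D.hMat k *ᵥ ![x0, x1, x2, x3] =
      ![(k : F) * D.τ k * x0, D.τ k * x1, (D.τ k)⁻¹ * x2, ((k : F) * D.τ k)⁻¹ * x3] := by
  ext i
  fin_cases i <;> simp [Matrix.mulVec, dotProduct, Fin.sum_univ_four, Dat.hMat]

theorem wMat_mulVec (x0 x1 x2 x3 : F) :
    wMat F *ᵥ ![x0, x1, x2, x3] = ![x3, x2, x1, x0] := by
  ext i
  fin_cases i <;> simp [Matrix.mulVec, dotProduct, Fin.sum_univ_four, wMat]

theorem e1_ne : (![0, 1, 0, 0] : Fin 4 → F) ≠ 0 := fun h => by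
  have := congrFun h 1
  simp at this

/-- A point off the ovoid. -/
def ext0 (F : Type*) [Field F] : Projectivization F (Fin 4 → F) :=
  Projectivization.mk F ![0, 1, 0, 0] e1_ne

theorem Dat.ext0_not_mem : ext0 F ∉ D.ovoid := by
  rintro (h | ⟨x, y, h⟩)
  · rw [ext0, inf, Projectivization.mk_eq_mk_iff'] at h
    obtain ⟨a, ha⟩ := h
    have h1 := congrFun ha 1
    simp at h1
  · rw [ext0, Dat.pt, Projectivization.mk_eq_mk_iff'] at h
    obtain ⟨a, ha⟩ := h
    have h3 := congrFun ha 3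
    have h1 := congrFun ha 1
    simp [Dat.vec] at h1 h3
    rw [h3] at h1
    simp at h1

theorem Dat.uh_ext0 (b : F) (k : Fˣ) : (D.u 0 b * D.h k) • ext0 F = ext0 F := by
  apply smul_mk_eq _ _ _ (D.τ k)
  show (D.uMat 0 b * D.hMat k) *ᵥ ![0, 1, 0, 0] = _
  rw [← Matrix.mulVec_mulVec, D.hMat_mulVec, D.uMat_mulVec]
  ext i
  fin_cases i <;> simp

theorem Dat.stab_ext0 [Finite F] (hI : D.Indep) {g : SpecialLinearGroup (Fin 4) F}
    (hg : g ∈ D.G) (h : g • ext0 F = ext0 F) : ∃ b k, g = D.u 0 b * D.h k := by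
  obtain ⟨c, hc⟩ := exists_of_smul_mk_eq g e1_ne e1_ne h
  rcases D.cases hI hg with ⟨a, b, k, rfl⟩ | ⟨a, b, c', d, k, rfl⟩
  · have e : (D.u a b * D.h k).1 *ᵥ ![0, 1, 0, 0] =
        D.uMat a b *ᵥ (D.hMat k *ᵥ ![0, 1, 0, 0]) := by
      rw [Matrix.mulVec_mulVec]
      rfl
    rw [e, D.hMat_mulVec, D.uMat_mulVec] at hc
    have h0 := congrFun hc 0
    simp at h0
    subst h0
    exact ⟨b, k, rfl⟩
  · exfalso
    have e : (D.u a b * w F * D.u c' d * D.h k).1 *ᵥ ![0, 1, 0, 0] =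
        D.uMat a b *ᵥ (wMat F *ᵥ (D.uMat c' d *ᵥ (D.hMat k *ᵥ ![0, 1, 0, 0]))) := by
      rw [Matrix.mulVec_mulVec, Matrix.mulVec_mulVec, Matrix.mulVec_mulVec]
      rfl
    rw [e, D.hMat_mulVec, D.uMat_mulVec, wMat_mulVec, D.uMat_mulVec] at hc
    have h3 := congrFun hc 3
    have h2 := congrFun hc 2
    simp at h2 h3
    rw [h3] at h2
    simp at h2


theorem Dat.card_stab_ext0 [Fintype F] (hI : D.Indep) :
    Nat.card (MulAction.stabilizer D.G (ext0 F)) =
      Fintype.card F * (Fintype.card F - 1) := by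
  classical
  have hbij : Function.Bijective (fun p : F × Fˣ =>
      (⟨⟨D.u 0 p.1 * D.h p.2, D.uh_mem _ _ _⟩, D.uh_ext0 _ _⟩ :
        MulAction.stabilizer D.G (ext0 F))) := by
    constructor
    · rintro ⟨b, k⟩ ⟨b', k'⟩ e
      have e' : D.u 0 b * D.h k = D.u 0 b' * D.h k' :=
        congrArg (fun x : MulAction.stabilizer D.G (ext0 F) => (x.1.1 :
          SpecialLinearGroup (Fin 4) F)) e
      obtain ⟨-, rfl, rfl⟩ := D.uh_inj e'
      rfl
    · rintro ⟨⟨g, hg⟩, hfix⟩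
      obtain ⟨b, k, rfl⟩ := D.stab_ext0 hI hg hfix
      exact ⟨⟨b, k⟩, rfl⟩
  rw [← Nat.card_congr (Equiv.ofBijective _ hbij), Nat.card_prod,
    Nat.card_eq_fintype_card, Nat.card_eq_fintype_card, Fintype.card_units]

theorem Dat.orbit_ext0 [Fintype F] (hI : D.Indep) :
    MulAction.orbit D.G (ext0 F) = D.ovoidᶜ := by
  classical
  have hq : 1 < Fintype.card F := Fintype.one_lt_card
  have hsub : MulAction.orbit D.G (ext0 F) ⊆ D.ovoidᶜ := by
    rintro p ⟨g, rfl⟩ hp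
    apply D.ext0_not_mem
    have h1 := D.smul_mem (D.G.inv_mem g.2) hp
    have h2 : (g.1)⁻¹ • (g • ext0 F) = ext0 F := inv_smul_smul g.1 (ext0 F)
    rw [h2] at h1
    exact h1
  refine Set.eq_of_subset_of_ncard_le hsub ?_ (Set.toFinite _)
  have h1 := card_orbit_mul_stab' (G := D.G) (ext0 F)
  rw [D.card_G hI, D.card_stab_ext0 hI] at h1
  have h2 := Set.ncard_add_ncard_compl D.ovoid
  rw [D.card_ovoid, Projectivization.card_of_finrank F (Fin 4 → F) (n := 4) (by simp)] at h2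
  simp only [Finset.sum_range_succ, Finset.sum_range_zero, Nat.card_eq_fintype_card] at h2
  have h3 : (MulAction.orbit D.G (ext0 F)).ncard = Fintype.card F * (Fintype.card F ^ 2 + 1) := by
    have hpos : 0 < Fintype.card F * (Fintype.card F - 1) :=
      Nat.mul_pos (by omega) (by omega)
    apply Nat.eq_of_mul_eq_mul_right hpos
    rw [← h1]
    ring
  rw [h3]
  have h4 : D.ovoidᶜ.ncard = Fintype.card F + Fintype.card F ^ 3 := by
    have : Fintype.card F ^ 2 + 1 + D.ovoidᶜ.ncard =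
        Fintype.card F ^ 2 + 1 + (Fintype.card F + Fintype.card F ^ 3) := by
      rw [h2]
      ring
    exact Nat.add_left_cancel this
  rw [h4]
  apply le_of_eq
  ring

theorem Dat.no_eigen [Fintype F] (hI : D.Indep) {z : SpecialLinearGroup (Fin 4) F}
    (hz : z ∈ D.G) (hfix : ∀ p ∈ D.ovoid, z • p ≠ p) (v : Fin 4 → F) (hv : v ≠ 0) (c : F) :
    z.1 *ᵥ v ≠ c • v := by
  intro h
  have hP : z • Projectivization.mk F v hv = Projectivization.mk F v hv :=
    smul_mk_eq z hv hv c h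
  by_cases hmem : Projectivization.mk F v hv ∈ D.ovoid
  · exact hfix _ hmem hP
  · have hmem' : Projectivization.mk F v hv ∈ MulAction.orbit D.G (ext0 F) := by
      rw [D.orbit_ext0 hI]
      exact hmem
    obtain ⟨t, ht⟩ := hmem'
    have ht' : t.1 • ext0 F = Projectivization.mk F v hv := ht
    have hfix0 : (t.1⁻¹ * z * t.1) • ext0 F = ext0 F := by
      rw [mul_smul, mul_smul, ht', hP, ← ht', inv_smul_smul]
    obtain ⟨b, k, e⟩ := D.stab_ext0 hI
      (D.G.mul_mem (D.G.mul_mem (D.G.inv_mem t.2) hz) t.2) hfix0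
    have hinf : (t.1⁻¹ * z * t.1) • inf F = inf F := by
      rw [e]
      exact D.uh_inf 0 b k
    apply hfix (t.1 • inf F) (D.smul_mem t.2 D.inf_mem)
    rw [mul_smul, mul_smul, inv_smul_eq_iff] at hinf
    exact hinf

end Suz
end Cfsg.Agent.Lib.Helper4
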