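import Mathlib

set_option autoImplicit false

namespace Cfsg.Agent.Lib.Helper4
namespace Suz

open Matrix

/-- An endo-function of `p`-power order on a finite type with exactly one fixed point: the
cardinality is `1` modulo `p`. -/
theorem card_modEq_one_of_unique_fixed {α : Type*} [Finite α] {p j : ℕ} [Fact p.Prime]
    (f : Function.End α) (hf : f ^ p ^ j = 1) (a0 : α) (h0 : f a0 = a0)
    (huniq : ∀ a, f a = a → a = a0) : Nat.card α ≡ 1 [MOD p] := by
  classical
  letI : Fintype α := Fintype.ofFinite α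
  have h := Equiv.Perm.card_fixedPoints_modEq (f := f) hf
  have h1 : Nat.card (Function.fixedPoints f) = 1 := by
    rw [Nat.card_eq_one_iff_unique]
    exact ⟨⟨fun x y => Subtype.ext ((huniq x.1 x.2).trans (huniq y.1 y.2).symm)⟩, ⟨⟨a0, h0⟩⟩⟩
  rw [Fintype.card_eq_nat_card, Fintype.card_eq_nat_card, h1] at h
  exact h

/-- An endo-function of `p`-power order on a finite type without fixed points: the
cardinality is divisible by `p`. -/
theorem dvd_card_of_no_fixed {α : Type*} [Finite α] {p j : ℕ} [Fact p.Prime]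
    (f : Function.End α) (hf : f ^ p ^ j = 1) (hfix : ∀ a, f a ≠ a) : p ∣ Nat.card α := by
  classical
  letI : Fintype α := Fintype.ofFinite α
  have h := Equiv.Perm.card_fixedPoints_modEq (f := f) hf
  have h1 : Nat.card (Function.fixedPoints f) = 0 := by
    haveI : IsEmpty (Function.fixedPoints f) := ⟨fun y => hfix y.1 y.2⟩
    exact Nat.card_of_isEmpty
  rw [Fintype.card_eq_nat_card, Fintype.card_eq_nat_card, h1] at h
  exact (Nat.modEq_zero_iff_dvd).1 h

variable {F : Type*} [Field F] [Fintype F]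

/-- A matrix of `p`-power order without nonzero fixed vectors, where `p` divides none of
`q - 1`, `q ^ 2 - 1`, `q ^ 3 - 1`: every nonzero matrix commuting with it is injective. -/
theorem ker_eq_bot_of_comm {p j : ℕ} [Fact p.Prime] (M : Matrix (Fin 4) (Fin 4) F)
    (hM : M ^ p ^ j = 1) (hfix : ∀ v, M *ᵥ v = v → v = 0)
    (hp : ∀ d, 0 < d → d < 4 → ¬ (Fintype.card F ^ d ≡ 1 [MOD p]))
    (x : Matrix (Fin 4) (Fin 4) F) (hx : x * M = M * x) (hx0 : x ≠ 0) (v : Fin 4 → F)
    (hv : x *ᵥ v = 0) : v = 0 := by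
  classical
  by_contra hv0
  let K : Submodule F (Fin 4 → F) := LinearMap.ker x.mulVecLin
  have hK : ∀ w : Fin 4 → F, w ∈ K ↔ x *ᵥ w = 0 := fun w => by
    show x.mulVecLin w = 0 ↔ _
    rw [Matrix.mulVecLin_apply]
  have hinv : ∀ w : K, M *ᵥ w.1 ∈ K := fun w => by
    rw [hK, Matrix.mulVec_mulVec, hx, ← Matrix.mulVec_mulVec, (hK w.1).1 w.2, Matrix.mulVec_zero]
  let f : Function.End K := fun w => ⟨M *ᵥ w.1, hinv w⟩
  have hpow : ∀ (n : ℕ) (w : K), ((f ^ n) w).1 = (M ^ n) *ᵥ w.1 := by
    intro n
    induction n with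
    | zero =>
      intro w
      rw [pow_zero, pow_zero, Matrix.one_mulVec]
      rfl
    | succ n ih =>
      intro w
      rw [pow_succ', pow_succ']
      show M *ᵥ ((f ^ n) w).1 = _
      rw [ih, Matrix.mulVec_mulVec]
  have hf : f ^ p ^ j = 1 := by
    funext w
    apply Subtype.ext
    rw [hpow, hM, Matrix.one_mulVec]
    rfl
  have hcard := card_modEq_one_of_unique_fixed f hf 0
    (Subtype.ext (by show M *ᵥ (0 : Fin 4 → F) = 0; rw [Matrix.mulVec_zero]))
    (fun a ha => Subtype.ext (hfix a.1 (congrArg Subtype.val ha)))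
  rw [Module.natCard_eq_pow_finrank (K := F) (V := K), Nat.card_eq_fintype_card] at hcard
  refine hp (Module.finrank F K) ?_ ?_ hcard
  · rw [Nat.pos_iff_ne_zero, Ne, Submodule.finrank_eq_zero]
    intro hbot
    apply hv0
    have : v ∈ K := (hK v).2 hv
    rw [hbot] at this
    exact (Submodule.mem_bot F).1 this
  · have hne : K ≠ ⊤ := by
      intro htop
      apply hx0
      apply Matrix.mulVec_injective
      funext w
      have : w ∈ K := by rw [htop]; exact Submodule.mem_top
      rw [(hK w).1 this, Matrix.zero_mulVec]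
    have := Submodule.finrank_lt hne
    rw [Module.finrank_fin_fun] at this
    exact this

/-- Under the hypotheses of `ker_eq_bot_of_comm`, the centraliser of the matrix is a domain. -/
theorem centralizer_isDomain {p j : ℕ} [Fact p.Prime] (M : Matrix (Fin 4) (Fin 4) F)
    (hM : M ^ p ^ j = 1) (hfix : ∀ v, M *ᵥ v = v → v = 0)
    (hp : ∀ d, 0 < d → d < 4 → ¬ (Fintype.card F ^ d ≡ 1 [MOD p])) :
    IsDomain (Subring.centralizer ({M} : Set (Matrix (Fin 4) (Fin 4) F))) := by
  have : NoZeroDivisors (Subring.centralizer ({M} : Set (Matrix (Fin 4) (Fin 4) F))) := by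
    refine ⟨fun {a b} hab => ?_⟩
    by_contra hcon
    push Not at hcon
    obtain ⟨ha, hb⟩ := hcon
    apply hb
    apply Subtype.ext
    have ha' : a.1 ≠ 0 := fun h => ha (Subtype.ext h)
    have hab' : a.1 * b.1 = 0 := congrArg Subtype.val hab
    have hcomm : a.1 * M = M * a.1 :=
      (Subring.mem_centralizer_iff.1 a.2 M rfl).symm
    apply Matrix.mulVec_injective
    funext w
    show b.1 *ᵥ w = (0 : Matrix (Fin 4) (Fin 4) F) *ᵥ w
    rw [Matrix.zero_mulVec]
    apply ker_eq_bot_of_comm M hM hfix hp a.1 hcomm ha'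
    rw [Matrix.mulVec_mulVec, hab', Matrix.zero_mulVec]
  exact NoZeroDivisors.to_isDomain _

/-- A finite group embedding multiplicatively into a finite domain is cyclic. -/
theorem isCyclic_of_inj_finite_domain {R G : Type*} [Ring R] [Finite R] [IsDomain R] [Group G]
    [Finite G] (f : G →* R) (hf : Function.Injective f) : IsCyclic G := by
  letI : Field R := (Finite.isDomain_to_isField R).toField
  exact isCyclic_of_injective_ringHom f hf

/-- A finite group embedding into `SL₄` with image commuting with a matrix whose centraliser is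
a domain is cyclic. -/
theorem cyclic_of_central {G : Type*} [Group G] [Finite G]
    (φ : G →* SpecialLinearGroup (Fin 4) F) (hφ : Function.Injective φ)
    (M : Matrix (Fin 4) (Fin 4) F) (hH : ∀ g, M * (φ g).1 = (φ g).1 * M)
    (hdom : IsDomain (Subring.centralizer ({M} : Set (Matrix (Fin 4) (Fin 4) F)))) :
    IsCyclic G := by
  let f : G →* Subring.centralizer ({M} : Set (Matrix (Fin 4) (Fin 4) F)) :=
    { toFun := fun g => ⟨(φ g).1, Subring.mem_centralizer_iff.2 (fun x hx => by
        rw [Set.mem_singleton_iff.1 hx]; exact hH g)⟩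
      map_one' := Subtype.ext (by simp)
      map_mul' := fun a b => Subtype.ext (by simp) }
  have hf : Function.Injective f := fun a b hab => by
    have h : (f a).1 = (f b).1 := congrArg Subtype.val hab
    exact hφ (Subtype.ext h)
  exact isCyclic_of_inj_finite_domain f hf

/-- Elements of `SL₄` commuting with a matrix whose centraliser is a domain commute. -/
theorem comm_of_central (M : Matrix (Fin 4) (Fin 4) F)
    (hdom : IsDomain (Subring.centralizer ({M} : Set (Matrix (Fin 4) (Fin 4) F))))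
    {x y : SpecialLinearGroup (Fin 4) F} (hx : M * x.1 = x.1 * M) (hy : M * y.1 = y.1 * M) :
    x * y = y * x := by
  have hmem : ∀ g : Matrix (Fin 4) (Fin 4) F, M * g = g * M →
      g ∈ Subring.centralizer ({M} : Set (Matrix (Fin 4) (Fin 4) F)) := fun g hg =>
    Subring.mem_centralizer_iff.2 (fun z hz => by rw [Set.mem_singleton_iff.1 hz]; exact hg)
  have h := (Finite.isDomain_to_isField
    (Subring.centralizer ({M} : Set (Matrix (Fin 4) (Fin 4) F)))).mul_comm
    ⟨x.1, hmem _ hx⟩ ⟨y.1, hmem _ hy⟩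
  apply Subtype.ext
  have h' : x.1 * y.1 = y.1 * x.1 := congrArg Subtype.val h
  exact h'

/-- For an odd prime `p` dividing `q ^ 2 + 1`, none of `q`, `q ^ 2`, `q ^ 3` is `1` mod `p`. -/
theorem not_modEq_of_dvd {p q : ℕ} [Fact p.Prime] (hp2 : p ≠ 2) (hdvd : p ∣ q ^ 2 + 1) :
    ∀ d, 0 < d → d < 4 → ¬ (q ^ d ≡ 1 [MOD p]) := by
  intro d hd0 hd4 h
  have h1 : ((q : ZMod p)) ^ 2 + 1 = 0 := by
    have := (ZMod.natCast_eq_zero_iff (q ^ 2 + 1) p).2 hdvd
    push_cast at this
    exact this
  have h2 : (2 : ZMod p) ≠ 0 := by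
    intro h2
    have h3 : ((2 : ℕ) : ZMod p) = 0 := by exact_mod_cast h2
    rw [ZMod.natCast_eq_zero_iff] at h3
    exact hp2 ((Nat.prime_dvd_prime_iff_eq (Fact.out : p.Prime) Nat.prime_two).1 h3)
  have h4 : ((q : ZMod p)) ^ d = 1 := by
    have := (ZMod.natCast_eq_natCast_iff (q ^ d) 1 p).2 h
    push_cast at this
    exact this
  have hsq : ((q : ZMod p)) ^ 2 ≠ 1 := by
    intro hsq
    apply h2
    rw [hsq] at h1
    rw [← h1]
    ring
  interval_cases d
  · apply hsq
    rw [pow_one] at h4
    rw [h4]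
    ring
  · exact hsq h4
  · apply hsq
    have h5 : (q : ZMod p) = -1 := by
      have : (q : ZMod p) ^ 3 = (q : ZMod p) * ((q : ZMod p) ^ 2 + 1) - q := by ring
      rw [h1, mul_zero, zero_sub] at this
      rw [this] at h4
      rw [← h4]
      ring
    rw [h5]
    ring

end Suz
end Cfsg.Agent.Lib.Helper4
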