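import Cfsg.Agent.Lib.Helper4.Suz11
import Cfsg.Agent.Lib.Helper4.Suz12

set_option autoImplicit false

namespace Cfsg.Agent.Lib.Helper4
namespace Suz

open Matrix
open scoped Pointwise

/-- Sylow subgroups are cyclic when a cyclic subgroup has index prime to `p`. -/
theorem sylow_cyclic_of_cyclic_le {G : Type*} [Group G] [Finite G] {p : ℕ} [Fact p.Prime]
    (H : Subgroup G) [IsCyclic H] (hH : ¬ p ∣ H.index) (P : Sylow p G) : IsCyclic P := by
  obtain ⟨Q0⟩ : Nonempty (Sylow p H) := inferInstance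
  have hcard : Nat.card ((Q0 : Subgroup H).map H.subtype) =
      p ^ (Nat.card G).factorization p := by
    rw [Subgroup.card_map_of_injective H.subtype_injective, Q0.card_eq_multiplicity,
      ← H.card_mul_index, Nat.factorization_mul (Nat.card_pos.ne') (H.index_ne_zero_of_finite),
      Finsupp.add_apply, Nat.factorization_eq_zero_of_not_dvd hH, add_zero]
  have e : P ≃* ((Q0 : Subgroup H).map H.subtype) :=
    Sylow.equiv P (Sylow.ofCard _ hcard)
  have e2 : (Q0 : Subgroup H) ≃* ((Q0 : Subgroup H).map H.subtype) :=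
    Subgroup.equivMapOfInjective _ _ H.subtype_injective
  have hc : IsCyclic ((Q0 : Subgroup H).map H.subtype) :=
    isCyclic_of_surjective e2 e2.surjective
  exact isCyclic_of_surjective e.symm e.symm.surjective

variable {F : Type*} [Field F] (D : Dat F)

/-- The torus as a homomorphism into the group. -/
def Dat.hHom [Finite F] : Fˣ →* D.G where
  toFun k := ⟨D.h k, D.h_mem k⟩
  map_one' := Subtype.ext D.h_one
  map_mul' k k' := Subtype.ext (D.h_mul k k')

theorem Dat.hHom_injective [Finite F] : Function.Injective D.hHom := fun k k' h =>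
  D.h_inj (congrArg Subtype.val h)

theorem Dat.card_hHom_range [Fintype F] :
    Nat.card D.hHom.range = Fintype.card F - 1 := by
  classical
  rw [← Nat.card_congr (MonoidHom.ofInjective D.hHom_injective).toEquiv,
    Nat.card_eq_fintype_card, Fintype.card_units]

/-- A nontrivial element of `p`-power order, `p` prime to `q (q - 1)`, has no fixed point on
the ovoid. -/
theorem Dat.no_fix_of_pow [Fintype F] (hI : D.Indep) {p j : ℕ} (hp : p.Prime)
    (hq : ¬ p ∣ Fintype.card F) (hq1 : ¬ p ∣ Fintype.card F - 1)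
    {z : SpecialLinearGroup (Fin 4) F} (hz : z ∈ D.G) (hz1 : z ≠ 1) (hzp : z ^ p ^ j = 1) :
    ∀ P0 ∈ D.ovoid, z • P0 ≠ P0 := by
  intro P0 hP0 hfix
  obtain ⟨t, ht, e⟩ := D.exists_to_inf hP0
  have hmem : t * z * t⁻¹ ∈ D.G := D.G.mul_mem (D.G.mul_mem ht hz) (D.G.inv_mem ht)
  have hst : (⟨t * z * t⁻¹, hmem⟩ : D.G) ∈ MulAction.stabilizer D.G (inf F) := by
    show (t * z * t⁻¹) • inf F = inf F
    rw [mul_smul, mul_smul, ← e, inv_smul_smul, hfix]
  let z' : MulAction.stabilizer D.G (inf F) := ⟨⟨t * z * t⁻¹, hmem⟩, hst⟩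
  have hz' : z' ^ p ^ j = 1 := by
    apply Subtype.ext
    apply Subtype.ext
    show (t * z * t⁻¹) ^ p ^ j = 1
    rw [conj_pow, hzp, mul_one, mul_inv_cancel]
  have h1 : orderOf z' ∣ p ^ j := orderOf_dvd_of_pow_eq_one hz'
  have h2 : orderOf z' ∣ Fintype.card F ^ 2 * (Fintype.card F - 1) := by
    rw [← D.card_stab_inf hI]
    exact orderOf_dvd_natCard z'
  have hcop : Nat.Coprime (p ^ j) (Fintype.card F ^ 2 * (Fintype.card F - 1)) := by
    apply Nat.Coprime.pow_left
    rw [Nat.Prime.coprime_iff_not_dvd hp]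
    intro hd
    rcases (Nat.Prime.dvd_mul hp).1 hd with hd | hd
    · exact hq (hp.dvd_of_dvd_pow hd)
    · exact hq1 hd
  have h3 : orderOf z' = 1 := Nat.eq_one_of_dvd_coprimes hcop h1 h2
  rw [orderOf_eq_one_iff] at h3
  have h4 : t * z * t⁻¹ = 1 := congrArg (fun x : MulAction.stabilizer D.G (inf F) => x.1.1) h3
  apply hz1
  have h5 : z = t⁻¹ * (t * z * t⁻¹) * t := by group
  rw [h5, h4]
  group

/-- Sylow subgroups of the Suzuki group for odd primes are cyclic. -/
theorem Dat.sylow_odd [Fintype F] (hI : D.Indep) (n : ℕ) (hq : Fintype.card F = 2 ^ (n + 1))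
    {p : ℕ} [hpf : Fact p.Prime] (hp : p ≠ 2) (P : Sylow p D.G) : IsCyclic P := by
  classical
  have hpq : ¬ p ∣ Fintype.card F := by
    intro hd
    rw [hq] at hd
    exact hp ((Nat.prime_dvd_prime_iff_eq hpf.out Nat.prime_two).1 (hpf.out.dvd_of_dvd_pow hd))
  by_cases hdvd : p ∣ Fintype.card F ^ 2 + 1
  · by_cases htriv : Subsingleton P
    · exact isCyclic_of_subsingleton
    · rw [not_subsingleton_iff_nontrivial] at htriv
      haveI := htriv
      haveI : Nontrivial (Subgroup.center P) := P.isPGroup'.center_nontrivial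
      obtain ⟨zc, hzc⟩ := exists_ne (1 : Subgroup.center P)
      have hzP1 : (zc.1 : P) ≠ 1 := fun h => hzc (Subtype.ext h)
      have hzG1 : ((zc.1 : P).1.1 : SpecialLinearGroup (Fin 4) F) ≠ 1 := fun h =>
        hzP1 (Subtype.ext (Subtype.ext h))
      obtain ⟨j, hj⟩ := P.isPGroup' zc.1
      have hzGp : ((zc.1 : P).1.1 : SpecialLinearGroup (Fin 4) F) ^ p ^ j = 1 :=
        congrArg (fun x : P => (x.1.1 : SpecialLinearGroup (Fin 4) F)) hj
      have hpq1 : ¬ p ∣ Fintype.card F - 1 := by
        intro hd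
        have h1 := not_modEq_of_dvd hp hdvd 1 (by norm_num) (by norm_num)
        apply h1
        rw [pow_one]
        have hpos : 1 ≤ Fintype.card F := Fintype.card_pos
        exact ((Nat.modEq_iff_dvd' hpos).2 hd).symm
      have hfpf := D.no_fix_of_pow hI hpf.out hpq hpq1 (zc.1 : P).1.2 hzG1 hzGp
      have hM : ((zc.1 : P).1.1.1 : Matrix (Fin 4) (Fin 4) F) ^ p ^ j = 1 := by
        have := congrArg (fun x : SpecialLinearGroup (Fin 4) F => x.1) hzGp
        simpa using this
      have hvec : ∀ v : Fin 4 → F, (zc.1 : P).1.1.1 *ᵥ v = v → v = 0 := by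
        intro v hv
        by_contra hv0
        exact D.no_eigen hI (zc.1 : P).1.2 hfpf v hv0 1 (by rw [one_smul]; exact hv)
      have hdom := centralizer_isDomain _ hM hvec (not_modEq_of_dvd hp hdvd)
      refine cyclic_of_central (D.G.subtype.comp (P : Subgroup D.G).subtype)
        (fun a b hab => Subtype.ext (Subtype.ext hab)) _ ?_ hdom
      intro g
      have hcomm : g * zc.1 = zc.1 * g := (Subgroup.mem_center_iff.1 zc.2) g
      have h2 : (zc.1 : P).1.1 * g.1.1 = g.1.1 * (zc.1 : P).1.1 :=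
        (congrArg (fun x : P => (x.1.1 : SpecialLinearGroup (Fin 4) F)) hcomm).symm
      exact congrArg (fun x : SpecialLinearGroup (Fin 4) F => x.1) h2
  · haveI : IsCyclic D.hHom.range :=
      isCyclic_of_surjective D.hHom.rangeRestrict D.hHom.rangeRestrict_surjective
    apply sylow_cyclic_of_cyclic_le D.hHom.range
    intro hd
    have h1 := D.hHom.range.card_mul_index
    rw [D.card_hHom_range, D.card_G hI] at h1
    have hq1 : 0 < Fintype.card F - 1 := by
      have : 1 < Fintype.card F := Fintype.one_lt_card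
      omega
    have h2 : D.hHom.range.index = (Fintype.card F ^ 2 + 1) * Fintype.card F ^ 2 := by
      apply Nat.eq_of_mul_eq_mul_left hq1
      rw [h1]
      ring
    rw [h2] at hd
    rcases (Nat.Prime.dvd_mul hpf.out).1 hd with hd | hd
    · exact hdvd hd
    · exact hpq (hpf.out.dvd_of_dvd_pow hd)

end Suz
end Cfsg.Agent.Lib.Helper4
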