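import Cfsg.Agent.Lib.Helper4.Suz13

set_option autoImplicit false

namespace Cfsg.Agent.Lib.Helper4
namespace Suz

open Matrix
open scoped Pointwise

/-- The disjunction used for the CN property: the centraliser has exponent dividing four, or is
commutative. -/
def CNProp {A : Type*} [Group A] (G : Subgroup A) (g : A) : Prop :=
  (∀ x ∈ G, x * g = g * x → x ^ 4 = 1) ∨
    (∀ x ∈ G, ∀ y ∈ G, x * g = g * x → y * g = g * y → x * y = y * x)

theorem CNProp.conj {A : Type*} [Group A] {G : Subgroup A} {g t : A} (ht : t ∈ G)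
    (h : CNProp G (t * g * t⁻¹)) : CNProp G g := by
  have hc : ∀ x, x * g = g * x →
      (t * x * t⁻¹) * (t * g * t⁻¹) = (t * g * t⁻¹) * (t * x * t⁻¹) := by
    intro x hx
    calc (t * x * t⁻¹) * (t * g * t⁻¹) = t * (x * g) * t⁻¹ := by group
      _ = t * (g * x) * t⁻¹ := by rw [hx]
      _ = _ := by group
  have hm : ∀ x ∈ G, t * x * t⁻¹ ∈ G := fun x hx => G.mul_mem (G.mul_mem ht hx) (G.inv_mem ht)
  rcases h with h | h
  · left
    intro x hx hxg
    have h1 := h _ (hm x hx) (hc x hxg)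
    rw [conj_pow] at h1
    have e : x ^ 4 = t⁻¹ * (t * x ^ 4 * t⁻¹) * t := by group
    rw [e, h1]
    group
  · right
    intro x hx y hy hxg hyg
    have h1 := h _ (hm x hx) _ (hm y hy) (hc x hxg) (hc y hyg)
    have e1 : x * y = t⁻¹ * ((t * x * t⁻¹) * (t * y * t⁻¹)) * t := by group
    have e2 : y * x = t⁻¹ * ((t * y * t⁻¹) * (t * x * t⁻¹)) * t := by group
    rw [e1, e2, h1]

theorem isNilpotent_of_comm {G : Type*} [Group G] (h : ∀ a b : G, a * b = b * a) :
    Group.IsNilpotent G := by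
  refine ⟨⟨1, ?_⟩⟩
  rw [Subgroup.upperCentralSeries_one, Subgroup.eq_top_iff']
  intro x
  rw [Subgroup.mem_center_iff]
  intro y
  exact h y x

variable {F : Type*} [Field F] (D : Dat F)

theorem Dat.cent_u [Finite F] (hI : D.Indep) {a b : F} (hab : ¬ (a = 0 ∧ b = 0))
    {x : SpecialLinearGroup (Fin 4) F} (hx : x ∈ D.G) (hc : x * D.u a b = D.u a b * x) :
    ∃ c d, x = D.u c d := by
  have hfix : D.u a b • (x • inf F) = x • inf F := by
    rw [← mul_smul, ← hc, mul_smul, D.u_inf]
  have hinf : x • inf F = inf F := by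
    rcases D.smul_mem hx D.inf_mem with e | ⟨x0, y0, e⟩
    · exact e
    · exfalso
      rw [e, D.u_pt] at hfix
      obtain ⟨e1, e2⟩ := D.pt_inj hfix
      apply hab
      have ha : a = 0 := by simpa using e1
      subst ha
      refine ⟨rfl, ?_⟩
      simpa using e2
  obtain ⟨c, d, j, rfl⟩ := D.stab_inf hI hx hinf
  have e : D.u (c + (j : F) * a) (d + (j : F) * D.σ j * b + D.σ c * ((j : F) * a)) * D.h j =
      D.u (a + c) (b + d + D.σ a * c) * D.h j := by
    calc _ = D.u c d * (D.u ((j : F) * a) ((j : F) * D.σ j * b) * D.h j) := by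
          rw [← D.u_mul hI, mul_assoc]
      _ = D.u c d * D.h j * D.u a b := by rw [← D.h_u hI, mul_assoc]
      _ = D.u a b * (D.u c d * D.h j) := hc
      _ = _ := by rw [← mul_assoc, D.u_mul hI]
  obtain ⟨e1, e2, -⟩ := D.uh_inj e
  have hj : (j : F) = 1 := by
    by_cases ha : a = 0
    · have hb : b ≠ 0 := fun hb => hab ⟨ha, hb⟩
      subst ha
      simp only [mul_zero, add_zero, map_zero, zero_mul] at e2
      apply D.mul_sigma_eq_one
      have e3 : (j : F) * D.σ j * b = 1 * b := by linear_combination e2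
      exact mul_right_cancel₀ hb e3
    · have e3 : (j : F) * a = 1 * a := by linear_combination e1
      exact mul_right_cancel₀ ha e3
  have hj' : j = 1 := Units.ext hj
  subst hj'
  exact ⟨c, d, by rw [D.h_one, mul_one]⟩

theorem Dat.cent_h [Finite F] (hI : D.Indep) {k : Fˣ} (hk : k ≠ 1)
    {x : SpecialLinearGroup (Fin 4) F} (hx : x ∈ D.G) (hc : x * D.h k = D.h k * x) :
    ∃ j, x = D.h j := by
  have hk1 : (k : F) ≠ 1 := fun h => hk (Units.ext h)
  have hkσ : (k : F) * D.σ k ≠ 1 := fun h => hk1 (D.mul_sigma_eq_one h)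
  have hfixed : ∀ P ∈ D.ovoid, D.h k • P = P → P = inf F ∨ P = D.pt 0 0 := by
    rintro P (rfl | ⟨x0, y0, rfl⟩) hP
    · exact Or.inl rfl
    · right
      rw [D.h_pt] at hP
      obtain ⟨e1, e2⟩ := D.pt_inj hP
      have hx0 : x0 = 0 := by
        by_contra hx0
        exact hk1 (mul_right_cancel₀ hx0 (by rw [one_mul]; exact e1))
      have hy0 : y0 = 0 := by
        by_contra hy0
        exact hkσ (mul_right_cancel₀ hy0 (by rw [one_mul]; exact e2))
      rw [hx0, hy0]
  have hcomm : ∀ P : Projectivization F (Fin 4 → F), D.h k • P = P →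
      D.h k • (x • P) = x • P := by
    intro P hP
    rw [← mul_smul, ← hc, mul_smul, hP]
  have h1 := hfixed _ (D.smul_mem hx D.inf_mem) (hcomm _ (D.h_inf k))
  have h2 := hfixed _ (D.smul_mem hx (D.pt_mem 0 0)) (hcomm _ (D.h_zero k))
  rcases h1 with h1 | h1
  · rcases h2 with h2 | h2
    · exfalso
      rw [← h1] at h2
      exact D.pt_ne_inf 0 0 (MulAction.injective x h2)
    · exact D.stab2 hI hx h1 h2
  · rcases h2 with h2 | h2
    · exfalso
      obtain ⟨j, hj⟩ := D.stab2 hI (g := w F * x) (D.G.mul_mem D.w_mem hx)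
        (by rw [mul_smul, h1, D.w_zero]) (by rw [mul_smul, h2, D.w_inf])
      have hx' : x = w F * D.h j := by
        rw [← hj, ← mul_assoc, w_mul_w, one_mul]
      rw [hx'] at hc
      have e0 : D.h k * w F = w F * D.h k⁻¹ := by
        have := D.w_h k⁻¹
        rw [inv_inv] at this
        exact this.symm
      have e1 : w F * (D.h j * D.h k) = w F * (D.h k⁻¹ * D.h j) := by
        calc w F * (D.h j * D.h k) = w F * D.h j * D.h k := by rw [mul_assoc]
          _ = D.h k * (w F * D.h j) := hc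
          _ = D.h k * w F * D.h j := by rw [mul_assoc]
          _ = w F * D.h k⁻¹ * D.h j := by rw [e0]
          _ = _ := by rw [mul_assoc]
      have e2 := mul_left_cancel e1
      rw [← D.h_mul, ← D.h_mul] at e2
      have e3 := D.h_inj e2
      have e4 : k * k = 1 := by
        have : j * k = j * k⁻¹ := by rw [e3, mul_comm]
        have e5 := mul_left_cancel this
        calc k * k = k * k⁻¹ := by rw [← e5]
          _ = 1 := mul_inv_cancel k
      apply hk1
      apply D.sq_eq_one
      have e6 := congrArg Units.val e4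
      rw [pow_two]
      simpa using e6
    · exfalso
      rw [← h2] at h1
      exact D.pt_ne_inf 0 0 (MulAction.injective x h1).symm

theorem Dat.conj_uh [Finite F] (hI : D.Indep) (a b : F) {k : Fˣ} (hk : k ≠ 1) :
    ∃ c d, D.u c d * (D.u a b * D.h k) * (D.u c d)⁻¹ = D.h k := by
  have h2 := D.two
  have hk1 : (k : F) ≠ 1 := fun h => hk (Units.ext h)
  have hkσ : (k : F) * D.σ k ≠ 1 := fun h => hk1 (D.mul_sigma_eq_one h)
  have hk1' : (k : F) + 1 ≠ 0 := by
    intro h
    apply hk1
    linear_combination h - h2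
  have hkσ' : (k : F) * D.σ k + 1 ≠ 0 := by
    intro h
    apply hkσ
    linear_combination h - h2
  obtain ⟨c, hc⟩ : ∃ c : F, c * ((k : F) + 1) = a := ⟨a / ((k : F) + 1), div_mul_cancel₀ _ hk1'⟩
  obtain ⟨d, hd⟩ : ∃ d : F, d * ((k : F) * D.σ k + 1) = b + D.σ c * a :=
    ⟨(b + D.σ c * a) / ((k : F) * D.σ k + 1), div_mul_cancel₀ _ hkσ'⟩
  refine ⟨c, d, ?_⟩
  rw [mul_inv_eq_iff_eq_mul, ← mul_assoc, D.u_mul hI, D.h_u hI]
  congr 2
  · linear_combination (-1 : F) * hc + c * h2
  · linear_combination (-1 : F) * hd + d * h2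

theorem Dat.swap_sq [Finite F] (hI : D.Indep) {g : SpecialLinearGroup (Fin 4) F} (hg : g ∈ D.G)
    {P0 P1 : Projectivization F (Fin 4 → F)} (h0 : P0 ∈ D.ovoid) (h1 : P1 ∈ D.ovoid)
    (hne : P0 ≠ P1) (e0 : g • P0 = P1) (e1 : g • P1 = P0) : g * g = 1 := by
  obtain ⟨t, ht, et0, et1⟩ := D.exists_two h0 h1 hne
  have a1 : (t * g * t⁻¹) • inf F = D.pt 0 0 := by
    have : t⁻¹ • inf F = P0 := by rw [inv_smul_eq_iff, et0]
    rw [mul_smul, mul_smul, this, e0, et1]
  have a2 : (t * g * t⁻¹) • D.pt 0 0 = inf F := by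
    have : t⁻¹ • D.pt 0 0 = P1 := by rw [inv_smul_eq_iff, et1]
    rw [mul_smul, mul_smul, this, e1, et0]
  obtain ⟨j, hj⟩ := D.stab2 hI (g := w F * (t * g * t⁻¹))
    (D.G.mul_mem D.w_mem (D.G.mul_mem (D.G.mul_mem ht hg) (D.G.inv_mem ht)))
    (by rw [mul_smul, a1, D.w_zero]) (by rw [mul_smul, a2, D.w_inf])
  have hg' : t * g * t⁻¹ = w F * D.h j := by
    rw [← hj, ← mul_assoc, w_mul_w, one_mul]
  have hsq : (w F * D.h j) * (w F * D.h j) = 1 := by
    have e : D.h j * w F = w F * D.h j⁻¹ := by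
      have := D.w_h j⁻¹
      rw [inv_inv] at this
      exact this.symm
    calc (w F * D.h j) * (w F * D.h j) = w F * (D.h j * w F) * D.h j := by group
      _ = w F * (w F * D.h j⁻¹) * D.h j := by rw [e]
      _ = (w F * w F) * (D.h j⁻¹ * D.h j) := by group
      _ = 1 := by rw [w_mul_w, ← D.h_mul, inv_mul_cancel, D.h_one, one_mul]
  have e : g * g = t⁻¹ * ((t * g * t⁻¹) * (t * g * t⁻¹)) * t := by group
  rw [e, hg', hsq]
  group

theorem Dat.three_fix [Finite F] (hI : D.Indep) {z : SpecialLinearGroup (Fin 4) F}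
    (hz : z ∈ D.G) {a b c : Projectivization F (Fin 4 → F)} (ha : a ∈ D.ovoid)
    (hb : b ∈ D.ovoid) (hc : c ∈ D.ovoid) (hab : a ≠ b) (hbc : b ≠ c) (hac : a ≠ c)
    (fa : z • a = a) (fb : z • b = b) (fc : z • c = c) : z = 1 := by
  obtain ⟨t, ht, e1, e2⟩ := D.exists_two ha hb hab
  obtain ⟨k, hk⟩ := D.stab2 hI (g := t * z * t⁻¹)
    (D.G.mul_mem (D.G.mul_mem ht hz) (D.G.inv_mem ht))
    (by rw [mul_smul, mul_smul, ← e1, inv_smul_smul, fa])
    (by rw [mul_smul, mul_smul, ← e2, inv_smul_smul, fb])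
  have hk1' : k = 1 := by
    rcases D.smul_mem ht hc with e | ⟨x, y, e⟩
    · exfalso
      rw [← e1] at e
      exact hac (MulAction.injective t e).symm
    · have hxy : ¬ (x = 0 ∧ y = 0) := by
        rintro ⟨rfl, rfl⟩
        rw [← e2] at e
        exact hbc (MulAction.injective t e).symm
      have e3 : D.h k • D.pt x y = D.pt x y := by
        rw [← hk, ← e, mul_smul, mul_smul, inv_smul_smul, fc]
      rw [D.h_pt] at e3
      obtain ⟨ex, ey⟩ := D.pt_inj e3
      by_cases hx : x = 0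
      · have hy : y ≠ 0 := fun hy => hxy ⟨hx, hy⟩
        have h1 : (k : F) * D.σ k = 1 := mul_right_cancel₀ hy (by rw [one_mul]; exact ey)
        exact Units.ext (D.mul_sigma_eq_one h1)
      · exact Units.ext (mul_right_cancel₀ hx (by rw [Units.val_one, one_mul]; exact ex))
  rw [hk1', D.h_one] at hk
  have e4 : z = t⁻¹ * (t * z * t⁻¹) * t := by group
  rw [e4, hk]
  group

theorem Dat.pow_fpf [Finite F] (hI : D.Indep) {g : SpecialLinearGroup (Fin 4) F}
    (hg : g ∈ D.G) (hfpf : ∀ P ∈ D.ovoid, g • P ≠ P) (i : ℕ) (hz1 : g ^ i ≠ 1) :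
    (∀ P ∈ D.ovoid, (g ^ i) • P ≠ P) ∨ g * g = 1 := by
  by_contra hcon
  push Not at hcon
  obtain ⟨⟨P0, hP0, hfix⟩, hsq⟩ := hcon
  have hzg : ∀ P : Projectivization F (Fin 4 → F), (g ^ i) • P = P →
      (g ^ i) • (g • P) = g • P := by
    intro P hP
    rw [← mul_smul, ← pow_succ, pow_succ', mul_smul, hP]
  have hP1 := D.smul_mem hg hP0
  have hP2 := D.smul_mem hg hP1
  have f1 := hzg _ hfix
  have f2 := hzg _ f1
  have n01 : P0 ≠ g • P0 := fun h => hfpf P0 hP0 h.symm
  have n12 : g • P0 ≠ g • g • P0 := fun h => hfpf _ hP1 h.symm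
  have n02 : P0 ≠ g • g • P0 := by
    intro h
    exact hsq (D.swap_sq hI hg hP0 hP1 n01 rfl h.symm)
  exact hz1 (D.three_fix hI (D.G.pow_mem hg i) hP0 hP1 hP2 n01 n12 n02 hfix f1 f2)

theorem Dat.cn_aux [Fintype F] (hI : D.Indep) (n : ℕ) (hq : Fintype.card F = 2 ^ (n + 1))
    {g : SpecialLinearGroup (Fin 4) F} (hg : g ∈ D.G) (hg1 : g ≠ 1) : CNProp D.G g := by
  classical
  by_cases hfix : ∃ P0 ∈ D.ovoid, g • P0 = P0
  · obtain ⟨P0, hP0, hfix⟩ := hfix
    obtain ⟨t, ht, e⟩ := D.exists_to_inf hP0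
    apply CNProp.conj ht
    have hmem : t * g * t⁻¹ ∈ D.G := D.G.mul_mem (D.G.mul_mem ht hg) (D.G.inv_mem ht)
    have hst : (t * g * t⁻¹) • inf F = inf F := by
      rw [mul_smul, mul_smul, ← e, inv_smul_smul, hfix]
    have hne : t * g * t⁻¹ ≠ 1 := by
      intro h
      apply hg1
      have h5 : g = t⁻¹ * (t * g * t⁻¹) * t := by group
      rw [h5, h]
      group
    obtain ⟨a, b, k, hk⟩ := D.stab_inf hI hmem hst
    rw [hk] at hne ⊢
    by_cases hk1 : k = 1
    · subst hk1
      rw [D.h_one, mul_one] at hne ⊢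
      left
      intro x hx hxc
      have hab : ¬ (a = 0 ∧ b = 0) := by
        rintro ⟨rfl, rfl⟩
        exact hne (D.u_zero_zero hI)
      obtain ⟨c, d, rfl⟩ := D.cent_u hI hab hx hxc
      exact D.u_pow_four hI c d
    · obtain ⟨c, d, hcd⟩ := D.conj_uh hI a b hk1
      apply CNProp.conj (D.u_mem c d)
      rw [hcd]
      right
      intro x hx y hy hxc hyc
      obtain ⟨j, rfl⟩ := D.cent_h hI hk1 hx hxc
      obtain ⟨j', rfl⟩ := D.cent_h hI hk1 hy hyc
      rw [← D.h_mul, ← D.h_mul, mul_comm]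
  · push Not at hfix
    right
    have hfin : 0 < orderOf g := orderOf_pos g
    have hN1 : orderOf g ≠ 1 := fun h => hg1 (orderOf_eq_one_iff.1 h)
    have hp : (orderOf g).minFac.Prime := Nat.minFac_prime hN1
    haveI : Fact (orderOf g).minFac.Prime := ⟨hp⟩
    have hpN : (orderOf g).minFac ∣ orderOf g := Nat.minFac_dvd _
    have hzo : orderOf (g ^ (orderOf g / (orderOf g).minFac)) = (orderOf g).minFac :=
      orderOf_pow_orderOf_div hfin.ne' hpN
    have hz1 : g ^ (orderOf g / (orderOf g).minFac) ≠ 1 := by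
      intro h
      rw [h, @orderOf_one (SpecialLinearGroup (Fin 4) F) _] at hzo
      exact hp.one_lt.ne hzo
    have hzp : (g ^ (orderOf g / (orderOf g).minFac)) ^ (orderOf g).minFac ^ 1 = 1 := by
      rw [pow_one]
      have h := pow_orderOf_eq_one (g ^ (orderOf g / (orderOf g).minFac))
      rw [hzo] at h
      exact h
    have hzG : g ^ (orderOf g / (orderOf g).minFac) ∈ D.G := D.G.pow_mem hg _
    have hzfpf : ∀ P ∈ D.ovoid, (g ^ (orderOf g / (orderOf g).minFac)) • P ≠ P := by
      rcases D.pow_fpf hI hg hfix _ hz1 with h | h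
      · exact h
      · have h2 : orderOf g ∣ 2 := orderOf_dvd_of_pow_eq_one (by rw [pow_two]; exact h)
        have hN2 : orderOf g = 2 := by
          rcases (Nat.dvd_prime Nat.prime_two).1 h2 with h | h
          · exact absurd h hN1
          · exact h
        rw [hN2]
        have : Nat.minFac 2 = 2 := Nat.minFac_two
        rw [this]
        simpa using hfix
    have hdvd : (orderOf g).minFac ∣ Fintype.card F ^ 2 + 1 := by
      let f : Function.End D.ovoid := fun P =>
        ⟨(g ^ (orderOf g / (orderOf g).minFac)) • P.1, D.smul_mem hzG P.2⟩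
      have hpow : ∀ (n : ℕ) (P : D.ovoid),
          ((f ^ n) P).1 = (g ^ (orderOf g / (orderOf g).minFac)) ^ n • P.1 := by
        intro n
        induction n with
        | zero =>
          intro P
          rw [pow_zero, pow_zero, one_smul]
          rfl
        | succ n ih =>
          intro P
          rw [pow_succ', pow_succ', mul_smul, ← ih]
          rfl
      have hf : f ^ (orderOf g).minFac ^ 1 = 1 := by
        funext P
        apply Subtype.ext
        rw [hpow, hzp, one_smul]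
        rfl
      have := dvd_card_of_no_fixed f hf (fun P h => hzfpf P.1 P.2 (congrArg Subtype.val h))
      rw [Nat.card_coe_set_eq, D.card_ovoid] at this
      exact this
    have hp2 : (orderOf g).minFac ≠ 2 := by
      intro h
      rw [h, hq] at hdvd
      have e : (2 ^ (n + 1)) ^ 2 + 1 = 2 * (2 ^ n * 2 ^ (n + 1)) + 1 := by ring
      omega
    have hM : (g ^ (orderOf g / (orderOf g).minFac)).1 ^ (orderOf g).minFac ^ 1 = 1 := by
      have := congrArg (fun x : SpecialLinearGroup (Fin 4) F => x.1) hzp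
      simpa using this
    have hvec : ∀ v : Fin 4 → F,
        (g ^ (orderOf g / (orderOf g).minFac)).1 *ᵥ v = v → v = 0 := by
      intro v hv
      by_contra hv0
      exact D.no_eigen hI hzG hzfpf v hv0 1 (by rw [one_smul]; exact hv)
    have hdom := centralizer_isDomain _ hM hvec (not_modEq_of_dvd hp2 hdvd)
    intro x _ y _ hxg hyg
    have hcz : ∀ x : SpecialLinearGroup (Fin 4) F, x * g = g * x →
        (g ^ (orderOf g / (orderOf g).minFac)).1 * x.1 =
          x.1 * (g ^ (orderOf g / (orderOf g).minFac)).1 := by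
      intro x hx
      have h1 : Commute x g := hx
      have h2 : x * g ^ (orderOf g / (orderOf g).minFac) =
          g ^ (orderOf g / (orderOf g).minFac) * x := h1.pow_right _
      exact (congrArg (fun x : SpecialLinearGroup (Fin 4) F => x.1) h2).symm
    exact comm_of_central _ hdom (hcz x hxg) (hcz y hyg)

/-- The Suzuki group is a CN-group. -/
theorem Dat.cn [Fintype F] (hI : D.Indep) (n : ℕ) (hq : Fintype.card F = 2 ^ (n + 1))
    (g : D.G) (hg : g ≠ 1) : Group.IsNilpotent (Subgroup.centralizer ({g} : Set D.G)) := by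
  have hg1 : g.1 ≠ 1 := fun h => hg (Subtype.ext h)
  have hcomm : ∀ x : Subgroup.centralizer ({g} : Set D.G), x.1.1 * g.1 = g.1 * x.1.1 := by
    intro x
    have h1 : g * x.1 = x.1 * g := Subgroup.mem_centralizer_iff.1 x.2 g rfl
    exact (congrArg Subtype.val h1).symm
  rcases D.cn_aux hI n hq g.2 hg1 with h | h
  · have hP : IsPGroup 2 (Subgroup.centralizer ({g} : Set D.G)) := by
      intro x
      refine ⟨2, ?_⟩
      apply Subtype.ext
      apply Subtype.ext
      exact h x.1.1 x.1.2 (hcomm x)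
    exact hP.isNilpotent
  · apply isNilpotent_of_comm
    intro a b
    apply Subtype.ext
    apply Subtype.ext
    exact h a.1.1 a.1.2 b.1.1 b.1.2 (hcomm a) (hcomm b)

end Suz
end Cfsg.Agent.Lib.Helper4
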