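import Cfsg.Agent.Lib.Helper4.Tr1

set_option autoImplicit false

namespace Cfsg.Agent.Lib.Helper4
namespace Tr

open Pointwise Golay Sx

/-- The standard trio, as masks. -/
def T0L : List ℕ := [5279, 1009728, 15762208]

/-- Representatives of the four other classes of trios. -/
def Q1L : List ℕ := [5279, 1256224, 15515712]

def Q2L : List ℕ := [90318, 2135601, 14551296]

def Q3L : List ℕ := [10558, 1250945, 15515712]

def Q4L : List ℕ := [10558, 902657, 15864000]

/-- Representative of a class. -/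
def repL : ℕ → List ℕ := fun c =>
  cond (Nat.beq c 1) Q1L (cond (Nat.beq c 2) Q2L (cond (Nat.beq c 3) Q3L (cond (Nat.beq c 4) Q4L T0L)))

set_option maxRecDepth 100000 in
theorem rep_ok : ∀ c < 5, trioChk (repL c) = true ∧ clsTL T0L (repL c) = c := by decide +kernel

/-- The standard trio. -/
def T0 : Finset (Finset GolayPt) := mkSys T0L

theorem T0_trio : T0 ∈ trios := mkSys_trio (rep_ok 0 (by norm_num)).1

theorem rep_trio (c : ℕ) (hc : c < 5) : mkSys (repL c) ∈ trios := mkSys_trio (rep_ok c hc).1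

theorem cls_rep (c : ℕ) (hc : c < 5) : clsT T0 (mkSys (repL c)) = c := by
  rw [T0, clsT_mkSys]
  exact (rep_ok c hc).2

/-- Check of a table entry `(m1, m2, c, l, l')`: a code automorphism stabilising the standard
trio and carrying two members of the representative of class `c` to the masks `m1`, `m2`. -/
def trChk (e : ℕ × ℕ × ℕ × List ℕ × List ℕ) : Bool :=
  and (and (chk e.2.2.2.1 e.2.2.2.2) (memChk e.2.2.2.1))
    (and (mapChk e.2.2.2.1 T0L T0L)
      (and (and ((repL e.2.2.1).any (fun b => Nat.beq (pmL e.2.2.2.1 e.1) b))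
        ((repL e.2.2.1).any (fun b => Nat.beq (pmL e.2.2.2.1 e.2.1) b))) (Nat.blt e.2.2.1 5)))

theorem tr_spec (e : ℕ × ℕ × ℕ × List ℕ × List ℕ) (h : trChk e = true) :
    e.2.2.1 < 5 ∧ ∃ g ∈ M24, g • T0 = T0 ∧ support₂ (word e.1) ∈ g • mkSys (repL e.2.2.1) ∧
      support₂ (word e.2.1) ∈ g • mkSys (repL e.2.2.1) := by
  simp only [trChk, Bool.and_eq_true, List.any_eq_true, Nat.beq_eq, Nat.blt_eq] at h
  obtain ⟨⟨hc, hm⟩, hmap, ⟨⟨b, hb, e1⟩, ⟨b', hb', e2⟩⟩, h5⟩ := h
  refine ⟨h5, mkPerm e.2.2.2.1 e.2.2.2.2 hc, mkPerm_mem _ _ hc hm, ?_, ?_, ?_⟩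
  · exact map_spec hc hm T0_trio (rep_ok 0 (by norm_num)).1 hmap
  · rw [← smul_support_word hc e1]
    exact Finset.smul_mem_smul_finset (mem_mkSys.2 ⟨b, hb, rfl⟩)
  · rw [← smul_support_word hc e2]
    exact Finset.smul_mem_smul_finset (mem_mkSys.2 ⟨b', hb', rfl⟩)

end Tr
end Cfsg.Agent.Lib.Helper4
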