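import Cfsg.Agent.Lib.Helper4.TrT1
import Cfsg.Agent.Lib.Helper4.TrT2
import Cfsg.Agent.Lib.Helper4.TrT3
import Cfsg.Agent.Lib.Helper4.TrT4
import Cfsg.Agent.Lib.Helper4.TrT5
import Cfsg.Agent.Lib.Helper4.TrT6
import Cfsg.Agent.Lib.Helper4.TrT7
import Cfsg.Agent.Lib.Helper4.TrT8
import Cfsg.Agent.Lib.Helper4.TrT9
import Cfsg.Agent.Lib.Helper4.TrT10
import Cfsg.Agent.Lib.Helper4.TrT11
import Cfsg.Agent.Lib.Helper4.TrT12
import Cfsg.Agent.Lib.Helper4.TrT13
import Cfsg.Agent.Lib.Helper4.TrT14

set_option autoImplicit false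

namespace Cfsg.Agent.Lib.Helper4
namespace Tr

open Pointwise Golay Sx

/-- Bucketed table of elements of the stabiliser of the standard trio. -/
def bkT : List (List (ℕ × ℕ × ℕ × List ℕ × List ℕ)) :=
  bkT1 ++ (bkT2 ++ (bkT3 ++ (bkT4 ++ (bkT5 ++ (bkT6 ++ (bkT7 ++ (bkT8 ++ (bkT9 ++ (bkT10 ++
    (bkT11 ++ (bkT12 ++ (bkT13 ++ bkT14))))))))))))

/-- Table of elements of the stabiliser of the standard trio. -/
def tblT : List (ℕ × ℕ × ℕ × List ℕ × List ℕ) := bkT.flatten

theorem tblT_ok : tblT.all trChk = true := by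
  apply Rk.all_flatten'
  rw [bkT, List.all_append, List.all_append, List.all_append, List.all_append, List.all_append,
    List.all_append, List.all_append, List.all_append, List.all_append, List.all_append,
    List.all_append, List.all_append, List.all_append,
    bkT1_ok, bkT2_ok, bkT3_ok, bkT4_ok, bkT5_ok, bkT6_ok, bkT7_ok, bkT8_ok, bkT9_ok, bkT10_ok,
    bkT11_ok, bkT12_ok, bkT13_ok, bkT14_ok]
  rfl

theorem tblT_ok' (e : ℕ × ℕ × ℕ × List ℕ × List ℕ) (he : e ∈ tblT) : trChk e = true := by
  have h := tblT_ok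
  rw [List.all_eq_true] at h
  exact h e he

set_option maxRecDepth 100000 in
/-- The octads, as masks, in buckets. -/
def octB : List (List ℕ) := [
  [6857221, 8401364, 14747201, 15747077],
  [705094, 2130606, 4271202, 7397512, 8619033, 12661896],
  [140167, 1410188, 2162811, 4216883, 4261212, 8694112, 12717187, 12912836, 13373586, 14716939],
  [1090380, 3172097, 6949956, 10537016, 12780432, 13667400],
  [280334, 2820376, 4325622, 8546577],
  [337856, 602472, 1337732, 2232654, 4731956, 5024896, 6062602, 7357552, 11669008],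
  [283537, 657763, 2180760, 2392899, 2916505, 6344194, 8657159, 8937586, 9048457, 9451104, 9969957, 10554382, 12656663, 13009064],
  [307594, 416040, 2491452, 4415544, 13703682, 14762146],
  [18147, 560668, 5640752, 7417889, 8783649, 10557585],
  [1265762, 4526126, 4768432, 8455014, 8978620, 11797828, 13142054, 13721920],
  [418953, 675712, 1204944, 2675464, 4465308, 9158944, 9578566],
  [90318, 267634, 1903248, 3246601, 4645632, 8524371, 8855820],
  [567074, 797449, 1315526, 4361520, 4785798, 5833010, 9456930, 10825794],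
  [52005, 551943, 2019456, 4870480, 5409412, 6295992, 9208708, 14919680],
  [175681, 615188, 832080, 1647171, 4982904, 5441617, 8536111, 9240913, 9721936, 11952160, 12849992, 13192208],
  [1405448, 1836419, 2110153, 4921504, 6656640, 8593633, 10021376, 12604486],
  [36294, 1121336, 1460739, 2422785, 8474906, 10630149, 12747077],
  [843820, 1302533, 8733800, 11163650, 12584506],
  [2531524, 8426796, 13641904],
  [126216, 304405, 525274, 804052, 1975812, 2147405, 2220640, 8484900, 11548936],
  [837906, 1351424, 2409888, 5296705, 5350928, 9045270, 9506893, 10666625],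
  [190626, 2115979, 4744776, 6308804, 9769376, 9835530],
  [180636, 430605, 535268, 864389, 1212619, 3489985, 3806496, 6493202, 7340691, 8963210],
  [1618953, 2150610, 2183687, 3182981, 3322370, 7473194, 10916112, 11272490, 11731203, 13121601],
  [1134148, 1594898, 1869893, 2631052, 8394986],
  [272595, 1737489, 2255372, 5780352, 8541360, 10650722, 10881097],
  [104010, 622863, 1103886, 4038912],
  [475812, 1161408, 3539848, 8663097, 8919856, 9471495, 10698836, 13108704],
  [351362, 1230376, 1664160, 2640465, 3294342, 12624578, 12733024, 13062145],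
  [31554, 201013, 493953, 555160, 2106966, 2664522, 3719203, 5817604, 8773776, 8983587],
  [2810896, 3416079, 3672838, 4220306, 4470275, 8922769, 9607201, 14828808],
  [118953, 290352, 884962, 5112513, 5249380, 9055272, 10170384, 10619300, 10790408, 16056344],
  [72588, 1312345, 2242672, 2921478, 4845570, 8431757],
  [737427, 792232, 1250945, 2328324, 4346506, 5268006, 8407702, 11015256, 12861748, 13893731],
  [1063445, 1687640, 2121909, 2605066, 5252293, 8716939, 12985424],
  [689317, 1122713, 2687905, 2754059, 2949708, 3168928, 5003780, 5286147, 5785794, 8675909, 14551296],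
  [3811457, 4330601, 5063048, 8391797],
  [42232, 75309, 628112, 919694, 13911680, 14176296],
  [252432, 608810, 786999, 1050548, 1608104, 3951624, 4294810, 4441280, 6053905, 10506593, 10560816, 15864000],
  [593097, 1327290, 2296514, 4253780, 6750560, 11608708, 13636881],
  [69395, 1675812, 2702848, 4563017, 4819776],
  [5279, 78514, 1852256, 3421328, 4538962, 4755660, 5538256, 5571333, 6837377, 10687016, 13303882],
  [185603, 381252, 2564625, 4231958, 14688364, 15274244],
  [298027, 530245, 1084018, 1413139, 2757268, 4490852, 9474712, 12126304],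
  [361272, 806987, 861210, 1070536, 1728778, 2425238, 4196943, 6979970, 7612992],
  [115766, 213833, 346141, 1484824, 3050016, 3179802, 4343317, 4459426, 4900873, 11538486, 11831426, 14682450],
  [3237906, 4301220, 4367374, 6365962, 6644740],
  [1805314],
  [684577, 2268296, 3189796, 3739786, 4370577, 4726955, 5262104, 6570537, 9465987, 10543366, 12698124],
  [352547, 1065303, 2135601, 3698756, 4752467, 5709954, 8414120],
  [545190, 3474978, 4510744, 5325835, 8439632],
  [168928, 301236, 668866, 1116327, 2365978, 2512448, 3031301, 3678776, 6554826, 8849458, 9748745],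
  [153797, 208020, 1245726, 2207772, 6406417, 8077824, 8490656],
  [632881, 2263063, 2384216, 4241960, 6305926, 8499969, 8999616, 12650793],
  [45159, 133817, 951624, 2322816, 7079696, 9310308, 11108882],
  [1009728, 2435240, 2704706, 3147996, 4202192, 4721045, 4860434, 6432416, 12685424],
  [702724, 2460752, 3328320, 5280930, 5511305, 6588684, 8592704, 9440193],
  [421910, 4424227, 7767041, 8704546],
  [63108, 262637, 402026, 987906, 1110320, 4213932, 5329044, 7438406, 8471941, 8611330, 8688833, 9347075, 9610624],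
  [95313, 2372388, 3154402, 4223245, 4989254, 5309160, 14254209, 14949408],
  [1075305, 1661185, 3736597, 5621792, 6326497, 6832158, 7345676, 10232008, 13829156],
  [1127686, 2890176, 5770785, 6455896, 6889680, 8925710, 9486564, 9708306, 10513600, 11551306, 12720156, 13124355],
  [237906, 580704, 1769924, 4299781, 12880401],
  [15777, 277580, 1053483, 1332261, 2908802, 4476225, 6703248, 8505411],
  [145176, 442481, 2624690, 4485344, 5842956, 8796800, 10491778, 15335473],
  [396116, 1164162, 2173253, 2634003, 4788761, 6594610, 8126628, 8412681, 9178690, 12726562],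
  [1474854, 1584464, 2501890, 2892897, 4656648, 6447171, 9020484],
  [21116, 314056, 459847, 7145475, 7409024, 8521420, 8966165, 9568632, 15207048],
  [663645, 1148257, 2126890, 3375280, 4243818, 5210132, 8555274, 8834052, 8946281, 8989058, 10305542, 10832640, 11010247],
  [39257, 926128, 1710664, 2269481, 2377830, 2769128, 6488205, 9929280, 10768524],
  [542009, 1378634, 2245426, 5375810, 5508118, 5899416, 6337856, 9193633],
  [57883, 742412, 1525008, 1589901, 2229713, 8660134, 9323032, 11100169],
  [902657, 7622914, 12075408, 12325377],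
  [1849378, 2854977, 4264387, 5275709, 6302745, 10525252, 13262980],
  [84464, 150618, 334433, 1182989, 1256224, 1839388, 3277413, 9462812, 10584520, 11028004, 12638592, 14714004],
  [1192108, 2120980, 3152963, 4336072, 4523185, 5390753, 5652556, 10028808],
  [504864, 1217620, 1352353, 1573998, 2101096, 2430217, 3216208, 4203377, 7903248, 11046145, 11575377],
  [210955, 4403780, 8421811, 8683614, 10093218, 10765331, 11055264, 15515712],
  [1186194, 1577201, 2494627, 2654580, 4593028, 8622214, 14950785],
  [563843, 1445088, 3227948, 3444840, 4282144, 5017889, 6915112, 8798658, 11654144, 12641313],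
  [138790, 1454401, 3351624, 4924673, 5405696, 9204992, 10496547, 12594948],
  [198058, 582081, 3297305, 4063314, 8561204, 9776129, 10486557, 12871690],
  [10558, 157028, 3704512, 6842656, 8436754, 9968772],
  [463064, 855332, 1188915, 1384564, 4409606, 4626498, 4800613, 5939296, 7864649, 9078992, 9112069, 13938692],
  [371206, 762504, 5129250, 9652360, 9830549],
  [924689, 4505735, 8464984, 9519665],
  [596054, 1060490, 2168036, 2826278, 5514536, 8654232, 9543722, 10748656, 12599513, 13771273],
  [2201890, 5902343, 6429441, 8581192, 14709264],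
  [722544, 1613974, 1722420, 2141072, 3457556, 4850476, 8721940, 9279496, 9503954, 9589508, 12222476, 13276672, 13631886],
  [99029, 2031657, 4726026, 5255258, 6820450, 8398155, 9701932, 10625178, 12944642],
  [231532, 427666, 692282, 2204803, 2313249, 2969648, 6100032, 6359604, 11469952, 13148440],
  [4587803, 7221256, 11150144, 11282452],
  [1100945, 4229001, 6475812, 9998658, 12587685],
  [2363013, 2627629, 3410225, 4287105, 5476616, 9537812, 10846245],
  [3610628, 4597797, 6292775, 8931660, 10257456, 13811730],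
  [2738308, 9963547, 10110017, 11535529, 13370381, 13443616, 14156372, 15073798],
  [1369154, 4536592, 6379592, 6557781, 7479572, 15762208, 16262146]]

/-- The octads, as masks. -/
def octL : List ℕ := octB.flatten

/-- Every word of weight 8 of the code is listed. -/
def Oc (b : ℕ) : Bool :=
  or (not (Nat.beq (pc b) 8)) ((octB.getD (b % 97) []).any (fun m => Nat.beq m b))

set_option maxRecDepth 100000 in
theorem oct_complete : allComb Oc basis 0 = true := by decide +kernel

/-- Completeness check, inner part: the second mask. -/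
def Qc (a q b : ℕ) : Bool :=
  or (not (and (Nat.beq (a &&& b) 0) (b.testBit q)))
    ((bkT.getD ((a + 3 * b) % 257) []).any (fun e => and (Nat.beq e.1 a) (Nat.beq e.2.1 b)))

/-- Completeness check, outer part: the first mask. -/
def Pc (a : ℕ) : Bool :=
  and (Nat.blt a 16777216) (or (not (and (a.testBit 0) (Nat.beq (pc a) 8)))
    (and (not (a.testBit (fo a % 24))) (octL.all (Qc a (fo a % 24)))))

set_option maxRecDepth 100000 in
theorem complete : allComb Pc basis 0 = true := by decide +kernel

/-- Every trio has a key in the table. -/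
theorem exists_entry {T : Finset (Finset GolayPt)} (hT : T ∈ trios) :
    ∃ e ∈ tblT, support₂ (word e.1) ∈ T ∧ support₂ (word e.2.1) ∈ T ∧
      support₂ (word e.1) ≠ support₂ (word e.2.1) := by
  obtain ⟨o1, ho1, h0⟩ := exists_oct_pt hT (pt 0)
  obtain ⟨⟨w1, hw1, rfl⟩, hc1⟩ := hT.2.1 o1 ho1
  obtain ⟨a, hPa, rfl⟩ := exists_word hw1 Pc complete
  have pa : pc a = 8 := by
    rw [← hammingNorm_word, ← card_support]
    exact hc1
  have ta : a.testBit 0 = true := by
    have := mem_support_word.1 h0
    rwa [code_pt 0 (by norm_num)] at this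
  rw [Pc, ta, pa] at hPa
  simp only [Nat.beq_refl, Bool.and_self, Bool.not_true, Bool.false_or, Bool.and_eq_true,
    Nat.blt_eq, Bool.not_eq_true'] at hPa
  obtain ⟨alt, hfo, hQ⟩ := hPa
  have hq : fo a % 24 < 24 := Nat.mod_lt _ (by norm_num)
  obtain ⟨o2, ho2, hq2⟩ := exists_oct_pt hT (pt (fo a % 24))
  obtain ⟨⟨w2, hw2, rfl⟩, hc2⟩ := hT.2.1 o2 ho2
  obtain ⟨b, hOb, rfl⟩ := exists_word hw2 Oc oct_complete
  have pb : pc b = 8 := by
    rw [← hammingNorm_word, ← card_support]
    exact hc2
  rw [Oc, pb] at hOb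
  simp only [Nat.beq_refl, Bool.not_true, Bool.false_or, List.any_eq_true, Nat.beq_eq] at hOb
  obtain ⟨m, hm, rfl⟩ := hOb
  have hbL : m ∈ octL := mem_flatten_of_getD hm
  rw [List.all_eq_true] at hQ
  have hQb := hQ m hbL
  have tb : m.testBit (fo a % 24) = true := by
    have := mem_support_word.1 hq2
    rwa [code_pt _ hq] at this
  have hne : support₂ (word a) ≠ support₂ (word m) := by
    intro e
    rw [← e] at hq2
    have := mem_support_word.1 hq2
    rw [code_pt _ hq, hfo] at this
    exact absurd this (by decide)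
  have hd := hT.2.2 _ ho1 _ ho2 hne
  have h0' : a &&& m = 0 := and_eq_zero alt hd
  rw [Qc, h0', tb] at hQb
  simp only [Nat.beq_refl, Bool.and_self, Bool.not_true, Bool.false_or, List.any_eq_true,
    Bool.and_eq_true, Nat.beq_eq] at hQb
  obtain ⟨e, he, e1, e2⟩ := hQb
  refine ⟨e, mem_flatten_of_getD he, ?_, ?_, ?_⟩
  · rw [e1]
    exact ho1
  · rw [e2]
    exact ho2
  · rw [e1, e2]
    exact hne

/-- Every trio is the image of a class representative under an element of the stabiliser of
the standard trio. -/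
theorem exists_class {X : Finset (Finset GolayPt)} (hX : X ∈ trios) :
    ∃ c < 5, ∃ g ∈ M24, g • T0 = T0 ∧ g • mkSys (repL c) = X := by
  obtain ⟨e, he, h1, h2, hne⟩ := exists_entry hX
  obtain ⟨h5, g, hg, gT, m1, m2⟩ := tr_spec e (tblT_ok' e he)
  exact ⟨e.2.2.1, h5, g, hg, gT, trio_unique (smul_trio hg (rep_trio _ h5)) hX m1 m2 hne h1 h2⟩

theorem class_eq {X : Finset (Finset GolayPt)} (hX : X ∈ trios) {c : ℕ} (hc : c < 5) :
    Orb T0 (mkSys (repL c)) X ↔ clsT T0 X = c := by
  constructor
  · rintro ⟨g, hg, gS, rfl⟩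
    rw [clsT_smul gS, cls_rep c hc]
  · intro h
    obtain ⟨c', hc', g, hg, gS, rfl⟩ := exists_class hX
    rw [clsT_smul gS, cls_rep c' hc'] at h
    subst h
    exact ⟨g, hg, gS, rfl⟩

/-- The trio through the two octads of a key. -/
noncomputable def trOf (k : ℕ × ℕ) : Finset (Finset GolayPt) :=
  Classical.epsilon (fun X => X ∈ trios ∧ support₂ (word k.1) ∈ X ∧ support₂ (word k.2) ∈ X)

theorem trOf_spec {k : ℕ × ℕ}
    (h : ∃ X, X ∈ trios ∧ support₂ (word k.1) ∈ X ∧ support₂ (word k.2) ∈ X) :
    trOf k ∈ trios ∧ support₂ (word k.1) ∈ trOf k ∧ support₂ (word k.2) ∈ trOf k :=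
  Classical.epsilon_spec h

theorem trOf_eq {k : ℕ × ℕ} {X : Finset (Finset GolayPt)} (hX : X ∈ trios)
    (h1 : support₂ (word k.1) ∈ X) (h2 : support₂ (word k.2) ∈ X)
    (hne : support₂ (word k.1) ≠ support₂ (word k.2)) : trOf k = X := by
  have h := trOf_spec ⟨X, hX, h1, h2⟩
  exact trio_unique h.1 hX h.2.1 h.2.2 hne h1 h2

set_option maxRecDepth 100000 in
theorem keys_ok : tblT.all (fun e => and (and (Nat.blt e.1 16777216) (Nat.blt e.2.1 16777216))
    (and (e.1.testBit 0) (and (e.2.1.testBit (fo e.1 % 24))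
      (not (e.1.testBit (fo e.1 % 24)))))) = true := by
  decide +kernel

theorem keys_ok' (e : ℕ × ℕ × ℕ × List ℕ × List ℕ) (he : e ∈ tblT) :
    (e.1 < 16777216 ∧ e.2.1 < 16777216) ∧ e.1.testBit 0 = true ∧
      e.2.1.testBit (fo e.1 % 24) = true ∧ e.1.testBit (fo e.1 % 24) = false := by
  have hk := keys_ok
  rw [List.all_eq_true] at hk
  have k1 := hk e he
  simp only [Bool.and_eq_true, Nat.blt_eq, Bool.not_eq_true'] at k1
  exact k1

theorem key_ne (e : ℕ × ℕ × ℕ × List ℕ × List ℕ) (he : e ∈ tblT) :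
    support₂ (word e.1) ≠ support₂ (word e.2.1) := by
  obtain ⟨-, -, t2, t1⟩ := keys_ok' e he
  intro h
  have hq : fo e.1 % 24 < 24 := Nat.mod_lt _ (by norm_num)
  have h2 : pt (fo e.1 % 24) ∈ support₂ (word e.2.1) := by
    rw [mem_support_word, code_pt _ hq]
    exact t2
  rw [← h, mem_support_word, code_pt _ hq, t1] at h2
  exact absurd h2 (by decide)

/-- The trio attached to a table entry. -/
theorem entry_trio (e : ℕ × ℕ × ℕ × List ℕ × List ℕ) (he : e ∈ tblT) :
    trOf (e.1, e.2.1) ∈ trios ∧ support₂ (word e.1) ∈ trOf (e.1, e.2.1) ∧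
      support₂ (word e.2.1) ∈ trOf (e.1, e.2.1) ∧ clsT T0 (trOf (e.1, e.2.1)) = e.2.2.1 := by
  obtain ⟨h5, g, hg, gT, m1, m2⟩ := tr_spec e (tblT_ok' e he)
  have hs := smul_trio hg (rep_trio _ h5)
  have e1 : trOf (e.1, e.2.1) = g • mkSys (repL e.2.2.1) := trOf_eq hs m1 m2 (key_ne e he)
  rw [e1]
  exact ⟨hs, m1, m2, by rw [clsT_smul gT, cls_rep _ h5]⟩

theorem class_image (c : ℕ) :
    {X | X ∈ trios ∧ clsT T0 X = c}
      = trOf '' {k | ∃ e ∈ tblT, (e.1, e.2.1) = k ∧ e.2.2.1 = c} := by
  ext X
  constructor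
  · rintro ⟨hX, hcls⟩
    obtain ⟨e, he, h1, h2, hne⟩ := exists_entry hX
    have e1 : trOf (e.1, e.2.1) = X := trOf_eq hX h1 h2 hne
    refine ⟨(e.1, e.2.1), ⟨e, he, rfl, ?_⟩, e1⟩
    rw [← (entry_trio e he).2.2.2, e1]
    exact hcls
  · rintro ⟨k, ⟨e, he, rfl, rfl⟩, rfl⟩
    exact ⟨(entry_trio e he).1, (entry_trio e he).2.2.2⟩

theorem trOf_injOn : Set.InjOn trOf {k | ∃ e ∈ tblT, (e.1, e.2.1) = k} := by
  rintro k ⟨e, he, rfl⟩ k' ⟨e', he', rfl⟩ h
  obtain ⟨⟨b1, b2⟩, t0, t2, -⟩ := keys_ok' e he
  obtain ⟨⟨b1', b2'⟩, t0', t2', -⟩ := keys_ok' e' he'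
  obtain ⟨hs, m1, m2, -⟩ := entry_trio e he
  obtain ⟨hs', m1', m2', -⟩ := entry_trio e' he'
  have h' : trOf (e.1, e.2.1) = trOf (e'.1, e'.2.1) := h
  rw [← h'] at m1' m2'
  have p1 : pt 0 ∈ support₂ (word e.1) := by
    rw [mem_support_word, code_pt 0 (by norm_num)]
    exact t0
  have p1' : pt 0 ∈ support₂ (word e'.1) := by
    rw [mem_support_word, code_pt 0 (by norm_num)]
    exact t0'
  have k1 : e.1 = e'.1 := by
    by_contra hne
    have hsup : support₂ (word e.1) ≠ support₂ (word e'.1) := fun hh => hne (word_inj b1 b1' hh)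
    exact Finset.disjoint_left.1 (hs.2.2 _ m1 _ m1' hsup) p1 p1'
  have hq : fo e.1 % 24 < 24 := Nat.mod_lt _ (by norm_num)
  have p2 : pt (fo e.1 % 24) ∈ support₂ (word e.2.1) := by
    rw [mem_support_word, code_pt _ hq]
    exact t2
  have p2' : pt (fo e.1 % 24) ∈ support₂ (word e'.2.1) := by
    rw [mem_support_word, code_pt _ hq, k1]
    exact t2'
  have k2 : e.2.1 = e'.2.1 := by
    by_contra hne
    have hsup : support₂ (word e.2.1) ≠ support₂ (word e'.2.1) :=
      fun hh => hne (word_inj b2 b2' hh)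
    exact Finset.disjoint_left.1 (hs.2.2 _ m2 _ m2' hsup) p2 p2'
  exact Prod.ext k1 k2

set_option maxRecDepth 100000 in
theorem bk_keys : (List.range 257).all (fun i =>
    and (nodupB2 ((bkT.getD i []).map (fun e => (e.1, e.2.1))))
      ((bkT.getD i []).all (fun e => Nat.beq ((e.1 + 3 * e.2.1) % 257) i))) = true := by
  decide +kernel

set_option maxRecDepth 100000 in
theorem bkT_length : bkT.length = 257 := by decide +kernel

theorem keys_nodup : (tblT.map (fun e => (e.1, e.2.1))).Nodup := by
  have hb := bk_keys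
  simp only [List.all_eq_true, List.mem_range, Bool.and_eq_true, Nat.beq_eq] at hb
  rw [tblT, List.map_flatten, List.nodup_flatten]
  constructor
  · intro l hl
    rw [List.mem_map] at hl
    obtain ⟨b, hb', rfl⟩ := hl
    obtain ⟨i, hi, rfl⟩ := List.getElem_of_mem hb'
    have h1 := (hb i (by rw [← bkT_length]; exact hi)).1
    rw [List.getD_eq_getElem _ _ hi] at h1
    exact nodupB2_spec _ h1
  · rw [List.pairwise_map, List.pairwise_iff_getElem]
    intro i j hi hj hij m hm1 hm2
    rw [List.mem_map] at hm1 hm2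
    obtain ⟨e1, he1, rfl⟩ := hm1
    obtain ⟨e2, he2, h12⟩ := hm2
    have h1 := (hb i (by rw [← bkT_length]; exact hi)).2 e1
      (by rw [List.getD_eq_getElem _ _ hi]; exact he1)
    have h2 := (hb j (by rw [← bkT_length]; exact hj)).2 e2
      (by rw [List.getD_eq_getElem _ _ hj]; exact he2)
    have h3 : e2.1 = e1.1 := (Prod.mk.inj h12).1
    have h4 : e2.2.1 = e1.2.1 := (Prod.mk.inj h12).2
    rw [h3, h4] at h2
    omega

theorem ncard_class (c : ℕ) : {X | X ∈ trios ∧ clsT T0 X = c}.ncard
    = ((tblT.filter (fun e => Nat.beq e.2.2.1 c)).map (fun e => (e.1, e.2.1))).length := by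
  classical
  rw [class_image c, Set.InjOn.ncard_image (trOf_injOn.mono (fun m hm => by
    obtain ⟨e, he, h1, -⟩ := hm
    exact ⟨e, he, h1⟩))]
  have : {k | ∃ e ∈ tblT, (e.1, e.2.1) = k ∧ e.2.2.1 = c}
      = ((((tblT.filter (fun e => Nat.beq e.2.2.1 c)).map (fun e => (e.1, e.2.1))).toFinset :
        Finset (ℕ × ℕ)) : Set (ℕ × ℕ)) := by
    ext m
    simp only [Set.mem_ofPred_eq, Finset.mem_coe, List.mem_toFinset, List.mem_map,
      List.mem_filter, Nat.beq_eq]
    constructor
    · rintro ⟨e, he, h1, h2⟩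
      exact ⟨e, ⟨he, h2⟩, h1⟩
    · rintro ⟨e, ⟨he, h2⟩, h1⟩
      exact ⟨e, he, h1, h2⟩
  rw [this, Set.ncard_coe_finset, List.toFinset_card_of_nodup
    (keys_nodup.sublist (List.Sublist.map _ List.filter_sublist))]

set_option maxRecDepth 100000 in
theorem counts : ∀ c < 5,
    ((tblT.filter (fun e => Nat.beq e.2.2.1 c)).map (fun e => (e.1, e.2.1))).length
      = [1, 42, 56, 1008, 2688].getD c 0 := by decide +kernel

end Tr
end Cfsg.Agent.Lib.Helper4
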