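import Cfsg.Agent.Lib.Helper4.Tr3

set_option autoImplicit false

namespace Cfsg.Agent.Lib.Helper4
namespace Tr

open Pointwise Golay Sx

/-- Check of a witness carrying the standard trio to a class representative. -/
def stdChk (c : ℕ) (w : List ℕ × List ℕ) : Bool :=
  and (and (chk w.1 w.2) (memChk w.1)) (mapChk w.1 T0L (repL c))

theorem std_spec (c : ℕ) (hc : c < 5) (w : List ℕ × List ℕ) (h : stdChk c w = true) :
    ∃ k ∈ M24, k • T0 = mkSys (repL c) := by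
  simp only [stdChk, Bool.and_eq_true] at h
  obtain ⟨⟨hchk, hm⟩, hmap⟩ := h
  exact ⟨mkPerm w.1 w.2 hchk, mkPerm_mem _ _ hchk hm,
    map_spec hchk hm T0_trio (rep_ok c hc).1 hmap⟩

set_option maxRecDepth 100000 in
theorem std1 : stdChk 1 ([1, 12, 0, 10, 4, 13, 15, 7, 16, 8, 3, 14, 2, 6, 18, 5, 23, 22, 21, 19, 20, 11, 17, 9], [2, 0, 12, 10, 4, 15, 13, 7, 9, 23, 3, 21, 1, 5, 11, 6, 8, 22, 14, 19, 20, 18, 17, 16]) = true := by decide +kernel

set_option maxRecDepth 100000 in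
theorem std2 : stdChk 2 ([9, 0, 4, 21, 10, 3, 19, 5, 13, 6, 15, 11, 12, 22, 23, 16, 17, 8, 20, 18, 7, 1, 14, 2], [1, 21, 23, 5, 2, 7, 9, 20, 17, 0, 4, 11, 12, 8, 22, 10, 15, 16, 19, 6, 18, 3, 13, 14]) = true := by decide +kernel

set_option maxRecDepth 100000 in
theorem std3 : stdChk 3 ([6, 19, 14, 18, 21, 10, 13, 15, 20, 16, 23, 11, 22, 3, 2, 9, 5, 4, 1, 8, 12, 0, 17, 7], [21, 18, 14, 13, 17, 16, 0, 23, 19, 15, 5, 11, 20, 6, 2, 7, 9, 22, 3, 1, 8, 4, 12, 10]) = true := by decide +kernel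

set_option maxRecDepth 100000 in
theorem std4 : stdChk 4 ([18, 15, 16, 10, 19, 13, 22, 14, 2, 8, 9, 23, 0, 6, 17, 3, 7, 12, 21, 20, 4, 11, 1, 5], [12, 22, 8, 15, 20, 23, 13, 16, 9, 10, 3, 21, 17, 5, 7, 1, 2, 14, 0, 4, 19, 18, 6, 11]) = true := by decide +kernel

theorem rep_std (c : ℕ) (hc : c < 5) : ∃ k ∈ M24, k • T0 = mkSys (repL c) := by
  interval_cases c
  · exact ⟨1, M24.one_mem, one_smul _ _⟩
  · exact std_spec 1 (by norm_num) _ std1
  · exact std_spec 2 (by norm_num) _ std2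
  · exact std_spec 3 (by norm_num) _ std3
  · exact std_spec 4 (by norm_num) _ std4

/-- The group is transitive on trios. -/
theorem exists_std {T : Finset (Finset GolayPt)} (hT : T ∈ trios) : ∃ h ∈ M24, h • T = T0 := by
  obtain ⟨c, hc, g, hg, gT, rfl⟩ := exists_class hT
  obtain ⟨k, hk, e⟩ := rep_std c hc
  refine ⟨(g * k)⁻¹, M24.inv_mem (M24.mul_mem hg hk), ?_⟩
  rw [← e, ← mul_smul g k, inv_smul_smul]

theorem orb_zero {Z : Finset (Finset GolayPt)} (h : Orb T0 (mkSys (repL 0)) Z) : Z = T0 := by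
  obtain ⟨g, hg, gS, rfl⟩ := h
  exact gS

/-- Check of a witness for a step between classes. -/
def witChk (c c' : ℕ) (w : List ℕ × List ℕ × List ℕ × List ℕ) : Bool :=
  and (and (and (chk w.1 w.2.1) (memChk w.1)) (and (trioChk w.2.2.1) (trioChk w.2.2.2)))
    (and (and (mapChk w.1 T0L w.2.2.1) (mapChk w.1 (repL c) w.2.2.2))
      (and (Nat.beq (clsTL T0L w.2.2.1) c) (Nat.beq (clsTL T0L w.2.2.2) c')))

theorem wit_spec (c c' : ℕ) (hc : c < 5) (hc' : c' < 5)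
    (w : List ℕ × List ℕ × List ℕ × List ℕ) (h : witChk c c' w = true) :
    ∃ k ∈ M24, Orb T0 (mkSys (repL c)) (k • T0) ∧
      Orb T0 (mkSys (repL c')) (k • mkSys (repL c)) := by
  simp only [witChk, Bool.and_eq_true, Nat.beq_eq] at h
  obtain ⟨⟨⟨hchk, hm⟩, hx, hy⟩, ⟨hmx, hmy⟩, hc1, hc2⟩ := h
  have hk := mkPerm_mem w.1 w.2.1 hchk hm
  have ex : mkPerm w.1 w.2.1 hchk • T0 = mkSys w.2.2.1 := map_spec hchk hm T0_trio hx hmx
  have ey : mkPerm w.1 w.2.1 hchk • mkSys (repL c) = mkSys w.2.2.2 :=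
    map_spec hchk hm (rep_trio c hc) hy hmy
  refine ⟨mkPerm w.1 w.2.1 hchk, hk, ?_, ?_⟩
  · rw [ex, class_eq (mkSys_trio hx) hc, T0, clsT_mkSys]
    exact hc1
  · rw [ey, class_eq (mkSys_trio hy) hc', T0, clsT_mkSys]
    exact hc2

set_option maxRecDepth 100000 in
theorem wit12 : witChk 1 2 ([10, 12, 23, 7, 21, 5, 16, 9, 15, 22, 8, 13, 1, 19, 14, 0, 6, 17, 11, 18, 20, 2, 3, 4], [15, 12, 21, 22, 23, 5, 16, 3, 10, 7, 0, 18, 1, 11, 14, 8, 6, 17, 19, 13, 20, 4, 9, 2], [1009728, 5275709, 10491778], [346141, 5939296, 10491778]) = true := by decide +kernel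

set_option maxRecDepth 100000 in
theorem wit24 : witChk 2 4 ([5, 21, 7, 3, 8, 6, 9, 22, 16, 1, 12, 15, 4, 23, 19, 18, 11, 14, 20, 13, 0, 10, 2, 17], [20, 9, 22, 3, 12, 0, 5, 2, 4, 6, 21, 16, 10, 19, 17, 11, 8, 23, 15, 14, 18, 1, 7, 13], [459847, 6295992, 10021376], [267634, 1302533, 15207048]) = true := by decide +kernel

set_option maxRecDepth 100000 in
theorem wit43 : witChk 4 3 ([8, 16, 0, 19, 23, 20, 10, 18, 7, 17, 4, 22, 6, 15, 14, 5, 9, 11, 1, 21, 2, 3, 13, 12], [2, 18, 20, 21, 10, 15, 12, 8, 0, 16, 6, 17, 23, 22, 14, 13, 1, 9, 7, 3, 5, 19, 11, 4], [1192108, 6344194, 9240913], [277580, 2245426, 14254209]) = true := by decide +kernel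

set_option maxRecDepth 100000 in
theorem wit31 : witChk 3 1 ([1, 2, 9, 8, 4, 10, 19, 15, 5, 21, 12, 20, 22, 7, 18, 16, 23, 3, 13, 6, 0, 17, 11, 14], [20, 0, 1, 17, 4, 8, 19, 13, 3, 2, 5, 22, 10, 18, 23, 7, 15, 21, 14, 6, 11, 9, 12, 16], [2313249, 4231958, 10232008], [1009728, 1050548, 14716939]) = true := by decide +kernel

/-- The facts about the action of a trio stabiliser on trios, for an arbitrary trio. -/
theorem main {T : Finset (Finset GolayPt)} (hT : T ∈ trios) :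
    ∃ X : ℕ → Finset (Finset GolayPt), (∀ c, X c ∈ trios) ∧
      {Z | Orb T (X 1) Z}.ncard = 42 ∧ {Z | Orb T (X 2) Z}.ncard = 56 ∧
      {Z | Orb T (X 3) Z}.ncard = 1008 ∧ {Z | Orb T (X 4) Z}.ncard = 2688 ∧
      (∀ Z ∈ trios, Z = T ∨ Orb T (X 1) Z ∨ Orb T (X 2) Z ∨ Orb T (X 3) Z ∨ Orb T (X 4) Z) ∧
      (¬ Orb T (X 1) T) ∧
      (∃ k ∈ M24, Orb T (X 1) (k • T) ∧ Orb T (X 2) (k • X 1)) ∧
      (∃ k ∈ M24, Orb T (X 2) (k • T) ∧ Orb T (X 4) (k • X 2)) ∧
      (∃ k ∈ M24, Orb T (X 4) (k • T) ∧ Orb T (X 3) (k • X 4)) ∧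
      (∃ k ∈ M24, Orb T (X 3) (k • T) ∧ Orb T (X 1) (k • X 3)) := by
  obtain ⟨h, hh, hT0⟩ := exists_std hT
  have hi : h⁻¹ ∈ M24 := M24.inv_mem hh
  have hrep : ∀ c, mkSys (repL c) ∈ trios := by
    intro c
    by_cases hc : c < 5
    · exact rep_trio c hc
    · have : repL c = T0L := by
        unfold repL
        rw [beq_false (by omega), beq_false (by omega), beq_false (by omega),
          beq_false (by omega)]
        rfl
      rw [this]
      exact T0_trio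
  have key : ∀ c, ∀ Z, Orb T (h⁻¹ • mkSys (repL c)) Z ↔ Orb T0 (mkSys (repL c)) (h • Z) := by
    intro c Z
    rw [orb_transport hh, hT0]
  have hn : ∀ c, c < 5 → {Z | Orb T (h⁻¹ • mkSys (repL c)) Z}.ncard
      = [1, 42, 56, 1008, 2688].getD c 0 := by
    intro c hc
    rw [← counts c hc, ← ncard_class c]
    have : {Z | Orb T (h⁻¹ • mkSys (repL c)) Z}
        = (fun Y => h⁻¹ • Y) '' {X | X ∈ trios ∧ clsT T0 X = c} := by
      ext Z
      simp only [Set.mem_ofPred_eq, Set.mem_image]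
      rw [key]
      constructor
      · intro hZ
        exact ⟨h • Z, ⟨orb_trio (rep_trio c hc) hZ, (class_eq (orb_trio (rep_trio c hc) hZ)
          hc).1 hZ⟩, inv_smul_smul h Z⟩
      · rintro ⟨Y, ⟨hY, hcls⟩, rfl⟩
        rw [smul_inv_smul]
        exact (class_eq hY hc).2 hcls
    rw [this, Set.ncard_image_of_injective _ (MulAction.injective h⁻¹)]
  have wit : ∀ c c', (∃ k ∈ M24, Orb T0 (mkSys (repL c)) (k • T0) ∧
      Orb T0 (mkSys (repL c')) (k • mkSys (repL c))) →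
      ∃ k ∈ M24, Orb T (h⁻¹ • mkSys (repL c)) (k • T) ∧
        Orb T (h⁻¹ • mkSys (repL c')) (k • (h⁻¹ • mkSys (repL c))) := by
    rintro c c' ⟨k, hk, o1, o2⟩
    refine ⟨h⁻¹ * k * h, M24.mul_mem (M24.mul_mem hi hk) hh, ?_, ?_⟩
    · rw [key, mul_smul, mul_smul, smul_inv_smul, hT0]
      exact o1
    · rw [key, mul_smul, mul_smul, smul_inv_smul, smul_inv_smul]
      exact o2
  refine ⟨fun c => h⁻¹ • mkSys (repL c), fun c => smul_trio hi (hrep c), hn 1 (by norm_num),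
    hn 2 (by norm_num), hn 3 (by norm_num), hn 4 (by norm_num), ?_, ?_,
    wit 1 2 (wit_spec 1 2 (by norm_num) (by norm_num) _ wit12),
    wit 2 4 (wit_spec 2 4 (by norm_num) (by norm_num) _ wit24),
    wit 4 3 (wit_spec 4 3 (by norm_num) (by norm_num) _ wit43),
    wit 3 1 (wit_spec 3 1 (by norm_num) (by norm_num) _ wit31)⟩
  · intro Z hZ
    have hZ' := smul_trio hh hZ
    have hlt := clsT_lt T0 (h • Z)
    have h0 := (class_eq hZ' (c := 0) (by norm_num)).2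
    have h1 := (class_eq hZ' (c := 1) (by norm_num)).2
    have h2 := (class_eq hZ' (c := 2) (by norm_num)).2
    have h3 := (class_eq hZ' (c := 3) (by norm_num)).2
    have h4 := (class_eq hZ' (c := 4) (by norm_num)).2
    simp only [key]
    have hcases : clsT T0 (h • Z) = 0 ∨ clsT T0 (h • Z) = 1 ∨ clsT T0 (h • Z) = 2 ∨
        clsT T0 (h • Z) = 3 ∨ clsT T0 (h • Z) = 4 := by omega
    rcases hcases with e | e | e | e | e
    · left
      have := orb_zero (h0 e)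
      rw [← hT0] at this
      exact MulAction.injective h this
    · exact Or.inr (Or.inl (h1 e))
    · exact Or.inr (Or.inr (Or.inl (h2 e)))
    · exact Or.inr (Or.inr (Or.inr (Or.inl (h3 e))))
    · exact Or.inr (Or.inr (Or.inr (Or.inr (h4 e))))
  · rw [key, hT0, class_eq T0_trio (by norm_num)]
    have := cls_rep 0 (by norm_num)
    have e0 : mkSys (repL 0) = T0 := rfl
    rw [e0] at this
    rw [this]
    norm_num

end Tr
end Cfsg.Agent.Lib.Helper4
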