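import Mathlib
import Cfsg.Prelude.Def_Solvable
import Cfsg.Prelude.Def_Transfer
import Cfsg.Prelude.Def_MonsterType
import Cfsg.Agent.Lib.Helper28.LargeES
import Cfsg.Agent.Lib.Helper18.Frattini

set_option autoImplicit false

namespace Cfsg.Agent.Lib.Helper4
namespace TvT

open Cfsg Cfsg.Agent.Lib.Helper28

theorem center_map_eq {A B : Type*} [Group A] [Group B] (e : A ≃* B) :
    (Subgroup.center A).map e.toMonoidHom = Subgroup.center B := by
  ext y
  constructor
  · rintro ⟨x, hx, rfl⟩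
    rw [Subgroup.mem_center_iff]
    intro g
    obtain ⟨g', rfl⟩ := e.surjective g
    have := Subgroup.mem_center_iff.1 hx g'
    show e g' * e x = e x * e g'
    rw [← map_mul, ← map_mul, this]
  · intro hy
    refine ⟨e.symm y, Subgroup.mem_center_iff.2 ?_, e.apply_symm_apply y⟩
    intro g
    have := Subgroup.mem_center_iff.1 hy (e g)
    apply e.injective
    rw [map_mul, map_mul, e.apply_symm_apply]
    exact this

/-- Extraspecial groups are preserved by isomorphisms. -/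
theorem es_equiv {A B : Type*} [Group A] [Group B] (e : A ≃* B) {p : ℕ}
    (h : Cfsg.IsExtraspecial p A) : Cfsg.IsExtraspecial p B := by
  obtain ⟨⟨hp, hf, hc⟩, hz⟩ := h
  have hcen := center_map_eq e
  have hcom : (commutator A).map e.toMonoidHom = commutator B := by
    rw [commutator_def, commutator_def, Subgroup.map_commutator,
      Subgroup.map_top_of_surjective _ e.surjective]
  refine ⟨⟨hp.of_equiv e, ?_, ?_⟩, ?_⟩
  · rw [← Cfsg.Agent.Lib.Helper18.frattini_map_equiv e, hf, hcen]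
  · rw [← hcom, hc, hcen]
  · rw [← hcen, Subgroup.card_map_of_injective e.injective]
    exact hz

/-- Elementary abelian subgroups are preserved by isomorphisms. -/
theorem ea_equiv {P P' : Type*} [Group P] [Group P'] {p : ℕ} {A : Subgroup P} {B : Subgroup P'}
    (e : ↥A ≃* ↥B) (h : IsElementaryAbelian p A) : IsElementaryAbelian p B := by
  obtain ⟨hc, hp⟩ := h
  refine ⟨⟨⟨fun a b => ?_⟩⟩, fun b hb => ?_⟩
  · have h1 := hc.is_comm.comm (e.symm a) (e.symm b)
    apply e.symm.injective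
    rw [map_mul, map_mul]
    exact h1
  · have h1 := hp (e.symm ⟨b, hb⟩).1 (e.symm ⟨b, hb⟩).2
    have h2 : (e.symm ⟨b, hb⟩) ^ p = 1 := Subtype.ext h1
    have h3 : (⟨b, hb⟩ : ↥B) ^ p = 1 := by
      have h4 := congrArg e h2
      rwa [map_pow, MulEquiv.apply_symm_apply, map_one] at h4
    exact congrArg Subtype.val h3

section Tr

variable {G G' : Type*} [Group G] [Group G'] {C : Subgroup G} {C' : Subgroup G'}
  (ψ : ↥C ≃* ↥C')

/-- The transport homomorphism. -/
def trf : ↥C' →* G := C.subtype.comp ψ.symm.toMonoidHom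

theorem trf_inj : Function.Injective (trf ψ) := fun _ _ h => ψ.symm.injective (Subtype.ext h)

/-- Transport of subgroups. -/
def tr (S : Subgroup G') : Subgroup G := (S.comap C'.subtype).map (trf ψ)

theorem tr_mono {S T : Subgroup G'} (h : S ≤ T) : tr ψ S ≤ tr ψ T :=
  Subgroup.map_mono (Subgroup.comap_mono h)

theorem mem_tr {S : Subgroup G'} {x : G} :
    x ∈ tr ψ S ↔ ∃ y : ↥C', (y : G') ∈ S ∧ ((ψ.symm y : ↥C) : G) = x := by
  constructor
  · rintro ⟨y, hy, rfl⟩
    exact ⟨y, hy, rfl⟩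
  · rintro ⟨y, hy, rfl⟩
    exact ⟨y, hy, rfl⟩

theorem tr_le (S : Subgroup G') : tr ψ S ≤ C := by
  rintro x ⟨y, -, rfl⟩
  exact (ψ.symm y).2

/-- A subgroup is isomorphic to its transport. -/
noncomputable def trIso {S : Subgroup G'} (h : S ≤ C') : ↥S ≃* ↥(tr ψ S) :=
  (Subgroup.subgroupOfEquivOfLe h).symm.trans
    (Subgroup.equivMapOfInjective _ (trf ψ) (trf_inj ψ))

theorem tr_inf (S T : Subgroup G') : tr ψ (S ⊓ T) = tr ψ S ⊓ tr ψ T := by
  unfold tr
  rw [Subgroup.comap_inf, Subgroup.map_inf _ _ _ (trf_inj ψ)]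

theorem tr_bot : tr ψ (⊥ : Subgroup G') = ⊥ := by
  unfold tr
  rw [MonoidHom.comap_bot, (MonoidHom.ker_eq_bot_iff _).2 (Subgroup.subtype_injective _),
    Subgroup.map_bot]

theorem tr_sup {S T : Subgroup G'} (hS : S ≤ C') (hT : T ≤ C') :
    tr ψ (S ⊔ T) = tr ψ S ⊔ tr ψ T := by
  unfold tr
  rw [← Subgroup.comap_sup_eq_of_le_range C'.subtype (by rw [Subgroup.range_subtype]; exact hS)
    (by rw [Subgroup.range_subtype]; exact hT), Subgroup.map_sup]

theorem tr_top : tr ψ C' = C := by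
  apply le_antisymm (tr_le ψ C')
  intro x hx
  exact (mem_tr ψ).2 ⟨ψ ⟨x, hx⟩, (ψ ⟨x, hx⟩).2, by rw [MulEquiv.symm_apply_apply]⟩

end Tr

theorem pc_iff {H H' : Type*} [Group H] [Group H'] [Finite H] [Finite H'] (e : H ≃* H') (y : H) :
    y ∈ pCore 2 H ↔ e y ∈ pCore 2 H' := by
  constructor
  · intro hy
    exact pCore_map_equiv_le e ⟨y, hy, rfl⟩
  · intro hy
    have h : e.symm (e y) ∈ pCore 2 H := pCore_map_equiv_le e.symm ⟨e y, hy, rfl⟩
    rwa [MulEquiv.symm_apply_apply] at h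

variable {G G' : Type*} [Group G] [Group G']

theorem tr_Qc [Finite G] [Finite G'] {z : G} {z' : G'}
    (ψ : ↥(Subgroup.centralizer ({z} : Set G)) ≃* ↥(Subgroup.centralizer ({z'} : Set G'))) :
    tr ψ (Qc z') = Qc z := by
  ext x
  rw [mem_tr]
  constructor
  · rintro ⟨y, hy, rfl⟩
    obtain ⟨y', hy', e⟩ := hy
    have hyy : y' = y := Subtype.ext e
    subst hyy
    exact ⟨ψ.symm y', (pc_iff ψ.symm y').1 hy', rfl⟩
  · rintro ⟨y, hy, rfl⟩
    exact ⟨ψ y, ⟨ψ y, (pc_iff ψ y).1 hy, rfl⟩, by rw [MulEquiv.symm_apply_apply]; rfl⟩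

theorem z_mem_Qc [Finite G] {z : G} (hz : orderOf z = 2) : z ∈ Qc z := by
  have hzc : z ∈ Subgroup.centralizer ({z} : Set G) := by
    rw [Subgroup.mem_centralizer_iff]
    intro h hh
    rw [Set.mem_singleton_iff.1 hh]
  have hcen : ∀ y : ↥(Subgroup.centralizer ({z} : Set G)),
      (⟨z, hzc⟩ : ↥(Subgroup.centralizer ({z} : Set G))) * y = y * ⟨z, hzc⟩ := by
    intro y
    apply Subtype.ext
    exact Subgroup.mem_centralizer_iff.1 y.2 z (Set.mem_singleton z)
  have hN : (Subgroup.zpowers (⟨z, hzc⟩ : ↥(Subgroup.centralizer ({z} : Set G)))).Normal := by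
    refine ⟨fun n hn g => ?_⟩
    have e : g * n * g⁻¹ = n := by
      obtain ⟨k, rfl⟩ := hn
      have hc : Commute (⟨z, hzc⟩ : ↥(Subgroup.centralizer ({z} : Set G))) g := hcen g
      have h1 := (hc.zpow_left k).eq
      show g * (⟨z, hzc⟩ : ↥(Subgroup.centralizer ({z} : Set G))) ^ k * g⁻¹ = _
      rw [← h1]
      group
    rw [e]
    exact hn
  have hP : IsPGroup 2 ↥(Subgroup.zpowers (⟨z, hzc⟩ : ↥(Subgroup.centralizer ({z} : Set G)))) := by
    have hcard : Nat.card ↥(Subgroup.zpowers (⟨z, hzc⟩ : ↥(Subgroup.centralizer ({z} : Set G))))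
        = 2 := by
      rw [Nat.card_zpowers, ← hz]
      exact Subgroup.orderOf_mk z hzc
    exact IsPGroup.of_card (n := 1) (by rw [hcard, pow_one])
  exact ⟨⟨z, hzc⟩, le_pCore _ hP (Subgroup.mem_zpowers _), rfl⟩

/-- Transport of the structure of the largest normal `2`-subgroup of an involution centraliser
along an isomorphism of centralisers. -/
theorem transport [Finite G] [Finite G'] {z : G} {z' : G'} (hz : orderOf z = 2)
    (ψ : ↥(Subgroup.centralizer ({z} : Set G)) ≃* ↥(Subgroup.centralizer ({z'} : Set G')))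
    {m r : ℕ} {L : Type*} [Group L]
    (h1 : IsExtraspecial 2 ↥(Qc z')) (h2 : Nat.card ↥(Qc z') = m)
    (h3 : ∃ E : Subgroup G', E ≤ Qc z' ∧ IsElementaryAbelian 2 E ∧ Nat.card ↥E = r)
    (h4 : Subgroup.centralizer ((Qc z' : Subgroup G') : Set G') ≤ Qc z')
    (h5 : ∃ K : Subgroup G', K ≤ Subgroup.centralizer ({z'} : Set G') ∧ Qc z' ⊓ K = ⊥ ∧
      Qc z' ⊔ K = Subgroup.centralizer ({z'} : Set G') ∧ Nonempty (↥K ≃* L)) :
    IsExtraspecial 2 ↥(Qc z) ∧ Nat.card ↥(Qc z) = m ∧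
    (∃ E : Subgroup G, E ≤ Qc z ∧ IsElementaryAbelian 2 E ∧ Nat.card ↥E = r) ∧
    Subgroup.centralizer ((Qc z : Subgroup G) : Set G) =
      (Subgroup.center ↥(Qc z)).map (Qc z).subtype ∧
    Subgroup.centralizer (((Subgroup.center ↥(Qc z)).map (Qc z).subtype : Subgroup G) : Set G) ≤
      Subgroup.normalizer ((Qc z : Subgroup G) : Set G) ∧
    ∃ K : Subgroup G, K ≤ Subgroup.centralizer ({z} : Set G) ∧ Qc z ⊓ K = ⊥ ∧
      Qc z ⊔ K = Subgroup.centralizer ({z} : Set G) ∧ Nonempty (↥K ≃* L) := by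
  have hQ := tr_Qc ψ
  have hQle' : Qc z' ≤ Subgroup.centralizer ({z'} : Set G') := Subgroup.map_subtype_le _
  have eQ : ↥(Qc z') ≃* ↥(Qc z) := (trIso ψ hQle').trans (MulEquiv.subgroupCongr hQ)
  have hzQ : z ∈ Qc z := z_mem_Qc hz
  refine ⟨es_equiv eQ h1, ?_, ?_, ?_, ?_, ?_⟩
  · rw [← Nat.card_congr eQ.toEquiv]
    exact h2
  · obtain ⟨E, hE, hEA, hEc⟩ := h3
    refine ⟨tr ψ E, ?_, ?_, ?_⟩
    · rw [← hQ]
      exact tr_mono ψ hE
    · exact ea_equiv (trIso ψ (hE.trans hQle')) hEA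
    · rw [← Nat.card_congr (trIso ψ (hE.trans hQle')).toEquiv]
      exact hEc
  · ext x
    constructor
    · intro hx
      have hxz : x ∈ Subgroup.centralizer ({z} : Set G) := by
        rw [Subgroup.mem_centralizer_iff]
        intro h hh
        rw [Set.mem_singleton_iff.1 hh]
        exact Subgroup.mem_centralizer_iff.1 hx z hzQ
      have hψ : ((ψ ⟨x, hxz⟩ : ↥(Subgroup.centralizer ({z'} : Set G'))) : G') ∈
          Subgroup.centralizer ((Qc z' : Subgroup G') : Set G') := by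
        rw [Subgroup.mem_centralizer_iff]
        intro h hh
        obtain ⟨y, hy, rfl⟩ := hh
        have h1 : ((ψ.symm y : ↥(Subgroup.centralizer ({z} : Set G))) : G) ∈ Qc z :=
          ⟨ψ.symm y, (pc_iff ψ.symm y).1 hy, rfl⟩
        have h2 := Subgroup.mem_centralizer_iff.1 hx _ h1
        have h3 : ψ.symm y * ⟨x, hxz⟩ = ⟨x, hxz⟩ * ψ.symm y := Subtype.ext h2
        have h4 := congrArg ψ h3
        rw [map_mul, map_mul, MulEquiv.apply_symm_apply] at h4
        exact congrArg Subtype.val h4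
      obtain ⟨y, hy, e⟩ := h4 hψ
      have hye : y = ψ ⟨x, hxz⟩ := Subtype.ext e
      rw [hye] at hy
      have hxQ : x ∈ Qc z := ⟨⟨x, hxz⟩, (pc_iff ψ _).2 hy, rfl⟩
      refine ⟨⟨x, hxQ⟩, ?_, rfl⟩
      rw [SetLike.mem_coe, Subgroup.mem_center_iff]
      intro q
      apply Subtype.ext
      exact Subgroup.mem_centralizer_iff.1 hx q.1 q.2
    · rintro ⟨q, hq, rfl⟩
      rw [Subgroup.mem_centralizer_iff]
      intro h hh
      have h1 := Subgroup.mem_center_iff.1 hq ⟨h, hh⟩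
      exact congrArg Subtype.val h1
  · intro x hx
    have hzZ : z ∈ (Subgroup.center ↥(Qc z)).map (Qc z).subtype := by
      refine ⟨⟨z, hzQ⟩, ?_, rfl⟩
      rw [SetLike.mem_coe, Subgroup.mem_center_iff]
      intro q
      apply Subtype.ext
      exact (Qc_le_centralizer z q.2).symm
    have hxz : x ∈ Subgroup.centralizer ({z} : Set G) := by
      rw [Subgroup.mem_centralizer_iff]
      intro h hh
      rw [Set.mem_singleton_iff.1 hh]
      exact Subgroup.mem_centralizer_iff.1 hx z hzZ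
    rw [Subgroup.mem_normalizer_iff]
    intro h
    constructor
    · intro hh
      exact pCore_map_conj _ hxz hh
    · intro hh
      have h1 := pCore_map_conj _ (Subgroup.inv_mem _ hxz) hh
      have e : x⁻¹ * (x * h * x⁻¹) * x⁻¹⁻¹ = h := by group
      rw [e] at h1
      exact h1
  · obtain ⟨K, hK, hi, hs, ⟨e⟩⟩ := h5
    refine ⟨tr ψ K, tr_le ψ K, ?_, ?_, ⟨(trIso ψ hK).symm.trans e⟩⟩
    · rw [← hQ, ← tr_inf, hi, tr_bot]
    · rw [← hQ, ← tr_sup ψ hQle' hK, hs, tr_top]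

end TvT
end Cfsg.Agent.Lib.Helper4
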