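import Cfsg.Agent.Lib.Helper4.TvD
import Cfsg.Agent.Lib.Helper4.TvE
import Cfsg.Agent.Lib.Helper11.HypGen
import Cfsg.Agent.S5424

set_option autoImplicit false

namespace Cfsg.Agent.Lib.Helper4
namespace TvC

open Pointwise Golay AutA Cfsg.Agent.Lib.Helper28

theorem EO_sq {r : Equiv.Perm GolayPt} (hr : r ∈ EO) : r * r = 1 :=
  (fix_octad O0s_octad).2 r hr

theorem EO_comm {a b : Equiv.Perm GolayPt} (ha : a ∈ EO) (hb : b ∈ EO) : a * b = b * a := by
  have ia : a⁻¹ = a := inv_eq_of_mul_eq_one_right (EO_sq ha)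
  have ib : b⁻¹ = b := inv_eq_of_mul_eq_one_right (EO_sq hb)
  have iab : (a * b)⁻¹ = a * b := inv_eq_of_mul_eq_one_right (EO_sq (Subgroup.mul_mem _ ha hb))
  rw [← iab, mul_inv_rev, ia, ib]

theorem EO_fix {b : Equiv.Perm GolayPt} (hb : b ∈ EO) (hb1 : b ≠ 1) (q : GolayPt) :
    b q = q ↔ q ∈ O0s := by
  have hfix := (mem_fixingSubgroup_iff (Equiv.Perm GolayPt)).1 hb.2
  constructor
  · intro hq
    by_contra hcon
    apply hb1
    have hq1 : cv q 1 = 1 := (cv_O q).2 hcon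
    have ht := EO_transl hb q hq1
    rw [hq] at ht
    have hτ : cv (b (pt 5)) + cv (pt 5) = 0 := left_eq_add.1 ht
    apply Equiv.ext
    intro p
    by_cases hp : p ∈ O0s
    · have h1 := hfix p (Finset.mem_coe.2 hp)
      rw [Equiv.Perm.smul_def] at h1
      rw [h1]
      rfl
    · have hp1 : cv p 1 = 1 := (cv_O p).2 hp
      have h1 := EO_transl hb p hp1
      rw [hτ, add_zero] at h1
      have hbp1 : cv (b p) 1 = 1 := by
        rw [h1]
        exact hp1
      have h2 := pv_cv (b p) hbp1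
      rw [h1, pv_cv p hp1] at h2
      rw [Equiv.Perm.one_apply]
      exact h2.symm
  · intro hq
    have h1 := hfix q (Finset.mem_coe.2 hq)
    rwa [Equiv.Perm.smul_def] at h1

theorem comm_HO {b x : Equiv.Perm GolayPt} (hb : b ∈ EO) (hb1 : b ≠ 1) (hx : x ∈ M24)
    (hc : b * x = x * b) : x ∈ HO := by
  refine ⟨hx, ?_⟩
  show x • O0s = O0s
  apply smul_eq_of_maps
  intro q hq
  have hbq : b q = q := (EO_fix hb hb1 q).2 hq
  have h1 : b (x q) = x q := by
    have h2 := congrArg (fun f : Equiv.Perm GolayPt => f q) hc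
    simp only [Equiv.Perm.mul_apply] at h2
    rw [h2, hbq]
  exact (EO_fix hb hb1 _).1 h1

/-- The pointwise stabiliser of the standard octad inside the group of the code. -/
def EM : Subgroup ↥M24 := EO.comap M24.subtype

theorem card_EM : Nat.card ↥EM = 16 := by
  have h : EO ≤ M24 := inf_le_left
  rw [← card_fixO0]
  exact Nat.card_congr (Subgroup.subgroupOfEquivOfLe h).toEquiv

theorem EM_ea : IsElementaryAbelian 2 EM := by
  refine ⟨⟨⟨fun a b => ?_⟩⟩, fun a ha => ?_⟩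
  · apply Subtype.ext
    apply Subtype.ext
    show (a.1.1 : Equiv.Perm GolayPt) * b.1.1 = b.1.1 * a.1.1
    exact EO_comm a.2 b.2
  · apply Subtype.ext
    show (a.1 : Equiv.Perm GolayPt) ^ 2 = 1
    rw [pow_two]
    exact EO_sq ha

theorem EM_le_Qc : EM ≤ Qc zM := by
  intro e he
  have hec : e ∈ Subgroup.centralizer ({zM} : Set ↥M24) := by
    rw [Subgroup.mem_centralizer_iff]
    intro h hh
    rw [Set.mem_singleton_iff.1 hh]
    apply Subtype.ext
    show zP * (e.1 : Equiv.Perm GolayPt) = e.1 * zP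
    exact EO_comm zP_EO he
  have hN : (EM.comap (Subgroup.centralizer ({zM} : Set ↥M24)).subtype).Normal := by
    refine ⟨fun n hn g => ?_⟩
    show (g.1.1 : Equiv.Perm GolayPt) * n.1.1 * (g.1.1)⁻¹ ∈ EO
    exact conj_EO (cent_HO g) hn
  have hP : IsPGroup 2 ↥(EM.comap (Subgroup.centralizer ({zM} : Set ↥M24)).subtype) := by
    intro n
    refine ⟨1, ?_⟩
    apply Subtype.ext
    apply Subtype.ext
    apply Subtype.ext
    show (n.1.1.1 : Equiv.Perm GolayPt) ^ (2 ^ 1) = 1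
    rw [pow_one, pow_two]
    exact EO_sq n.2
  exact ⟨⟨e, hec⟩, le_pCore _ hP
    (show (⟨e, hec⟩ : ↥(Subgroup.centralizer ({zM} : Set ↥M24))) ∈
      EM.comap (Subgroup.centralizer ({zM} : Set ↥M24)).subtype from he), rfl⟩

/-- No nontrivial subgroup of odd order is normalised by the largest normal `2`-subgroup of the
centraliser of the standard involution. -/
theorem odd_zM (K : Subgroup ↥M24) (hK : Odd (Nat.card ↥K))
    (hn : Qc zM ≤ Subgroup.normalizer (K : Set ↥M24)) : K = ⊥ := by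
  have p2 : Fact (Nat.Prime 2) := ⟨Nat.prime_two⟩
  have hodd : ¬ 2 ∣ Nat.card ↥K := by
    intro h
    exact (Nat.not_even_iff_odd.2 hK) (even_iff_two_dvd.2 h)
  have hEn : EM ≤ Subgroup.normalizer (K : Set ↥M24) := EM_le_Qc.trans hn
  have hgen := Cfsg.Agent.Lib.Helper11.hypGen_main 2 (Nat.card ↥K) ↥M24 EM K EM_ea hodd hEn
    le_rfl
  have hKH : ∀ x ∈ K, (x : Equiv.Perm GolayPt) ∈ HO := by
    have hle : Cfsg.Agent.Lib.Helper11.hypGen 2 EM K ≤ HO.comap M24.subtype := by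
      apply iSup_le
      rintro ⟨B, hBle, hBi⟩
      have hB : B ≠ ⊥ := by
        rintro rfl
        rw [Subgroup.relIndex_bot_left, card_EM] at hBi
        omega
      obtain ⟨⟨b, hb⟩, hb1⟩ := Subgroup.ne_bot_iff_exists_ne_one.1 hB
      intro x hx
      have hxc := (Subgroup.mem_inf.1 hx).2
      have hcomm : b * x = x * b := Subgroup.mem_centralizer_iff.1 hxc b hb
      exact comm_HO (hBle hb) (fun h => hb1 (Subtype.ext (Subtype.ext h))) x.2
        (congrArg Subtype.val hcomm)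
    intro x hx
    exact hle (hgen hx)
  have hcomm : ∀ x ∈ K, ∀ e ∈ EM, x * e = e * x := by
    intro x hx e he
    have hc1 : x * e * x⁻¹ * e⁻¹ ∈ EM := by
      have h1 : x * e * x⁻¹ ∈ EM := conj_EO (hKH x hx) he
      exact Subgroup.mul_mem _ h1 (Subgroup.inv_mem _ he)
    have hc2 : x * e * x⁻¹ * e⁻¹ ∈ K := by
      have h1 : e * x⁻¹ * e⁻¹ ∈ K :=
        ((Subgroup.mem_normalizer_iff.1 (hEn he)) x⁻¹).1 (Subgroup.inv_mem _ hx)
      have h2 := Subgroup.mul_mem _ hx h1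
      have e2 : x * (e * x⁻¹ * e⁻¹) = x * e * x⁻¹ * e⁻¹ := by group
      rwa [e2] at h2
    have h1 := eq_one_of_two_pow_of_odd hK hc2 ⟨1, by
      rw [pow_one, pow_two]
      apply Subtype.ext
      exact EO_sq hc1⟩
    calc x * e = (x * e * x⁻¹ * e⁻¹) * e * x := by group
      _ = e * x := by rw [h1, one_mul]
  rw [Subgroup.eq_bot_iff_forall]
  intro x hx
  have hxH := hKH x hx
  have h5 : cv ((x : Equiv.Perm GolayPt) (pt 5)) 1 = 1 := HO_out hxH cv5
  obtain ⟨r, hr, hr5⟩ := EO_reg cv5 h5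
  have hg : r⁻¹ * (x : Equiv.Perm GolayPt) = 1 := by
    apply fix16 (Subgroup.mul_mem _ (Subgroup.inv_mem _ hr.1) x.2)
    intro q hq
    obtain ⟨r', hr', rfl⟩ := EO_reg cv5 hq
    have hxr' : (x : Equiv.Perm GolayPt) * r' = r' * x := by
      have h1 := hcomm x hx ⟨r', hr'.1⟩ hr'
      exact congrArg Subtype.val h1
    have h1 : (x : Equiv.Perm GolayPt) (r' (pt 5)) = r' ((x : Equiv.Perm GolayPt) (pt 5)) := by
      have h2 := congrArg (fun f : Equiv.Perm GolayPt => f (pt 5)) hxr'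
      simpa only [Equiv.Perm.mul_apply] using h2
    have h2 : r' * r = r * r' := EO_comm hr' hr
    have h3 : r' (r (pt 5)) = r (r' (pt 5)) := by
      have h4 := congrArg (fun f : Equiv.Perm GolayPt => f (pt 5)) h2
      simpa only [Equiv.Perm.mul_apply] using h4
    rw [Equiv.Perm.mul_apply, h1, ← hr5, h3]
    simp
  have hxr : (x : Equiv.Perm GolayPt) = r := by
    have h1 : (x : Equiv.Perm GolayPt) = r * (r⁻¹ * x) := by group
    rw [h1, hg, mul_one]
  have hxE : x ∈ EM := by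
    show (x : Equiv.Perm GolayPt) ∈ EO
    rw [hxr]
    exact hr
  exact eq_one_of_two_pow_of_odd hK hx ⟨1, by
    rw [pow_one, pow_two]
    apply Subtype.ext
    exact EO_sq hxE⟩

/-- The standard transvection. -/
def sT : Matrix.SpecialLinearGroup (Fin 5) (ZMod 2) :=
  ⟨Matrix.transvection 0 1 1, Matrix.det_transvection_of_ne 0 1 (by decide) 1⟩

theorem sT_val : (sT : Matrix (Fin 5) (Fin 5) (ZMod 2)) = Matrix.transvection 0 1 1 := rfl

theorem phiR_inj : Function.Injective (phi.codRestrict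
    (Subgroup.centralizer ({sT} : Set (Matrix.SpecialLinearGroup (Fin 5) (ZMod 2))))
    (phi_mem sT sT_val)) := by
  intro a b hab
  apply phi_inj
  exact congrArg Subtype.val hab

theorem card_cent_le : Nat.card ↥(Subgroup.centralizer ({zM} : Set ↥M24)) ≤ 21504 :=
  (Nat.card_le_card_of_injective _ phiR_inj).trans
    (Cfsg.Agent.Lib.Helper19.TransvCent.card_cent_transvection_le sT sT_val)

theorem iso_zM : Nonempty (↥(Subgroup.centralizer ({zM} : Set ↥M24)) ≃*
    ↥(Subgroup.centralizer ({sT} : Set (Matrix.SpecialLinearGroup (Fin 5) (ZMod 2))))) := by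
  have hle : Nat.card ↥(Subgroup.centralizer
      ({sT} : Set (Matrix.SpecialLinearGroup (Fin 5) (ZMod 2)))) ≤
      Nat.card ↥(Subgroup.centralizer ({zM} : Set ↥M24)) :=
    (Cfsg.Agent.Lib.Helper19.TransvCent.card_cent_transvection_le sT sT_val).trans card_cent_ge
  exact ⟨MulEquiv.ofBijective _ (phiR_inj.bijective_of_nat_card_le hle)⟩

/-- Every non-identity element of the pointwise stabiliser is conjugate to the standard
involution under the octad stabiliser. -/
theorem orb_EO (w : ↥EO) (hw : w ≠ 1) :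
    ∃ h : ↥HO, (h.1 : Equiv.Perm GolayPt) * zP * (h.1)⁻¹ = w.1 := by
  let _ := conjA
  have hH : 322560 ≤ Nat.card ↥HO := oct_stab_ge O0s_octad
  have h1 : Nat.card ↥HO = Nat.card ↥(MulAction.orbit ↥HO zE) *
      Nat.card ↥(MulAction.stabilizer ↥HO zE) := by
    rw [Subgroup.card_eq_card_quotient_mul_card_subgroup (MulAction.stabilizer ↥HO zE),
      ← Nat.card_congr (MulAction.orbitEquivQuotientStabilizer ↥HO zE)]
  have hsub : MulAction.orbit ↥HO zE ⊆ (Set.univ : Set ↥EO) \ {1} := by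
    rintro _ ⟨g, rfl⟩
    refine ⟨Set.mem_univ _, ?_⟩
    intro h
    rw [Set.mem_singleton_iff] at h
    have h' : g.1 * zP * g.1⁻¹ = 1 := congrArg Subtype.val h
    apply zP_ne
    have e : zP = g.1⁻¹ * (g.1 * zP * g.1⁻¹) * g.1 := by group
    rw [e, h']
    group
  have h15 : ((Set.univ : Set ↥EO) \ {1}).ncard = 15 := by
    rw [Set.ncard_sdiff_singleton_of_mem (Set.mem_univ _), Set.ncard_univ]
    have h16 : Nat.card ↥EO = 16 := card_fixO0
    rw [h16]
  have h4 : Nat.card ↥(MulAction.stabilizer ↥HO zE) ≤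
      Nat.card ↥(Subgroup.centralizer ({zM} : Set ↥M24)) := by
    have hcent : ∀ k : ↥(MulAction.stabilizer ↥HO zE),
        (⟨k.1.1, k.1.2.1⟩ : ↥M24) ∈ Subgroup.centralizer ({zM} : Set ↥M24) := by
      intro k
      rw [Subgroup.mem_centralizer_iff]
      intro h hh
      rw [Set.mem_singleton_iff.1 hh]
      apply Subtype.ext
      show zP * k.1.1 = k.1.1 * zP
      have hk : k.1 • zE = zE := k.2
      have hk' : k.1.1 * zP * k.1.1⁻¹ = zP := congrArg Subtype.val hk
      calc zP * k.1.1 = (k.1.1 * zP * k.1.1⁻¹) * k.1.1 := by rw [hk']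
        _ = k.1.1 * zP := by group
    apply Nat.card_le_card_of_injective (fun k : ↥(MulAction.stabilizer ↥HO zE) =>
      (⟨⟨k.1.1, k.1.2.1⟩, hcent k⟩ : ↥(Subgroup.centralizer ({zM} : Set ↥M24))))
    intro a b hab
    apply Subtype.ext
    apply Subtype.ext
    exact congrArg (fun c : ↥(Subgroup.centralizer ({zM} : Set ↥M24)) =>
      (c.1.1 : Equiv.Perm GolayPt)) hab
  have hge : 15 ≤ (MulAction.orbit ↥HO zE).ncard := by
    rw [← Nat.card_coe_set_eq]
    have h5 := card_cent_le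
    by_contra hlt
    have h6 : Nat.card ↥(MulAction.orbit ↥HO zE) ≤ 14 := by omega
    have h7 : Nat.card ↥HO ≤ 14 * 21504 := by
      rw [h1]
      exact Nat.mul_le_mul h6 (h4.trans h5)
    omega
  have heq := Set.eq_of_subset_of_ncard_le hsub (by rw [h15]; exact hge) (Set.toFinite _)
  have hwm : w ∈ MulAction.orbit ↥HO zE := by
    rw [heq]
    exact ⟨Set.mem_univ _, hw⟩
  obtain ⟨h, hh⟩ := hwm
  exact ⟨h, congrArg Subtype.val hh⟩

/-- Every involution whose fixed points form an octad is conjugate to the standard one. -/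
theorem conj_zM (z : ↥M24) (hz : orderOf z = 2)
    (hfix : (Finset.univ.filter fun p : GolayPt => (z : Equiv.Perm GolayPt) p = p) ∈ octads) :
    ∃ k : ↥M24, z = k * zM * k⁻¹ := by
  obtain ⟨g, hg, hgO⟩ := octad_trans _ O0s hfix O0s_octad
  have hw : g * (z : Equiv.Perm GolayPt) * g⁻¹ ∈ EO := by
    refine Subgroup.mem_inf.2
      ⟨Subgroup.mul_mem _ (Subgroup.mul_mem _ hg z.2) (Subgroup.inv_mem _ hg), ?_⟩
    rw [mem_fixingSubgroup_iff]
    intro y hy
    rw [Finset.mem_coe, ← hgO] at hy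
    obtain ⟨q, hq, rfl⟩ := Finset.mem_smul_finset.1 hy
    have hq' : (z : Equiv.Perm GolayPt) q = q := (Finset.mem_filter.1 hq).2
    simp [hq']
  have hw1 : g * (z : Equiv.Perm GolayPt) * g⁻¹ ≠ 1 := by
    intro h
    have h1 : (z : Equiv.Perm GolayPt) = 1 := by
      have e : (z : Equiv.Perm GolayPt) = g⁻¹ * (g * z * g⁻¹) * g := by group
      rw [e, h]
      group
    have hz1 : z = 1 := Subtype.ext h1
    rw [hz1, orderOf_one] at hz
    norm_num at hz
  obtain ⟨h, hh⟩ := orb_EO ⟨_, hw⟩ (fun e => hw1 (congrArg Subtype.val e))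
  refine ⟨⟨g⁻¹ * h.1, Subgroup.mul_mem _ (Subgroup.inv_mem _ hg) h.2.1⟩, ?_⟩
  apply Subtype.ext
  show (z : Equiv.Perm GolayPt) = (g⁻¹ * h.1) * zP * (g⁻¹ * h.1)⁻¹
  have e : (g⁻¹ * h.1) * zP * (g⁻¹ * h.1)⁻¹ = g⁻¹ * (h.1 * zP * (h.1)⁻¹) * g := by group
  rw [e, hh]
  group

/-- The structure of the centraliser of an involution whose fixed points form an octad. -/
theorem final (z : ↥M24) (hz : orderOf z = 2)
    (hfix : (Finset.univ.filter fun p : GolayPt => (z : Equiv.Perm GolayPt) p = p) ∈ octads) :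
    IsExtraspecial 2 ↥(Qc z) ∧ Nat.card ↥(Qc z) = 2 ^ 7 ∧
    (∃ E : Subgroup ↥M24, E ≤ Qc z ∧ IsElementaryAbelian 2 E ∧ Nat.card ↥E = 2 ^ 4) ∧
    IsLargeExtraspecial (Qc z) ∧
    ∃ K : Subgroup ↥M24, K ≤ Subgroup.centralizer ({z} : Set ↥M24) ∧ Qc z ⊓ K = ⊥ ∧
      Qc z ⊔ K = Subgroup.centralizer ({z} : Set ↥M24) ∧
      Nonempty (↥K ≃* Matrix.SpecialLinearGroup (Fin 3) (ZMod 2)) := by
  obtain ⟨k, rfl⟩ := conj_zM z hz hfix
  obtain ⟨ψ0⟩ := iso_zM
  have ψ := (conjCent k zM).symm.trans ψ0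
  obtain ⟨a1, a2, a3, ⟨-, a4b, -, -⟩, a5⟩ :=
    Cfsg.Agent.S5424.result 3 (by norm_num) sT sT_val (Qc sT) rfl
  have hC : Subgroup.centralizer ((Qc sT : Subgroup (Matrix.SpecialLinearGroup (Fin 5) (ZMod 2))) :
      Set (Matrix.SpecialLinearGroup (Fin 5) (ZMod 2))) ≤ Qc sT := by
    rw [a4b]
    exact Subgroup.map_subtype_le _
  obtain ⟨b1, b2, b3, b4, b5, b6⟩ := TvT.transport hz ψ a1 a2 a3 hC a5
  refine ⟨b1, b2, b3, ⟨b1, b4, b5, ?_⟩, b6⟩
  intro K hK hn
  have hK0 : Odd (Nat.card ↥(K.map (MulAut.conj k⁻¹).toMonoidHom)) := by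
    rw [Subgroup.card_map_of_injective (MulAut.conj k⁻¹).injective]
    exact hK
  have hn0 : Qc zM ≤ Subgroup.normalizer
      ((K.map (MulAut.conj k⁻¹).toMonoidHom : Subgroup ↥M24) : Set ↥M24) := by
    intro q hq
    have hq' : k * q * k⁻¹ ∈ Qc (k * zM * k⁻¹) := Qc_conj k zM q hq
    have h1 : (MulAut.conj k⁻¹) (k * q * k⁻¹) ∈
        (Subgroup.normalizer (K : Set ↥M24)).map (MulAut.conj k⁻¹).toMonoidHom :=
      ⟨_, hn hq', rfl⟩
    have h2 := Subgroup.le_normalizer_map (MulAut.conj k⁻¹).toMonoidHom h1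
    have e : (MulAut.conj k⁻¹) (k * q * k⁻¹) = q := by
      rw [MulAut.conj_apply]
      group
    rw [e] at h2
    exact h2
  have h0 := odd_zM _ hK0 hn0
  exact (Subgroup.map_eq_bot_iff_of_injective K (MulAut.conj k⁻¹).injective).1 h0

end TvC
end Cfsg.Agent.Lib.Helper4
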