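import Mathlib
import Cfsg.Agent.Lib.Lead.FrobeniusMore

set_option autoImplicit false

namespace Cfsg.Agent.Lib.Helper4
namespace Zas

open scoped Pointwise

universe u v

variable {G : Type u} [Group G] {Ω : Type v} [MulAction G Ω]

/-- Frobenius kernel of a subgroup `X` acting transitively on an invariant set `Δ` with
non-identity elements fixing at most one point of `Δ`. -/
theorem exists_kernel [Finite G] (X : Subgroup G) (Δ : Set Ω)
    (hinv : ∀ x ∈ X, ∀ c ∈ Δ, x • c ∈ Δ)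
    (htrans : ∀ c ∈ Δ, ∀ d ∈ Δ, ∃ x ∈ X, x • c = d)
    (hfix : ∀ x ∈ X, x ≠ 1 → ∀ c ∈ Δ, ∀ d ∈ Δ, x • c = c → x • d = d → c = d)
    (c0 : Ω) (hc0 : c0 ∈ Δ) (hstab : ∃ x ∈ X, x ≠ 1 ∧ x • c0 = c0)
    (hmove : ∃ x ∈ X, x • c0 ≠ c0) :
    ∃ M : Subgroup G, (∀ x, x ∈ M ↔ x ∈ X ∧ (x = 1 ∨ ∀ c ∈ Δ, x • c ≠ c)) ∧
      Nat.card M = Δ.ncard := by
  classical
  let H : Subgroup X := MulAction.stabilizer X c0
  have hHmem : ∀ y : X, y ∈ H ↔ y.1 • c0 = c0 := fun y => MulAction.mem_stabilizer_iff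
  have hH : Cfsg.IsFrobeniusComplement H := by
    refine ⟨?_, ?_, ?_⟩
    · obtain ⟨x, hx, hx1, hxc⟩ := hstab
      intro hbot
      have h1 : (⟨x, hx⟩ : X) ∈ H := (hHmem _).2 hxc
      rw [hbot, Subgroup.mem_bot] at h1
      exact hx1 (congrArg Subtype.val h1)
    · obtain ⟨x, hx, hxc⟩ := hmove
      intro htop
      have h1 : (⟨x, hx⟩ : X) ∈ H := by rw [htop]; exact Subgroup.mem_top _
      exact hxc ((hHmem _).1 h1)
    · intro g hg
      rw [eq_bot_iff]
      intro y hy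
      rw [Subgroup.mem_inf] at hy
      obtain ⟨hy1, hy2⟩ := hy
      rw [Cfsg.Agent.Lib.Lead.mem_conj_smul] at hy2
      rw [Subgroup.mem_bot]
      by_contra hne
      have h1 : y.1 • c0 = c0 := (hHmem y).1 hy1
      have h2 : y.1 • (g.1 • c0) = g.1 • c0 := by
        have h3 : (g.1⁻¹ * y.1 * g.1) • c0 = c0 := (hHmem _).1 hy2
        rw [mul_smul, mul_smul, inv_smul_eq_iff] at h3
        exact h3
      have h3 := hfix y.1 y.2 (fun h => hne (Subtype.ext h)) c0 hc0 (g.1 • c0)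
        (hinv g.1 g.2 c0 hc0) h1 h2
      exact hg ((hHmem g).2 h3.symm)
  refine ⟨(Cfsg.Agent.Lib.Lead.frobKer H hH).map X.subtype, ?_, ?_⟩
  · intro x
    rw [Subgroup.mem_map]
    constructor
    · rintro ⟨y, hy, rfl⟩
      refine ⟨y.2, ?_⟩
      rw [Cfsg.Agent.Lib.Lead.mem_frobKer_iff] at hy
      rcases hy with rfl | hy
      · left
        rfl
      · right
        intro c hc hfixc
        obtain ⟨g, hg, rfl⟩ := htrans c0 hc0 c hc
        apply hy ⟨g, hg⟩
        rw [Cfsg.Agent.Lib.Lead.mem_conj_smul, hHmem]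
        show (g⁻¹ * y.1 * g) • c0 = c0
        rw [mul_smul, mul_smul, inv_smul_eq_iff]
        exact hfixc
    · rintro ⟨hx, h⟩
      refine ⟨⟨x, hx⟩, ?_, rfl⟩
      rw [Cfsg.Agent.Lib.Lead.mem_frobKer_iff]
      rcases h with rfl | h
      · left
        rfl
      · right
        intro g hg
        rw [Cfsg.Agent.Lib.Lead.mem_conj_smul, hHmem] at hg
        have h3 : (g.1⁻¹ * x * g.1) • c0 = c0 := hg
        rw [mul_smul, mul_smul, inv_smul_eq_iff] at h3
        exact h _ (hinv g.1 g.2 c0 hc0) h3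
  · rw [Subgroup.card_map_of_injective X.subtype_injective, Cfsg.Agent.Lib.Lead.card_frobKer,
      Subgroup.index_eq_card, ← Nat.card_congr (MulAction.orbitEquivQuotientStabilizer X c0),
      Nat.card_coe_set_eq]
    congr 1
    ext c
    constructor
    · rintro ⟨g, rfl⟩
      exact hinv g.1 g.2 c0 hc0
    · intro hc
      obtain ⟨g, hg, rfl⟩ := htrans c0 hc0 c hc
      exact ⟨⟨g, hg⟩, rfl⟩

/-- A subgroup acting semiregularly on a finite set `Δ` of the same cardinality is transitive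
on it. -/
theorem trans_of_card [Finite Ω] (M : Subgroup G) (Δ : Set Ω)
    (hinv : ∀ x ∈ M, ∀ c ∈ Δ, x • c ∈ Δ)
    (hsemi : ∀ x ∈ M, ∀ c ∈ Δ, x • c = c → x = 1) (hcard : Nat.card M = Δ.ncard) :
    ∀ c ∈ Δ, ∀ d ∈ Δ, ∃ m ∈ M, m • c = d := by
  intro c hc d hd
  let f : M → Δ := fun m => ⟨m.1 • c, hinv m.1 m.2 c hc⟩
  have hf : Function.Injective f := by
    intro m m' h
    have h1 : m.1 • c = m'.1 • c := congrArg Subtype.val h
    have h2 : (m'.1⁻¹ * m.1) • c = c := by rw [mul_smul, h1, inv_smul_smul]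
    have h3 := hsemi _ (M.mul_mem (M.inv_mem m'.2) m.2) c hc h2
    apply Subtype.ext
    exact (inv_mul_eq_one.1 h3).symm
  have hb : Function.Bijective f :=
    hf.bijective_of_nat_card_le (by rw [hcard, Nat.card_coe_set_eq])
  obtain ⟨m, hm⟩ := hb.2 ⟨d, hd⟩
  exact ⟨m.1, m.2, congrArg Subtype.val hm⟩

end Zas
end Cfsg.Agent.Lib.Helper4
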