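import Cfsg.Agent.Lib.Helper4.Zas1

set_option autoImplicit false

namespace Cfsg.Agent.Lib.Helper4
namespace Zas

open scoped Pointwise

universe u v

/-- Elementwise form of the first four Zassenhaus conditions. -/
structure Hyp (G : Type u) [Group G] (Ω : Type v) [MulAction G Ω] : Prop where
  faithful : ∀ g : G, (∀ a : Ω, g • a = a) → g = 1
  two : ∀ a b c d : Ω, a ≠ b → c ≠ d → ∃ g : G, g • a = c ∧ g • b = d
  three : ∀ g : G, ∀ a b c : Ω, a ≠ b → b ≠ c → a ≠ c → g • a = a → g • b = b → g • c = c →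
    g = 1
  fix2 : ∃ g : G, g ≠ 1 ∧ ∃ a b : Ω, a ≠ b ∧ g • a = a ∧ g • b = b

variable {G : Type u} [Group G] {Ω : Type v} [MulAction G Ω]

theorem Hyp.exists_fix2 (h : Hyp G Ω) {a b : Ω} (hab : a ≠ b) :
    ∃ x : G, x ≠ 1 ∧ x • a = a ∧ x • b = b := by
  obtain ⟨g, hg1, a0, b0, hab0, fa, fb⟩ := h.fix2
  obtain ⟨t, ta, tb⟩ := h.two a0 b0 a b hab0 hab
  refine ⟨t * g * t⁻¹, ?_, ?_, ?_⟩
  · intro e
    apply hg1
    have e2 : g = t⁻¹ * (t * g * t⁻¹) * t := by group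
    rw [e2, e]
    group
  · rw [mul_smul, mul_smul, ← ta, inv_smul_smul, fa]
  · rw [mul_smul, mul_smul, ← tb, inv_smul_smul, fb]

theorem Hyp.exists_third (h : Hyp G Ω) (a b : Ω) : ∃ c : Ω, c ≠ a ∧ c ≠ b := by
  obtain ⟨g, hg1, a0, b0, hab0, fa, fb⟩ := h.fix2
  have hex : ∃ c0 : Ω, g • c0 ≠ c0 := by
    by_contra hcon
    push Not at hcon
    exact hg1 (h.faithful g hcon)
  obtain ⟨c0, hc0⟩ := hex
  have hca : c0 ≠ a0 := fun e => hc0 (by rw [e]; exact fa)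
  have hcb : c0 ≠ b0 := fun e => hc0 (by rw [e]; exact fb)
  by_cases h1 : a0 = a
  · by_cases h2 : b0 = b
    · exact ⟨c0, by rw [← h1]; exact hca, by rw [← h2]; exact hcb⟩
    · by_cases h3 : c0 = b
      · exact ⟨b0, by rw [← h1]; exact hab0.symm, h2⟩
      · exact ⟨c0, by rw [← h1]; exact hca, h3⟩
  · by_cases h2 : a0 = b
    · by_cases h3 : b0 = a
      · exact ⟨c0, by rw [← h3]; exact hcb, by rw [← h2]; exact hca⟩
      · by_cases h4 : c0 = a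
        · exact ⟨b0, h3, by rw [← h2]; exact hab0.symm⟩
        · exact ⟨c0, h4, by rw [← h2]; exact hca⟩
    · exact ⟨a0, h1, h2⟩

theorem Hyp.exists_ne (h : Hyp G Ω) (a : Ω) : ∃ c : Ω, c ≠ a := by
  obtain ⟨c, hc, -⟩ := h.exists_third a a
  exact ⟨c, hc⟩

/-- A subgroup normalised by a doubly transitive subgroup and containing a non-identity element
is transitive. -/
theorem trans_of_normalized (hf : ∀ g : G, (∀ a : Ω, g • a = a) → g = 1) (L N : Subgroup G)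
    (hL2 : ∀ a b c d : Ω, a ≠ b → c ≠ d → ∃ g ∈ L, g • a = c ∧ g • b = d)
    (hNn : ∀ g ∈ L, ∀ n ∈ N, g * n * g⁻¹ ∈ N) (hN1 : ∃ n ∈ N, n ≠ 1) :
    ∀ a c : Ω, ∃ n ∈ N, n • a = c := by
  obtain ⟨n0, hn0, hn01⟩ := hN1
  have hex : ∃ p : Ω, n0 • p ≠ p := by
    by_contra hcon
    push Not at hcon
    exact hn01 (hf n0 hcon)
  obtain ⟨p, hp⟩ := hex
  intro a c
  by_cases hac : a = c
  · exact ⟨1, N.one_mem, by rw [one_smul, hac]⟩
  · obtain ⟨t, ht, ta, tc⟩ := hL2 p (n0 • p) a c (Ne.symm hp) hac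
    refine ⟨t * n0 * t⁻¹, hNn t ht n0 hn0, ?_⟩
    rw [mul_smul, mul_smul, ← ta, inv_smul_smul, tc]

theorem Hyp.trans_normal (h : Hyp G Ω) (N : Subgroup G) [hNn : N.Normal] (hN1 : N ≠ ⊥) :
    ∀ a c : Ω, ∃ n ∈ N, n • a = c := by
  apply trans_of_normalized h.faithful ⊤ N
  · intro a b c d hab hcd
    obtain ⟨g, hg⟩ := h.two a b c d hab hcd
    exact ⟨g, Subgroup.mem_top g, hg⟩
  · intro g _ n hn
    exact hNn.conj_mem n hn g
  · obtain ⟨n, hn⟩ := Subgroup.ne_bot_iff_exists_ne_one.1 hN1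
    exact ⟨n.1, n.2, fun e => hn (Subtype.ext e)⟩

/-- The Frobenius kernel of a point stabiliser. -/
theorem Hyp.exists_K [Finite G] [Finite Ω] (h : Hyp G Ω) (a : Ω) :
    ∃ K : Subgroup G, (∀ x, x ∈ K ↔ x • a = a ∧ (x = 1 ∨ ∀ c, c ≠ a → x • c ≠ c)) ∧
      (∀ c d : Ω, c ≠ a → d ≠ a → ∃ k ∈ K, k • c = d) := by
  obtain ⟨b, hb⟩ := h.exists_ne a
  obtain ⟨c3, hc3a, hc3b⟩ := h.exists_third a b
  have hinv : ∀ x ∈ MulAction.stabilizer G a, ∀ c ∈ {c : Ω | c ≠ a}, x • c ∈ {c : Ω | c ≠ a} := by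
    intro x hx c hc e
    apply hc
    have hxa : x • a = a := hx
    rw [← hxa] at e
    exact MulAction.injective x e
  have htrans : ∀ c ∈ {c : Ω | c ≠ a}, ∀ d ∈ {c : Ω | c ≠ a},
      ∃ x ∈ MulAction.stabilizer G a, x • c = d := by
    intro c hc d hd
    obtain ⟨g, ga, gc⟩ := h.two a c a d (Ne.symm hc) (Ne.symm hd)
    exact ⟨g, ga, gc⟩
  have hfix : ∀ x ∈ MulAction.stabilizer G a, x ≠ 1 → ∀ c ∈ {c : Ω | c ≠ a},
      ∀ d ∈ {c : Ω | c ≠ a}, x • c = c → x • d = d → c = d := by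
    intro x hx hx1 c hc d hd fc fd
    by_contra hcd
    exact hx1 (h.three x a c d (Ne.symm hc) hcd (Ne.symm hd) hx fc fd)
  have hstab : ∃ x ∈ MulAction.stabilizer G a, x ≠ 1 ∧ x • b = b := by
    obtain ⟨x, hx1, xa, xb⟩ := h.exists_fix2 (Ne.symm hb)
    exact ⟨x, xa, hx1, xb⟩
  have hmove : ∃ x ∈ MulAction.stabilizer G a, x • b ≠ b := by
    obtain ⟨g, ga, gc⟩ := h.two a b a c3 (Ne.symm hb) (Ne.symm hc3a)
    exact ⟨g, ga, by rw [gc]; exact hc3b⟩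
  obtain ⟨K, hK, hcard⟩ := exists_kernel (MulAction.stabilizer G a) {c : Ω | c ≠ a} hinv htrans
    hfix b hb hstab hmove
  have hK' : ∀ x, x ∈ K ↔ x • a = a ∧ (x = 1 ∨ ∀ c, c ≠ a → x • c ≠ c) := by
    intro x
    rw [hK]
    rfl
  refine ⟨K, hK', ?_⟩
  intro c d hc hd
  refine trans_of_card K {c : Ω | c ≠ a} ?_ ?_ hcard c hc d hd
  · intro x hx c hc
    exact hinv x ((hK' x).1 hx).1 c hc
  · intro x hx c hc fc
    rcases ((hK' x).1 hx).2 with e | e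
    · exact e
    · exact absurd fc (e c hc)

/-- A normal subgroup containing a non-identity element with two fixed points contains every
element fixing exactly one point. -/
theorem Hyp.KN [Finite G] [Finite Ω] (h : Hyp G Ω) (N : Subgroup G) [hNn : N.Normal]
    {x0 : G} {a0 b0 : Ω} (hx0 : x0 ∈ N) (hx01 : x0 ≠ 1) (hab0 : a0 ≠ b0) (fa : x0 • a0 = a0)
    (fb : x0 • b0 = b0) (c : Ω) (y : G) (hyc : y • c = c) (hy : ∀ d, d ≠ c → y • d ≠ d) :
    y ∈ N := by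
  obtain ⟨b, hb⟩ := h.exists_ne c
  obtain ⟨t, tc, tb⟩ := h.two a0 b0 c b hab0 (Ne.symm hb)
  have hxN : t * x0 * t⁻¹ ∈ N := hNn.conj_mem x0 hx0 t
  have hx1 : t * x0 * t⁻¹ ≠ 1 := by
    intro e
    apply hx01
    have e2 : x0 = t⁻¹ * (t * x0 * t⁻¹) * t := by group
    rw [e2, e]
    group
  have hxc : (t * x0 * t⁻¹) • c = c := by
    rw [mul_smul, mul_smul, ← tc, inv_smul_smul, fa]
  have hxb : (t * x0 * t⁻¹) • b = b := by
    rw [mul_smul, mul_smul, ← tb, inv_smul_smul, fb]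
  generalize t * x0 * t⁻¹ = x at hxN hx1 hxc hxb
  obtain ⟨K, hK, -⟩ := h.exists_K c
  have hxinv : x⁻¹ • c = c := by rw [inv_smul_eq_iff, hxc]
  have hconj : ∀ k ∈ K, x * k * x⁻¹ ∈ K := by
    intro k hk
    rw [hK] at hk ⊢
    obtain ⟨kc, hk⟩ := hk
    refine ⟨by rw [mul_smul, mul_smul, hxinv, kc, hxc], ?_⟩
    rcases hk with rfl | hk
    · left
      group
    · right
      intro d hd e
      rw [mul_smul, mul_smul, ← eq_inv_smul_iff] at e
      refine hk (x⁻¹ • d) ?_ e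
      intro e2
      rw [inv_smul_eq_iff, hxc] at e2
      exact hd e2
  let ψ : K → K := fun k => ⟨k.1 * (x * k.1⁻¹ * x⁻¹), K.mul_mem k.2 (hconj _ (K.inv_mem k.2))⟩
  have hψ : Function.Injective ψ := by
    intro k k' e
    have e1 : k.1 * (x * k.1⁻¹ * x⁻¹) = k'.1 * (x * k'.1⁻¹ * x⁻¹) := congrArg Subtype.val e
    have e2 : (k'.1⁻¹ * k.1) * x = x * (k'.1⁻¹ * k.1) := by
      have e3 : k'.1⁻¹ * k.1 * x = k'.1⁻¹ * (k.1 * (x * k.1⁻¹ * x⁻¹)) * x * k.1 := by group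
      rw [e3, e1]
      group
    have hz : k'.1⁻¹ * k.1 ∈ K := K.mul_mem (K.inv_mem k'.2) k.2
    have hz1 : k'.1⁻¹ * k.1 = 1 := by
      rcases ((hK _).1 hz).2 with e4 | e4
      · exact e4
      · exfalso
        have hzc : (k'.1⁻¹ * k.1) • c = c := ((hK _).1 hz).1
        have f1 : x • ((k'.1⁻¹ * k.1) • b) = (k'.1⁻¹ * k.1) • b := by
          rw [← mul_smul, ← e2, mul_smul, hxb]
        have n1 : (k'.1⁻¹ * k.1) • b ≠ c := by
          intro e5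
          rw [← hzc] at e5
          exact hb (MulAction.injective _ e5)
        exact hx1 (h.three x c b ((k'.1⁻¹ * k.1) • b) (Ne.symm hb) (Ne.symm (e4 b hb))
          (Ne.symm n1) hxc hxb f1)
    apply Subtype.ext
    exact (inv_mul_eq_one.1 hz1).symm
  have hsurj : Function.Surjective ψ := Finite.injective_iff_surjective.1 hψ
  have hyK : y ∈ K := (hK y).2 ⟨hyc, Or.inr hy⟩
  obtain ⟨k, hk⟩ := hsurj ⟨y, hyK⟩
  have e : k.1 * (x * k.1⁻¹ * x⁻¹) = y := congrArg Subtype.val hk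
  rw [← e]
  have e2 : k.1 * (x * k.1⁻¹ * x⁻¹) = (k.1 * x * k.1⁻¹) * x⁻¹ := by group
  rw [e2]
  exact N.mul_mem (hNn.conj_mem x hxN k.1) (N.inv_mem hxN)

/-- A normal subgroup containing a non-identity element with two fixed points is doubly
transitive. -/
theorem Hyp.two_of_fix2 [Finite G] [Finite Ω] (h : Hyp G Ω) (N : Subgroup G) [hNn : N.Normal]
    {x0 : G} {a0 b0 : Ω} (hx0 : x0 ∈ N) (hx01 : x0 ≠ 1) (hab0 : a0 ≠ b0) (fa : x0 • a0 = a0)
    (fb : x0 • b0 = b0) :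
    ∀ a b c d : Ω, a ≠ b → c ≠ d → ∃ n ∈ N, n • a = c ∧ n • b = d := by
  intro a b c d hab hcd
  have hN1 : N ≠ ⊥ := fun e => hx01 (by rw [e, Subgroup.mem_bot] at hx0; exact hx0)
  obtain ⟨n1, hn1, e1⟩ := h.trans_normal N hN1 a c
  obtain ⟨K, hK, hKt⟩ := h.exists_K c
  have hne : n1 • b ≠ c := by
    intro e
    rw [← e1] at e
    exact hab (MulAction.injective n1 e).symm
  obtain ⟨k, hk, e2⟩ := hKt (n1 • b) d hne (Ne.symm hcd)
  have hkN : k ∈ N := by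
    obtain ⟨kc, hk'⟩ := (hK k).1 hk
    rcases hk' with rfl | hk'
    · exact N.one_mem
    · exact h.KN N hx0 hx01 hab0 fa fb c k kc hk'
  exact ⟨k * n1, N.mul_mem hkN hn1, by rw [mul_smul, e1, ((hK k).1 hk).1],
    by rw [mul_smul, e2]⟩

/-- In the absence of regular normal subgroups, every non-trivial normal subgroup contains a
non-identity element with two fixed points. -/
theorem Hyp.exists_fix2_normal [Finite G] [Finite Ω] (h : Hyp G Ω)
    (hreg : ∀ M : Subgroup G, M.Normal → (∀ a c : Ω, ∃ m ∈ M, m • a = c) →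
      ∃ m ∈ M, m ≠ 1 ∧ ∃ a : Ω, m • a = a)
    (N : Subgroup G) [hNn : N.Normal] (hN1 : N ≠ ⊥) :
    ∃ x ∈ N, x ≠ 1 ∧ ∃ a b : Ω, a ≠ b ∧ x • a = a ∧ x • b = b := by
  by_contra hcon
  push Not at hcon
  have htr := h.trans_normal N hN1
  obtain ⟨m0, hm0, hm01, a1, fa1⟩ := hreg N hNn htr
  obtain ⟨b1, hb1⟩ := h.exists_ne a1
  obtain ⟨M, hM, hcard⟩ := exists_kernel N (Set.univ : Set Ω) (fun _ _ _ _ => Set.mem_univ _)
    (fun c _ d _ => htr c d)
    (fun x hx hx1 c _ d _ fc fd => by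
      by_contra hcd
      exact hcon x hx hx1 c d hcd fc fd)
    a1 (Set.mem_univ _) ⟨m0, hm0, hm01, fa1⟩
    (by
      obtain ⟨n, hn, e⟩ := htr a1 b1
      exact ⟨n, hn, by rw [e]; exact hb1⟩)
  have hMn : M.Normal := by
    refine ⟨fun x hx g => ?_⟩
    rw [hM] at hx ⊢
    obtain ⟨hxN, hx⟩ := hx
    refine ⟨hNn.conj_mem x hxN g, ?_⟩
    rcases hx with rfl | hx
    · left
      group
    · right
      intro c _ e
      rw [mul_smul, mul_smul, ← eq_inv_smul_iff] at e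
      exact hx _ (Set.mem_univ _) e
  have hsemi : ∀ x ∈ M, ∀ c ∈ (Set.univ : Set Ω), x • c = c → x = 1 := by
    intro x hx c hc fc
    rcases ((hM x).1 hx).2 with e | e
    · exact e
    · exact absurd fc (e c hc)
  have hMt := trans_of_card M (Set.univ : Set Ω) (fun _ _ _ _ => Set.mem_univ _) hsemi hcard
  obtain ⟨m, hm, hm1, a, fa⟩ := hreg M hMn (fun a c => hMt a (Set.mem_univ _) c (Set.mem_univ _))
  exact hm1 (hsemi m hm a (Set.mem_univ _) fa)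

end Zas
end Cfsg.Agent.Lib.Helper4
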