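import Cfsg.Agent.Lib.Helper4.Zas2
import Cfsg.Prelude.Def_LieExceptional

set_option autoImplicit false

namespace Cfsg.Agent.Lib.Helper4
namespace Zas

open scoped Pointwise

universe u v

variable {G : Type u} [Group G] {Ω : Type v} [MulAction G Ω]

/-- Fixed-point congruence for a map of `p`-power order. -/
theorem card_modEq_ncard_fixed {α : Type*} [Finite α] {p j : ℕ} [Fact p.Prime]
    (f : Function.End α) (hf : f ^ p ^ j = 1) :
    Nat.card α ≡ (Function.fixedPoints f).ncard [MOD p] := by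
  classical
  letI : Fintype α := Fintype.ofFinite α
  have h := Equiv.Perm.card_fixedPoints_modEq (f := f) hf
  rw [Fintype.card_eq_nat_card, Fintype.card_eq_nat_card, Nat.card_coe_set_eq] at h
  exact h

theorem Hyp.of_zassenhaus (hZ : Cfsg.IsZassenhausGroup G Ω) : Hyp G Ω := by
  obtain ⟨hf, h2, h3, h4, -⟩ := hZ
  refine ⟨?_, ?_, h3, h4⟩
  · intro g hg
    exact hf.eq_of_smul_eq_smul (fun a => by rw [hg a, one_smul])
  · intro a b c d hab hcd
    exact MulAction.is_two_pretransitive_iff.1 h2 hab hcd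

/-- The regularity condition of a Zassenhaus group, elementwise. -/
theorem reg_of_zassenhaus (hZ : Cfsg.IsZassenhausGroup G Ω) :
    ∀ M : Subgroup G, M.Normal → (∀ a c : Ω, ∃ m ∈ M, m • a = c) →
      ∃ m ∈ M, m ≠ 1 ∧ ∃ a : Ω, m • a = a := by
  intro M hM htr
  have hpre : MulAction.IsPretransitive M Ω := by
    refine ⟨fun a c => ?_⟩
    obtain ⟨m, hm, e⟩ := htr a c
    exact ⟨⟨m, hm⟩, e⟩
  obtain ⟨a, ha⟩ := hZ.2.2.2.2 M hM hpre
  obtain ⟨m, hm⟩ := Subgroup.ne_bot_iff_exists_ne_one.1 ha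
  refine ⟨m.1.1, m.1.2, fun e => hm (Subtype.ext (Subtype.ext e)), a, ?_⟩
  exact m.2

theorem finite_of_hyp [Finite Ω] (h : Hyp G Ω) : Finite G := by
  have hinj : Function.Injective (MulAction.toPermHom G Ω) := by
    intro g g' e
    have e1 : g'⁻¹ * g = 1 := by
      apply h.faithful
      intro a
      have e2 : g • a = g' • a := by
        have := congrArg (fun σ : Equiv.Perm Ω => σ a) e
        exact this
      rw [mul_smul, e2, inv_smul_smul]
    exact (inv_mul_eq_one.1 e1).symm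
  exact Finite.of_injective _ hinj

section odd

variable [Finite Ω]

/-- The action of an element as an endo-function. -/
def actEnd (j : G) : Function.End Ω := fun c => j • c

omit [Finite Ω] in
theorem sq_end (j : G) (hj : j * j = 1) : (actEnd j : Function.End Ω) ^ 2 ^ 1 = 1 := by
  rw [pow_one, pow_two]
  funext c
  show j • j • c = c
  rw [← mul_smul, hj, one_smul]

/-- In odd degree, an involution fixing two points is trivial. -/
theorem Hyp.no_invol (h : Hyp G Ω) (hodd : Odd (Nat.card Ω)) {j : G} (hj : j * j = 1)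
    {a b : Ω} (hab : a ≠ b) (fa : j • a = a) (fb : j • b = b) : j = 1 := by
  by_contra hj1
  have hfp : Function.fixedPoints (actEnd j : Function.End Ω) = {a, b} := by
    ext c
    constructor
    · intro hc
      have fc : j • c = c := hc
      by_contra hcon
      rw [Set.mem_insert_iff, Set.mem_singleton_iff] at hcon
      push Not at hcon
      exact hj1 (h.three j a b c hab (Ne.symm hcon.2) (Ne.symm hcon.1) fa fb fc)
    · rintro (rfl | rfl)
      · exact fa
      · exact fb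
  have hmod := card_modEq_ncard_fixed (p := 2) (actEnd j : Function.End Ω) (sq_end j hj)
  rw [hfp, Set.ncard_pair hab] at hmod
  have h2 : Nat.card Ω % 2 = 0 := hmod
  rcases hodd with ⟨k, hk⟩
  omega

/-- In odd degree, a non-trivial involution has exactly one fixed point. -/
theorem Hyp.invol_unique_fix (h : Hyp G Ω) (hodd : Odd (Nat.card Ω)) {v : G} (hv : v * v = 1)
    (hv1 : v ≠ 1) : ∃ c : Ω, v • c = c ∧ ∀ d : Ω, v • d = d → d = c := by
  have hex : ∃ c : Ω, v • c = c := by
    by_contra hcon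
    push Not at hcon
    have hfp : Function.fixedPoints (actEnd v : Function.End Ω) = ∅ := by
      ext c
      simp only [Set.mem_empty_iff_false, iff_false]
      exact hcon c
    have hmod := card_modEq_ncard_fixed (p := 2) (actEnd v : Function.End Ω)
      (sq_end v hv)
    rw [hfp, Set.ncard_empty] at hmod
    have h2 : Nat.card Ω % 2 = 0 := hmod
    rcases hodd with ⟨k, hk⟩
    omega
  obtain ⟨c, hc⟩ := hex
  refine ⟨c, hc, fun d hd => ?_⟩
  by_contra hdc
  exact hv1 (h.no_invol hodd hv hdc hd hc)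

/-- In odd degree, elements fixing two points have odd order. -/
theorem Hyp.odd_order [Finite G] (h : Hyp G Ω) (hodd : Odd (Nat.card Ω)) {y : G} {a b : Ω}
    (hab : a ≠ b) (fa : y • a = a) (fb : y • b = b) : Odd (orderOf y) := by
  by_contra hcon
  rw [Nat.not_odd_iff_even] at hcon
  obtain ⟨k, hk⟩ := hcon
  have hpos : 0 < orderOf y := orderOf_pos y
  have hpow : ∀ i : ℕ, y ^ i • a = a ∧ y ^ i • b = b := by
    intro i
    induction i with
    | zero => simp
    | succ i ih => rw [pow_succ, mul_smul, mul_smul, fa, fb]; exact ih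
  have h1 : y ^ k * y ^ k = 1 := by
    rw [← pow_add, ← hk]
    exact pow_orderOf_eq_one y
  have h2 := h.no_invol hodd h1 hab (hpow k).1 (hpow k).2
  have h3 := orderOf_dvd_of_pow_eq_one h2
  have h4 := Nat.le_of_dvd (by omega) h3
  omega

/-- In odd degree, any two points are interchanged by an involution. -/
theorem Hyp.exists_swap [Finite G] (h : Hyp G Ω) (hodd : Odd (Nat.card Ω)) {a b : Ω}
    (hab : a ≠ b) : ∃ v : G, v * v = 1 ∧ v • a = b ∧ v • b = a := by
  obtain ⟨g, ga, gb⟩ := h.two a b b a hab (Ne.symm hab)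
  have fa : (g * g) • a = a := by rw [mul_smul, ga, gb]
  have fb : (g * g) • b = b := by rw [mul_smul, gb, ga]
  obtain ⟨i, hi⟩ := h.odd_order hodd hab fa fb
  have hpow : ∀ n : ℕ, (g * g) ^ n • a = a ∧ (g * g) ^ n • b = b := by
    intro n
    induction n with
    | zero => simp
    | succ n ih => rw [pow_succ, mul_smul, fa, mul_smul, fb]; exact ih
  have e1 : g ^ orderOf (g * g) = (g * g) ^ i * g := by
    rw [hi, pow_succ, pow_mul, pow_two]
  refine ⟨g ^ orderOf (g * g), ?_, ?_, ?_⟩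
  · rw [← pow_add, ← two_mul, pow_mul, pow_two]
    exact pow_orderOf_eq_one (g * g)
  · rw [e1, mul_smul, ga, (hpow i).2]
  · rw [e1, mul_smul, gb, (hpow i).1]

/-- In odd degree, an involution interchanging two points inverts their stabiliser. -/
theorem Hyp.invol_inverts [Finite G] (h : Hyp G Ω) (hodd : Odd (Nat.card Ω)) {v : G}
    (hv : v * v = 1) {a b : Ω} (hab : a ≠ b) (va : v • a = b) (vb : v • b = a) (y : G)
    (ya : y • a = a) (yb : y • b = b) : v * y * v⁻¹ = y⁻¹ := by
  have hv1 : v ≠ 1 := by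
    intro e
    rw [e, one_smul] at va
    exact hab va
  have hvinv : v⁻¹ = v := inv_eq_of_mul_eq_one_right hv
  obtain ⟨c, vc, hc⟩ := h.invol_unique_fix hodd hv hv1
  have hca : c ≠ a := by
    intro e
    rw [e, va] at vc
    exact hab vc.symm
  have hcb : c ≠ b := by
    intro e
    rw [e, vb] at vc
    exact hab vc
  let H : Subgroup G := MulAction.stabilizer G a ⊓ MulAction.stabilizer G b
  have hHmem : ∀ z : G, z ∈ H ↔ z • a = a ∧ z • b = b := fun z => by
    show z ∈ MulAction.stabilizer G a ⊓ MulAction.stabilizer G b ↔ _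
    rw [Subgroup.mem_inf, MulAction.mem_stabilizer_iff, MulAction.mem_stabilizer_iff]
  have hconj : ∀ z ∈ H, v * z * v⁻¹ ∈ H := by
    intro z hz
    rw [hHmem] at hz ⊢
    rw [hvinv]
    constructor
    · rw [mul_smul, mul_smul, va, hz.2, vb]
    · rw [mul_smul, mul_smul, vb, hz.1, va]
  let φ : H → H := fun z => ⟨z.1⁻¹ * (v * z.1 * v⁻¹), H.mul_mem (H.inv_mem z.2) (hconj _ z.2)⟩
  have hφ : Function.Injective φ := by
    intro z z' e
    have e1 : z.1⁻¹ * (v * z.1 * v⁻¹) = z'.1⁻¹ * (v * z'.1 * v⁻¹) := congrArg Subtype.val e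
    have e2 : (z'.1 * z.1⁻¹) * v = v * (z'.1 * z.1⁻¹) := by
      have e3 : z'.1 * z.1⁻¹ * v = z'.1 * (z.1⁻¹ * (v * z.1 * v⁻¹)) * v * z.1⁻¹ := by group
      rw [e3, e1]
      group
    have hz : z'.1 * z.1⁻¹ ∈ H := H.mul_mem z'.2 (H.inv_mem z.2)
    have f1 : v • ((z'.1 * z.1⁻¹) • c) = (z'.1 * z.1⁻¹) • c := by
      rw [← mul_smul, ← e2, mul_smul, vc]
    have f2 := hc _ f1
    have hz' := (hHmem _).1 hz
    have e4 : z'.1 * z.1⁻¹ = 1 :=
      h.three _ a b c hab (Ne.symm hcb) (Ne.symm hca) hz'.1 hz'.2 f2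
    apply Subtype.ext
    exact (mul_inv_eq_one.1 e4).symm
  have hsurj : Function.Surjective φ := Finite.injective_iff_surjective.1 hφ
  obtain ⟨z, hz⟩ := hsurj ⟨y, (hHmem y).2 ⟨ya, yb⟩⟩
  have e : z.1⁻¹ * (v * z.1 * v⁻¹) = y := congrArg Subtype.val hz
  rw [← e, hvinv]
  have e5 : v * (z.1⁻¹ * (v * z.1 * v)) * v = v * z.1⁻¹ * v * z.1 * (v * v) := by group
  have e6 : (z.1⁻¹ * (v * z.1 * v))⁻¹ = v⁻¹ * z.1⁻¹ * v⁻¹ * z.1 := by group
  rw [e5, e6, hv, hvinv, mul_one]

/-- A Zassenhaus group of odd degree is simple. -/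
theorem simple_of_odd (hZ : Cfsg.IsZassenhausGroup G Ω) (hodd : Odd (Nat.card Ω)) :
    IsSimpleGroup G := by
  have h := Hyp.of_zassenhaus hZ
  haveI : Finite G := finite_of_hyp h
  have hreg := reg_of_zassenhaus hZ
  have hnon : Nontrivial G := by
    obtain ⟨g, hg, -⟩ := h.fix2
    exact ⟨⟨g, 1, hg⟩⟩
  refine { toNontrivial := hnon, eq_bot_or_eq_top_of_normal := fun N hN => ?_ }
  by_cases hN0 : N = ⊥
  · exact Or.inl hN0
  right
  haveI := hN
  obtain ⟨x0, hx0, hx01, a0, b0, hab0, fa0, fb0⟩ := h.exists_fix2_normal hreg N hN0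
  obtain ⟨v, hv, va, vb⟩ := h.exists_swap hodd hab0
  have hv1 : v ≠ 1 := by
    intro e
    rw [e, one_smul] at va
    exact hab0 va
  obtain ⟨c, vc, hc⟩ := h.invol_unique_fix hodd hv hv1
  have hvN : v ∈ N := h.KN N hx0 hx01 hab0 fa0 fb0 c v vc (fun d hd e => hd (hc d e))
  -- the two-point stabiliser of `a0`, `b0` lies in `N`
  have hH : ∀ y : G, y • a0 = a0 → y • b0 = b0 → y ∈ N := by
    intro y ya yb
    have hinv := h.invol_inverts hodd hv hab0 va vb y ya yb
    have hsq : y * y ∈ N := by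
      have e1 : v * (y * v⁻¹ * y⁻¹) ∈ N := N.mul_mem hvN (hN.conj_mem _ (N.inv_mem hvN) y)
      have e2 : v * (y * v⁻¹ * y⁻¹) = (v * y * v⁻¹) * y⁻¹ := by group
      rw [e2, hinv] at e1
      have e3 : y * y = (y⁻¹ * y⁻¹)⁻¹ := by rw [mul_inv_rev, inv_inv]
      rw [e3]
      exact N.inv_mem e1
    obtain ⟨i, hi⟩ := h.odd_order hodd hab0 ya yb
    have e4 : y = (y * y) ^ (i + 1) := by
      rw [← pow_two, ← pow_mul]
      have : 2 * (i + 1) = orderOf y + 1 := by omega
      rw [this, pow_succ, pow_orderOf_eq_one, one_mul]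
    rw [e4]
    exact N.pow_mem hsq _
  -- every element with two fixed points lies in `N`
  have hH' : ∀ (y : G) (a b : Ω), a ≠ b → y • a = a → y • b = b → y ∈ N := by
    intro y a b hab ya yb
    obtain ⟨t, ta, tb⟩ := h.two a b a0 b0 hab hab0
    have h1 : t * y * t⁻¹ ∈ N := by
      apply hH
      · rw [mul_smul, mul_smul, ← ta, inv_smul_smul, ya]
      · rw [mul_smul, mul_smul, ← tb, inv_smul_smul, yb]
    have h2 := hN.conj_mem _ h1 t⁻¹
    have e : t⁻¹ * (t * y * t⁻¹) * t⁻¹⁻¹ = y := by group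
    rw [e] at h2
    exact h2
  rw [Subgroup.eq_top_iff']
  intro g
  obtain ⟨n, hn, e⟩ := h.trans_normal N hN0 a0 (g • a0)
  have hfix : (n⁻¹ * g) • a0 = a0 := by rw [mul_smul, inv_smul_eq_iff, e]
  have hmem : n⁻¹ * g ∈ N := by
    by_cases hex : ∃ d : Ω, d ≠ a0 ∧ (n⁻¹ * g) • d = d
    · obtain ⟨d, hd, fd⟩ := hex
      exact hH' _ a0 d (Ne.symm hd) hfix fd
    · push Not at hex
      exact h.KN N hx0 hx01 hab0 fa0 fb0 a0 _ hfix hex
  have e2 : g = n * (n⁻¹ * g) := by group
  rw [e2]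
  exact N.mul_mem hn hmem

end odd

end Zas
end Cfsg.Agent.Lib.Helper4
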