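import Cfsg.Agent.Lib.Helper4.Zas3

set_option autoImplicit false

namespace Cfsg.Agent.Lib.Helper4
namespace Zas

open scoped Pointwise

universe u v

variable {G : Type u} [Group G] {Ω : Type v} [MulAction G Ω]

/-- `M` is a regular subgroup of `N` normalised by `N`. -/
def IsReg (Ω : Type v) [MulAction G Ω] (N M : Subgroup G) : Prop :=
  M ≤ N ∧ (∀ n ∈ N, ∀ m ∈ M, n * m * n⁻¹ ∈ M) ∧ (∀ a c : Ω, ∃ m ∈ M, m • a = c) ∧
    (∀ m ∈ M, ∀ a : Ω, m • a = a → m = 1)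

theorem IsReg.conj {N M : Subgroup G} [hN : N.Normal] (hM : IsReg Ω N M) (g : G) :
    IsReg Ω N (M.map (MulAut.conj g).toMonoidHom) := by
  obtain ⟨h1, h2, h3, h4⟩ := hM
  refine ⟨?_, ?_, ?_, ?_⟩
  · rintro x ⟨m, hm, rfl⟩
    exact hN.conj_mem m (h1 hm) g
  · rintro n hn x ⟨m, hm, rfl⟩
    refine ⟨(g⁻¹ * n * g) * m * (g⁻¹ * n * g)⁻¹, h2 _ ?_ m hm, ?_⟩
    · have := hN.conj_mem n hn g⁻¹
      rw [inv_inv] at this
      exact this
    · show g * ((g⁻¹ * n * g) * m * (g⁻¹ * n * g)⁻¹) * g⁻¹ = n * (g * m * g⁻¹) * n⁻¹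
      group
  · intro a c
    obtain ⟨m, hm, e⟩ := h3 (g⁻¹ • a) (g⁻¹ • c)
    refine ⟨g * m * g⁻¹, ⟨m, hm, rfl⟩, ?_⟩
    rw [mul_smul, mul_smul, e, smul_inv_smul]
  · rintro x ⟨m, hm, rfl⟩ a fa
    have fa' : (g * m * g⁻¹) • a = a := fa
    rw [mul_smul, mul_smul, ← eq_inv_smul_iff] at fa'
    have e := h4 m hm _ fa'
    show g * m * g⁻¹ = 1
    rw [e]
    group

/-- Two regular subgroups normalised by a doubly transitive subgroup coincide. -/
theorem Hyp.reg_unique (h : Hyp G Ω) (N M1 M2 : Subgroup G)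
    (hN2 : ∀ a b c d : Ω, a ≠ b → c ≠ d → ∃ n ∈ N, n • a = c ∧ n • b = d)
    (hM1 : IsReg Ω N M1) (hM2 : IsReg Ω N M2) : M1 = M2 := by
  obtain ⟨h1N, hn1, ht1, hs1⟩ := hM1
  obtain ⟨h2N, hn2, ht2, hs2⟩ := hM2
  obtain ⟨-, -, a, -, -, -, -⟩ := h.fix2
  by_cases hD : ∃ d ∈ M1 ⊓ M2, d ≠ 1
  · have htD := trans_of_normalized h.faithful N (M1 ⊓ M2) hN2
      (fun n hn d hd => ⟨hn1 n hn d hd.1, hn2 n hn d hd.2⟩) hD
    apply le_antisymm
    · intro m hm
      obtain ⟨d, hd, e⟩ := htD a (m • a)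
      have e1 : d⁻¹ * m = 1 := hs1 _ (M1.mul_mem (M1.inv_mem hd.1) hm) a
        (by rw [mul_smul, inv_smul_eq_iff, e])
      have e2 : m = d := (inv_mul_eq_one.1 e1).symm
      rw [e2]
      exact hd.2
    · intro m hm
      obtain ⟨d, hd, e⟩ := htD a (m • a)
      have e1 : d⁻¹ * m = 1 := hs2 _ (M2.mul_mem (M2.inv_mem hd.2) hm) a
        (by rw [mul_smul, inv_smul_eq_iff, e])
      have e2 : m = d := (inv_mul_eq_one.1 e1).symm
      rw [e2]
      exact hd.1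
  · exfalso
    push Not at hD
    have hcomm : ∀ m1 ∈ M1, ∀ m2 ∈ M2, m2 * m1 = m1 * m2 := by
      intro m1 h1 m2 h2
      have hmem : m2 * m1 * m2⁻¹ * m1⁻¹ ∈ M1 ⊓ M2 := by
        refine ⟨M1.mul_mem (hn1 m2 (h2N h2) m1 h1) (M1.inv_mem h1), ?_⟩
        have e : m2 * m1 * m2⁻¹ * m1⁻¹ = m2 * (m1 * m2⁻¹ * m1⁻¹) := by group
        rw [e]
        exact M2.mul_mem h2 (hn2 m1 (h1N h1) _ (M2.inv_mem h2))
      have e1 := hD _ hmem
      calc m2 * m1 = (m2 * m1 * m2⁻¹ * m1⁻¹) * (m1 * m2) := by group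
        _ = m1 * m2 := by rw [e1, one_mul]
    have key : ∀ m ∈ M1, m ≠ 1 →
        ∃ x : G, x ≠ 1 ∧ ∀ y ∈ M1, x • (y • a) = (m⁻¹ * y * m) • a := by
      intro m hm hm1
      obtain ⟨m2, hm2, e⟩ := ht2 a (m • a)
      refine ⟨m⁻¹ * m2, ?_, ?_⟩
      · intro e1
        have e2 : m = m2 := inv_mul_eq_one.1 e1
        exact hm1 (hD m ⟨hm, by rw [e2]; exact hm2⟩)
      · intro y hy
        rw [mul_smul, ← mul_smul m2, hcomm y hy m2 hm2, mul_smul, e, ← mul_smul, ← mul_smul,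
          mul_assoc]
    have hsq : ∀ m ∈ M1, m * m = 1 := by
      intro m hm
      by_cases hm1 : m = 1
      · rw [hm1, mul_one]
      obtain ⟨x, hx1, hx⟩ := key m hm hm1
      by_contra hne
      have f0 : x • a = a := by
        have e := hx 1 M1.one_mem
        rw [one_smul] at e
        rw [e]
        have e2 : m⁻¹ * 1 * m = 1 := by group
        rw [e2, one_smul]
      have f1 : x • (m • a) = m • a := by
        rw [hx m hm]
        have e2 : m⁻¹ * m * m = m := by group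
        rw [e2]
      have f2 : x • ((m * m) • a) = (m * m) • a := by
        rw [hx (m * m) (M1.mul_mem hm hm)]
        have e2 : m⁻¹ * (m * m) * m = m * m := by group
        rw [e2]
      have n1 : a ≠ m • a := fun e => hm1 (hs1 m hm a e.symm)
      have n2 : m • a ≠ (m * m) • a := by
        intro e
        rw [mul_smul] at e
        exact n1 (MulAction.injective m e)
      have n3 : a ≠ (m * m) • a := fun e => hne (hs1 _ (M1.mul_mem hm hm) a e.symm)
      exact hx1 (h.three x a (m • a) ((m * m) • a) n1 n2 n3 f0 f1 f2)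
    have hab : ∀ y ∈ M1, ∀ m ∈ M1, m⁻¹ * y * m = y := by
      intro y hy m hm
      have e1 := hsq m hm
      have e2 := hsq y hy
      have e3 := hsq (y * m) (M1.mul_mem hy hm)
      have hm' : m⁻¹ = m := inv_eq_of_mul_eq_one_right e1
      have hy' : y⁻¹ = y := inv_eq_of_mul_eq_one_right e2
      rw [hm']
      calc m * y * m = y⁻¹ * ((y * m) * (y * m)) := by group
        _ = y := by rw [e3, mul_one, hy']
    obtain ⟨c, hc⟩ := h.exists_ne a
    obtain ⟨m, hm, e⟩ := ht1 a c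
    have hm1 : m ≠ 1 := by
      rintro rfl
      rw [one_smul] at e
      exact hc e.symm
    obtain ⟨x, hx1, hx⟩ := key m hm hm1
    apply hx1
    apply h.faithful
    intro b
    obtain ⟨y, hy, rfl⟩ := ht1 a b
    rw [hx y hy, hab y hy m hm]

/-- A non-trivial normal subgroup of a Zassenhaus group is a Zassenhaus group. -/
theorem zassenhaus_normal [Finite Ω] (hZ : Cfsg.IsZassenhausGroup G Ω) (N : Subgroup G)
    [hN : N.Normal] (hN0 : N ≠ ⊥) : Cfsg.IsZassenhausGroup N Ω := by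
  have h := Hyp.of_zassenhaus hZ
  haveI : Finite G := finite_of_hyp h
  have hreg := reg_of_zassenhaus hZ
  obtain ⟨x0, hx0, hx01, a0, b0, hab0, fa0, fb0⟩ := h.exists_fix2_normal hreg N hN0
  have hN2 := h.two_of_fix2 N hx0 hx01 hab0 fa0 fb0
  refine ⟨⟨?_⟩, ?_, ?_, ?_, ?_⟩
  · intro m1 m2 hm
    apply Subtype.ext
    have e : m2.1⁻¹ * m1.1 = 1 := h.faithful _ (fun a => by
      rw [mul_smul, inv_smul_eq_iff]
      exact hm a)
    exact (inv_mul_eq_one.1 e).symm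
  · rw [MulAction.is_two_pretransitive_iff]
    intro a b c d hab hcd
    obtain ⟨n, hn, e1, e2⟩ := hN2 a b c d hab hcd
    exact ⟨⟨n, hn⟩, e1, e2⟩
  · intro g a b c hab hbc hac fa fb fc
    exact Subtype.ext (h.three g.1 a b c hab hbc hac fa fb fc)
  · exact ⟨⟨x0, hx0⟩, fun e => hx01 (congrArg Subtype.val e), a0, b0, hab0, fa0, fb0⟩
  · intro M hM hMt
    by_contra hcon
    push Not at hcon
    have hreg' : IsReg Ω N (M.map N.subtype) := by
      refine ⟨?_, ?_, ?_, ?_⟩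
      · rintro x ⟨m, -, rfl⟩
        exact m.2
      · rintro n hn x ⟨m, hm, rfl⟩
        exact ⟨⟨n, hn⟩ * m * ⟨n, hn⟩⁻¹, hM.conj_mem m hm ⟨n, hn⟩, rfl⟩
      · intro a c
        obtain ⟨m, e⟩ := hMt.exists_smul_eq a c
        exact ⟨m.1.1, ⟨m.1, m.2, rfl⟩, e⟩
      · rintro x ⟨m, hm, rfl⟩ a fa
        have hmem : (⟨m, hm⟩ : M) ∈ MulAction.stabilizer M a := fa
        rw [hcon a, Subgroup.mem_bot] at hmem
        have e : m = 1 := congrArg Subtype.val hmem
        rw [e]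
        rfl
    have hnorm : (M.map N.subtype).Normal := by
      refine ⟨fun m hm g => ?_⟩
      have e := h.reg_unique N _ _ hN2 (hreg'.conj g) hreg'
      rw [← e]
      exact ⟨m, hm, rfl⟩
    obtain ⟨m, hm, hm1, a, fa⟩ := hreg _ hnorm hreg'.2.2.1
    exact hm1 (hreg'.2.2.2 m hm a fa)

end Zas
end Cfsg.Agent.Lib.Helper4
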